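import Mathlib

set_option autoImplicit false

namespace Cfsg.Agent.Lib.Helper91.SpU

open Matrix

variable (m : ℕ) (K : Type*) [Field K]

/-- upper unitriangular `m × m` matrices -/
def IsUT (A : Matrix (Fin m) (Fin m) K) : Prop :=
  (∀ i j : Fin m, j < i → A i j = 0) ∧ ∀ i : Fin m, A i i = 1

/-- membership predicate of the standard Sylow `p`-subgroup of `Sp_{2m}(K)`: block form
`[A B; 0 D]` with `A` upper unitriangular -/
def InU (g : Matrix.symplecticGroup (Fin m) K) : Prop :=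
  g.1.toBlocks₂₁ = 0 ∧ IsUT m K g.1.toBlocks₁₁

/-- the Siegel element `[1 B; 0 1]`, `B` symmetric -/
def sq (B : Matrix (Fin m) (Fin m) K) (hB : Bᵀ = B) : Matrix.symplecticGroup (Fin m) K :=
  ⟨fromBlocks 1 B 0 1, by rw [SymplecticGroup.fromBlocks_mem_iff]; simp [hB]⟩

/-- the opposite Siegel element `[1 0; C 1]`, `C` symmetric -/
def sqL (C : Matrix (Fin m) (Fin m) K) (hC : Cᵀ = C) : Matrix.symplecticGroup (Fin m) K :=
  ⟨fromBlocks 1 0 C 1, by rw [SymplecticGroup.fromBlocks_mem_iff]; simp [hC]⟩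

theorem sq_coe (B : Matrix (Fin m) (Fin m) K) (hB : Bᵀ = B) :
    (sq m K B hB).1 = fromBlocks 1 B 0 1 := rfl

theorem sqL_coe (C : Matrix (Fin m) (Fin m) K) (hC : Cᵀ = C) :
    (sqL m K C hC).1 = fromBlocks 1 0 C 1 := rfl

/-- the Levi embedding `A ↦ [A 0; 0 (A⁻¹)ᵀ]` of `GL_m(K)` into `Sp_{2m}(K)` -/
def sphi : GL (Fin m) K →* Matrix.symplecticGroup (Fin m) K where
  toFun A := ⟨fromBlocks A.1 0 0 (A⁻¹).1ᵀ, by
    rw [SymplecticGroup.fromBlocks_mem_iff]
    refine ⟨by simp, by simp, ?_⟩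
    rw [Matrix.mul_zero, sub_zero, ← Matrix.transpose_mul]
    have : (A⁻¹).1 * A.1 = 1 := by
      rw [← Units.val_mul, inv_mul_cancel, Units.val_one]
    rw [this, Matrix.transpose_one]⟩
  map_one' := by
    apply Subtype.ext
    simp
  map_mul' A A' := by
    apply Subtype.ext
    change fromBlocks (A * A').1 0 0 ((A * A')⁻¹).1ᵀ =
      fromBlocks A.1 0 0 (A⁻¹).1ᵀ * fromBlocks A'.1 0 0 (A'⁻¹).1ᵀ
    rw [Matrix.fromBlocks_multiply, _root_.mul_inv_rev, Units.val_mul, Units.val_mul,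
      Matrix.transpose_mul]
    simp only [Matrix.mul_zero, Matrix.zero_mul, add_zero, zero_add]

theorem sphi_coe (A : GL (Fin m) K) : (sphi m K A).1 = fromBlocks A.1 0 0 (A⁻¹).1ᵀ := rfl

/-- the embedding of `SL_m(K)` -/
def slphi : SpecialLinearGroup (Fin m) K →* Matrix.symplecticGroup (Fin m) K :=
  (sphi m K).comp SpecialLinearGroup.toGL

theorem slphi_apply (s : SpecialLinearGroup (Fin m) K) :
    slphi m K s = sphi m K (SpecialLinearGroup.toGL s) := rfl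

/-- long root elements `1 + a E_{e_i, f_i}` -/
def yy (i : Fin m) (a : K) : Matrix.symplecticGroup (Fin m) K :=
  sq m K (Matrix.single i i a) (by simp)

/-- opposite long root elements `1 + a E_{f_i, e_i}` -/
def zz (i : Fin m) (a : K) : Matrix.symplecticGroup (Fin m) K :=
  sqL m K (Matrix.single i i a) (by simp)

theorem yy_coe (i : Fin m) (a : K) :
    (yy m K i a).1 = fromBlocks 1 (Matrix.single i i a) 0 1 := rfl

theorem zz_coe (i : Fin m) (a : K) :
    (zz m K i a).1 = fromBlocks 1 0 (Matrix.single i i a) 1 := rfl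

theorem sq_mul (B B' : Matrix (Fin m) (Fin m) K) (hB : Bᵀ = B) (hB' : B'ᵀ = B')
    (hBB' : (B + B')ᵀ = B + B') : sq m K B hB * sq m K B' hB' = sq m K (B + B') hBB' := by
  apply Subtype.ext
  change fromBlocks 1 B 0 1 * fromBlocks 1 B' 0 1 = fromBlocks 1 (B + B') 0 1
  rw [Matrix.fromBlocks_multiply]
  simp [add_comm]

theorem sq_zero (h0 : (0 : Matrix (Fin m) (Fin m) K)ᵀ = 0) : sq m K 0 h0 = 1 := by
  apply Subtype.ext
  change fromBlocks 1 0 0 1 = (1 : Matrix (Fin m ⊕ Fin m) (Fin m ⊕ Fin m) K)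
  exact Matrix.fromBlocks_one

theorem sq_inv (B : Matrix (Fin m) (Fin m) K) (hB : Bᵀ = B) (hB' : (-B)ᵀ = -B) :
    (sq m K B hB)⁻¹ = sq m K (-B) hB' := by
  apply inv_eq_of_mul_eq_one_right
  rw [sq_mul m K B (-B) hB hB' (by simp)]
  apply Subtype.ext
  change fromBlocks 1 (B + -B) 0 1 = (1 : Matrix (Fin m ⊕ Fin m) (Fin m ⊕ Fin m) K)
  rw [add_neg_cancel]
  exact Matrix.fromBlocks_one

theorem sphi_conj_sq (A : GL (Fin m) K) (B : Matrix (Fin m) (Fin m) K) (hB : Bᵀ = B)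
    (hB' : (A.1 * B * A.1ᵀ)ᵀ = A.1 * B * A.1ᵀ) :
    sphi m K A * sq m K B hB * (sphi m K A)⁻¹ = sq m K (A.1 * B * A.1ᵀ) hB' := by
  rw [mul_inv_eq_iff_eq_mul]
  apply Subtype.ext
  change fromBlocks A.1 0 0 (A⁻¹).1ᵀ * fromBlocks 1 B 0 1 =
    fromBlocks 1 (A.1 * B * A.1ᵀ) 0 1 * fromBlocks A.1 0 0 (A⁻¹).1ᵀ
  rw [Matrix.fromBlocks_multiply, Matrix.fromBlocks_multiply]
  have h1 : A.1ᵀ * (A⁻¹).1ᵀ = 1 := by
    rw [← Matrix.transpose_mul, ← Units.val_mul, inv_mul_cancel, Units.val_one,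
      Matrix.transpose_one]
  simp only [Matrix.mul_zero, Matrix.zero_mul, add_zero, zero_add, Matrix.mul_one,
    Matrix.one_mul, Matrix.mul_assoc, h1]

theorem sq_inU (B : Matrix (Fin m) (Fin m) K) (hB : Bᵀ = B) : InU m K (sq m K B hB) := by
  refine ⟨?_, ?_, ?_⟩
  · rw [sq_coe, Matrix.toBlocks_fromBlocks₂₁]
  · intro i j hji
    rw [sq_coe, Matrix.toBlocks_fromBlocks₁₁, Matrix.one_apply_ne (ne_of_gt hji)]
  · intro i
    rw [sq_coe, Matrix.toBlocks_fromBlocks₁₁, Matrix.one_apply_eq]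

theorem sphi_inU (A : GL (Fin m) K) (hA : IsUT m K A.1) : InU m K (sphi m K A) := by
  refine ⟨?_, ?_⟩
  · rw [sphi_coe, Matrix.toBlocks_fromBlocks₂₁]
  · rw [sphi_coe, Matrix.toBlocks_fromBlocks₁₁]
    exact hA

theorem sqL_mul (C C' : Matrix (Fin m) (Fin m) K) (hC : Cᵀ = C) (hC' : C'ᵀ = C')
    (hCC' : (C + C')ᵀ = C + C') : sqL m K C hC * sqL m K C' hC' = sqL m K (C + C') hCC' := by
  apply Subtype.ext
  change fromBlocks 1 0 C 1 * fromBlocks 1 0 C' 1 = fromBlocks 1 0 (C + C') 1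
  rw [Matrix.fromBlocks_multiply]
  simp

theorem sqL_zero (h0 : (0 : Matrix (Fin m) (Fin m) K)ᵀ = 0) : sqL m K 0 h0 = 1 := by
  apply Subtype.ext
  change fromBlocks 1 0 0 1 = (1 : Matrix (Fin m ⊕ Fin m) (Fin m ⊕ Fin m) K)
  exact Matrix.fromBlocks_one

theorem yy_mul (i : Fin m) (a b : K) : yy m K i a * yy m K i b = yy m K i (a + b) := by
  unfold yy
  rw [sq_mul m K _ _ _ _ (by simp)]
  congr 1
  rw [Matrix.single_add]

theorem yy_zero (i : Fin m) : yy m K i 0 = 1 := by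
  unfold yy
  rw [← sq_zero m K (by simp)]
  congr 1
  simp

theorem zz_mul (i : Fin m) (a b : K) : zz m K i a * zz m K i b = zz m K i (a + b) := by
  unfold zz
  rw [sqL_mul m K _ _ _ _ (by simp)]
  congr 1
  rw [Matrix.single_add]

theorem zz_zero (i : Fin m) : zz m K i 0 = 1 := by
  unfold zz
  rw [← sqL_zero m K (by simp)]
  congr 1
  simp

theorem yy_inv (i : Fin m) (a : K) : (yy m K i a)⁻¹ = yy m K i (-a) := by
  apply inv_eq_of_mul_eq_one_right
  rw [yy_mul, add_neg_cancel, yy_zero]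

theorem zz_inv (i : Fin m) (a : K) : (zz m K i a)⁻¹ = zz m K i (-a) := by
  apply inv_eq_of_mul_eq_one_right
  rw [zz_mul, add_neg_cancel, zz_zero]

theorem yy_pow (i : Fin m) (a : K) (n : ℕ) : yy m K i a ^ n = yy m K i ((n : K) * a) := by
  induction n with
  | zero => simp [yy_zero]
  | succ n ih =>
    rw [pow_succ, ih, yy_mul]
    congr 1
    push_cast
    ring

theorem zz_pow (i : Fin m) (a : K) (n : ℕ) : zz m K i a ^ n = zz m K i ((n : K) * a) := by
  induction n with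
  | zero => simp [zz_zero]
  | succ n ih =>
    rw [pow_succ, ih, zz_mul]
    congr 1
    push_cast
    ring

theorem yy_inU (i : Fin m) (a : K) : InU m K (yy m K i a) := sq_inU m K _ _

end Cfsg.Agent.Lib.Helper91.SpU
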