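import Mathlib
import Cfsg.Agent.Lib.Helper91.SpU

set_option autoImplicit false

namespace Cfsg.Agent.Lib.Helper91.SuU

open Matrix Cfsg.Agent.Lib.Helper91.SpU

variable (l : ℕ) (K : Type*) [Field K] (σ : K →+* K)

/-- the Gram matrix `[0 1; 1 0]` -/
def JJ : Matrix (Fin l ⊕ Fin l) (Fin l ⊕ Fin l) K := fromBlocks 0 1 1 0

/-- the special unitary group of the `σ`-hermitian form with Gram matrix `[0 1; 1 0]`
(`σ` a ring endomorphism of `K`; in the applications an involution), inside `SL_{2l}(K)` -/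
def GU : Subgroup (SpecialLinearGroup (Fin l ⊕ Fin l) K) where
  carrier := {g | g.1ᵀ * JJ l K * g.1.map σ = JJ l K}
  mul_mem' := by
    intro g h hg hh
    change (g.1 * h.1)ᵀ * JJ l K * (g.1 * h.1).map σ = JJ l K
    rw [Matrix.transpose_mul, Matrix.map_mul]
    calc h.1ᵀ * g.1ᵀ * JJ l K * (g.1.map σ * h.1.map σ)
        = h.1ᵀ * (g.1ᵀ * JJ l K * g.1.map σ) * h.1.map σ := by simp only [Matrix.mul_assoc]
      _ = JJ l K := by rw [hg]; exact hh
  one_mem' := by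
    change (1 : Matrix (Fin l ⊕ Fin l) (Fin l ⊕ Fin l) K)ᵀ * JJ l K *
      (1 : Matrix (Fin l ⊕ Fin l) (Fin l ⊕ Fin l) K).map σ = JJ l K
    rw [Matrix.transpose_one, Matrix.map_one _ (map_zero σ) (map_one σ), Matrix.one_mul,
      Matrix.mul_one]
  inv_mem' := by
    intro g hg
    change (g⁻¹).1ᵀ * JJ l K * (g⁻¹).1.map σ = JJ l K
    have h1 : (g⁻¹).1ᵀ * g.1ᵀ = 1 := by
      rw [← Matrix.transpose_mul]
      have : g.1 * (g⁻¹).1 = 1 := congrArg Subtype.val (mul_inv_cancel g)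
      rw [this, Matrix.transpose_one]
    have h2 : g.1.map σ * (g⁻¹).1.map σ = 1 := by
      rw [← Matrix.map_mul]
      have : g.1 * (g⁻¹).1 = 1 := congrArg Subtype.val (mul_inv_cancel g)
      rw [this, Matrix.map_one _ (map_zero σ) (map_one σ)]
    calc (g⁻¹).1ᵀ * JJ l K * (g⁻¹).1.map σ
        = (g⁻¹).1ᵀ * (g.1ᵀ * JJ l K * g.1.map σ) * (g⁻¹).1.map σ := by rw [hg]
      _ = ((g⁻¹).1ᵀ * g.1ᵀ) * JJ l K * (g.1.map σ * (g⁻¹).1.map σ) := by
          simp only [Matrix.mul_assoc]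
      _ = JJ l K := by rw [h1, h2, Matrix.one_mul, Matrix.mul_one]

theorem mem_GU_iff (g : SpecialLinearGroup (Fin l ⊕ Fin l) K) :
    g ∈ GU l K σ ↔ g.1ᵀ * JJ l K * g.1.map σ = JJ l K := Iff.rfl

/-- the underlying matrix -/
def mat (g : GU l K σ) : Matrix (Fin l ⊕ Fin l) (Fin l ⊕ Fin l) K := g.1.1

theorem mat_mul (g h : GU l K σ) : mat l K σ (g * h) = mat l K σ g * mat l K σ h := rfl

theorem mat_one : mat l K σ (1 : GU l K σ) = 1 := rfl

theorem mat_ext {g h : GU l K σ} (e : mat l K σ g = mat l K σ h) : g = h :=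
  Subtype.ext (Subtype.ext e)

theorem mat_mem (g : GU l K σ) :
    (mat l K σ g)ᵀ * JJ l K * (mat l K σ g).map σ = JJ l K := g.2

theorem mat_det (g : GU l K σ) : (mat l K σ g).det = 1 := g.1.2

/-- membership predicate of the standard Sylow `p`-subgroup: block form `[A B; 0 D]`, `A` upper
unitriangular -/
def InU (g : GU l K σ) : Prop :=
  (mat l K σ g).toBlocks₂₁ = 0 ∧ IsUT l K (mat l K σ g).toBlocks₁₁

/-- the Siegel element `[1 B; 0 1]`, `B` skew-hermitian: `σ(B) = -Bᵀ` -/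
def usq (B : Matrix (Fin l) (Fin l) K) (hB : B.map σ = -Bᵀ) : GU l K σ :=
  ⟨⟨fromBlocks 1 B 0 1, by rw [Matrix.det_fromBlocks_zero₂₁]; simp⟩, by
    change (fromBlocks 1 B 0 1)ᵀ * JJ l K * (fromBlocks 1 B 0 1).map σ = JJ l K
    rw [Matrix.fromBlocks_transpose, Matrix.fromBlocks_map, JJ, Matrix.fromBlocks_multiply,
      Matrix.fromBlocks_multiply, hB]
    simp [Matrix.map_one, Matrix.map_zero]⟩

/-- the opposite Siegel element `[1 0; C 1]`, `C` skew-hermitian -/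
def usqL (C : Matrix (Fin l) (Fin l) K) (hC : C.map σ = -Cᵀ) : GU l K σ :=
  ⟨⟨fromBlocks 1 0 C 1, by rw [Matrix.det_fromBlocks_zero₁₂]; simp⟩, by
    change (fromBlocks 1 0 C 1)ᵀ * JJ l K * (fromBlocks 1 0 C 1).map σ = JJ l K
    rw [Matrix.fromBlocks_transpose, Matrix.fromBlocks_map, JJ, Matrix.fromBlocks_multiply,
      Matrix.fromBlocks_multiply, hC]
    simp [Matrix.map_one, Matrix.map_zero]⟩

theorem usq_mat (B : Matrix (Fin l) (Fin l) K) (hB : B.map σ = -Bᵀ) :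
    mat l K σ (usq l K σ B hB) = fromBlocks 1 B 0 1 := rfl

theorem usqL_mat (C : Matrix (Fin l) (Fin l) K) (hC : C.map σ = -Cᵀ) :
    mat l K σ (usqL l K σ C hC) = fromBlocks 1 0 C 1 := rfl

/-- the Levi embedding `A ↦ [A 0; 0 σ(A⁻¹)ᵀ]` of `SL_l(K)` (for an involution `σ`) -/
def uphi (hσ : ∀ x, σ (σ x) = x) : SpecialLinearGroup (Fin l) K →* GU l K σ where
  toFun s := ⟨⟨fromBlocks (s : Matrix (Fin l) (Fin l) K) 0 0
        (((s⁻¹ : SpecialLinearGroup (Fin l) K) : Matrix (Fin l) (Fin l) K).map σ)ᵀ, by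
      rw [Matrix.det_fromBlocks_zero₂₁, Matrix.det_transpose, s.det_coe, one_mul]
      have : (((s⁻¹ : SpecialLinearGroup (Fin l) K) : Matrix (Fin l) (Fin l) K).map σ).det =
          σ (((s⁻¹ : SpecialLinearGroup (Fin l) K) : Matrix (Fin l) (Fin l) K).det) := by
        rw [← RingHom.mapMatrix_apply, ← RingHom.map_det]
      rw [this, (s⁻¹).det_coe, map_one]⟩, by
    change (fromBlocks (s : Matrix (Fin l) (Fin l) K) 0 0
        (((s⁻¹ : SpecialLinearGroup (Fin l) K) : Matrix (Fin l) (Fin l) K).map σ)ᵀ)ᵀ * JJ l K *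
      (fromBlocks (s : Matrix (Fin l) (Fin l) K) 0 0
        (((s⁻¹ : SpecialLinearGroup (Fin l) K) : Matrix (Fin l) (Fin l) K).map σ)ᵀ).map σ = JJ l K
    have h1 : ((s⁻¹ : SpecialLinearGroup (Fin l) K) : Matrix (Fin l) (Fin l) K) *
        (s : Matrix (Fin l) (Fin l) K) = 1 := congrArg Subtype.val (inv_mul_cancel s)
    have h2 : (((s⁻¹ : SpecialLinearGroup (Fin l) K) : Matrix (Fin l) (Fin l) K).map σ).map σ =
        ((s⁻¹ : SpecialLinearGroup (Fin l) K) : Matrix (Fin l) (Fin l) K) := by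
      ext i j
      simp [hσ]
    rw [Matrix.fromBlocks_transpose, Matrix.fromBlocks_map, JJ, Matrix.fromBlocks_multiply,
      Matrix.fromBlocks_multiply]
    simp only [Matrix.transpose_zero, Matrix.transpose_transpose, Matrix.map_zero _ (map_zero σ),
      Matrix.mul_zero, Matrix.zero_mul, Matrix.mul_one, add_zero, zero_add,
      Matrix.transpose_map, h2]
    rw [← Matrix.transpose_mul, h1, Matrix.transpose_one, ← Matrix.map_mul, h1,
      Matrix.map_one _ (map_zero σ) (map_one σ)]⟩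
  map_one' := by
    apply mat_ext
    change fromBlocks ((1 : SpecialLinearGroup (Fin l) K) : Matrix (Fin l) (Fin l) K) 0 0
      ((((1 : SpecialLinearGroup (Fin l) K)⁻¹ : SpecialLinearGroup (Fin l) K) :
        Matrix (Fin l) (Fin l) K).map σ)ᵀ = 1
    simp only [inv_one]
    change fromBlocks (1 : Matrix (Fin l) (Fin l) K) 0 0
      ((1 : Matrix (Fin l) (Fin l) K).map σ)ᵀ = 1
    rw [Matrix.map_one _ (map_zero σ) (map_one σ), Matrix.transpose_one, Matrix.fromBlocks_one]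
  map_mul' s t := by
    apply mat_ext
    change fromBlocks ((s * t : SpecialLinearGroup (Fin l) K) : Matrix (Fin l) (Fin l) K) 0 0
        ((((s * t)⁻¹ : SpecialLinearGroup (Fin l) K) : Matrix (Fin l) (Fin l) K).map σ)ᵀ =
      fromBlocks (s : Matrix (Fin l) (Fin l) K) 0 0
        (((s⁻¹ : SpecialLinearGroup (Fin l) K) : Matrix (Fin l) (Fin l) K).map σ)ᵀ *
      fromBlocks (t : Matrix (Fin l) (Fin l) K) 0 0
        (((t⁻¹ : SpecialLinearGroup (Fin l) K) : Matrix (Fin l) (Fin l) K).map σ)ᵀ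
    simp only [Matrix.fromBlocks_multiply, _root_.mul_inv_rev, Matrix.mul_zero, Matrix.zero_mul,
      add_zero, zero_add]
    change fromBlocks ((s : Matrix (Fin l) (Fin l) K) * (t : Matrix (Fin l) (Fin l) K)) 0 0
        ((((t⁻¹ : SpecialLinearGroup (Fin l) K) : Matrix (Fin l) (Fin l) K) *
          ((s⁻¹ : SpecialLinearGroup (Fin l) K) : Matrix (Fin l) (Fin l) K)).map σ)ᵀ = _
    rw [Matrix.map_mul, Matrix.transpose_mul]

theorem uphi_mat (hσ : ∀ x, σ (σ x) = x) (s : SpecialLinearGroup (Fin l) K) :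
    mat l K σ (uphi l K σ hσ s) = fromBlocks (s : Matrix (Fin l) (Fin l) K) 0 0
      (((s⁻¹ : SpecialLinearGroup (Fin l) K) : Matrix (Fin l) (Fin l) K).map σ)ᵀ := rfl

theorem usq_mul (B B' : Matrix (Fin l) (Fin l) K) (hB : B.map σ = -Bᵀ) (hB' : B'.map σ = -B'ᵀ)
    (hBB' : (B + B').map σ = -(B + B')ᵀ) :
    usq l K σ B hB * usq l K σ B' hB' = usq l K σ (B + B') hBB' := by
  apply mat_ext
  change fromBlocks 1 B 0 1 * fromBlocks 1 B' 0 1 = fromBlocks 1 (B + B') 0 1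
  rw [Matrix.fromBlocks_multiply]
  simp [add_comm]

theorem usq_zero (h0 : (0 : Matrix (Fin l) (Fin l) K).map σ = -(0 : Matrix (Fin l) (Fin l) K)ᵀ) :
    usq l K σ 0 h0 = 1 := by
  apply mat_ext
  change fromBlocks 1 0 0 1 = (1 : Matrix (Fin l ⊕ Fin l) (Fin l ⊕ Fin l) K)
  exact Matrix.fromBlocks_one

theorem skew_zero : (0 : Matrix (Fin l) (Fin l) K).map σ = -(0 : Matrix (Fin l) (Fin l) K)ᵀ := by
  ext i j
  simp

theorem skew_add {B B' : Matrix (Fin l) (Fin l) K} (hB : B.map σ = -Bᵀ) (hB' : B'.map σ = -B'ᵀ) :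
    (B + B').map σ = -(B + B')ᵀ := by
  rw [Matrix.map_add (f := σ) (map_add σ), hB, hB', Matrix.transpose_add, neg_add]

theorem skew_neg {B : Matrix (Fin l) (Fin l) K} (hB : B.map σ = -Bᵀ) :
    (-B).map σ = -(-B)ᵀ := by
  rw [Matrix.map_neg (f := σ) (map_neg σ), hB, Matrix.transpose_neg]

theorem usq_inv (B : Matrix (Fin l) (Fin l) K) (hB : B.map σ = -Bᵀ) (hB' : (-B).map σ = -(-B)ᵀ) :
    (usq l K σ B hB)⁻¹ = usq l K σ (-B) hB' := by
  apply inv_eq_of_mul_eq_one_right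
  rw [usq_mul l K σ B (-B) hB hB' (skew_add l K σ hB hB')]
  apply mat_ext
  change fromBlocks 1 (B + -B) 0 1 = (1 : Matrix (Fin l ⊕ Fin l) (Fin l ⊕ Fin l) K)
  rw [add_neg_cancel]
  exact Matrix.fromBlocks_one

theorem usqL_mul (C C' : Matrix (Fin l) (Fin l) K) (hC : C.map σ = -Cᵀ) (hC' : C'.map σ = -C'ᵀ)
    (hCC' : (C + C').map σ = -(C + C')ᵀ) :
    usqL l K σ C hC * usqL l K σ C' hC' = usqL l K σ (C + C') hCC' := by
  apply mat_ext
  change fromBlocks 1 0 C 1 * fromBlocks 1 0 C' 1 = fromBlocks 1 0 (C + C') 1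
  rw [Matrix.fromBlocks_multiply]
  simp

theorem usqL_zero (h0 : (0 : Matrix (Fin l) (Fin l) K).map σ = -(0 : Matrix (Fin l) (Fin l) K)ᵀ) :
    usqL l K σ 0 h0 = 1 := by
  apply mat_ext
  change fromBlocks 1 0 0 1 = (1 : Matrix (Fin l ⊕ Fin l) (Fin l ⊕ Fin l) K)
  exact Matrix.fromBlocks_one

theorem uphi_conj_usq (hσ : ∀ x, σ (σ x) = x) (s : SpecialLinearGroup (Fin l) K)
    (B : Matrix (Fin l) (Fin l) K) (hB : B.map σ = -Bᵀ)
    (hB' : ((s : Matrix (Fin l) (Fin l) K) * B * ((s : Matrix (Fin l) (Fin l) K).map σ)ᵀ).map σ =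
      -((s : Matrix (Fin l) (Fin l) K) * B * ((s : Matrix (Fin l) (Fin l) K).map σ)ᵀ)ᵀ) :
    uphi l K σ hσ s * usq l K σ B hB * (uphi l K σ hσ s)⁻¹ =
      usq l K σ ((s : Matrix (Fin l) (Fin l) K) * B *
        ((s : Matrix (Fin l) (Fin l) K).map σ)ᵀ) hB' := by
  rw [mul_inv_eq_iff_eq_mul]
  apply mat_ext
  change fromBlocks (s : Matrix (Fin l) (Fin l) K) 0 0
      (((s⁻¹ : SpecialLinearGroup (Fin l) K) : Matrix (Fin l) (Fin l) K).map σ)ᵀ *
      fromBlocks 1 B 0 1 =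
    fromBlocks 1 ((s : Matrix (Fin l) (Fin l) K) * B *
        ((s : Matrix (Fin l) (Fin l) K).map σ)ᵀ) 0 1 *
      fromBlocks (s : Matrix (Fin l) (Fin l) K) 0 0
        (((s⁻¹ : SpecialLinearGroup (Fin l) K) : Matrix (Fin l) (Fin l) K).map σ)ᵀ
  rw [Matrix.fromBlocks_multiply, Matrix.fromBlocks_multiply]
  have h1 : ((s : Matrix (Fin l) (Fin l) K).map σ)ᵀ *
      (((s⁻¹ : SpecialLinearGroup (Fin l) K) : Matrix (Fin l) (Fin l) K).map σ)ᵀ = 1 := by
    rw [← Matrix.transpose_mul, ← Matrix.map_mul]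
    have : ((s⁻¹ : SpecialLinearGroup (Fin l) K) : Matrix (Fin l) (Fin l) K) *
        (s : Matrix (Fin l) (Fin l) K) = 1 := congrArg Subtype.val (inv_mul_cancel s)
    rw [this, Matrix.map_one _ (map_zero σ) (map_one σ), Matrix.transpose_one]
  simp only [Matrix.mul_zero, Matrix.zero_mul, add_zero, zero_add, Matrix.mul_one,
    Matrix.one_mul, Matrix.mul_assoc, h1]

theorem usq_inU (B : Matrix (Fin l) (Fin l) K) (hB : B.map σ = -Bᵀ) :
    InU l K σ (usq l K σ B hB) := by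
  refine ⟨?_, ?_, ?_⟩
  · rw [usq_mat, Matrix.toBlocks_fromBlocks₂₁]
  · intro i j hji
    rw [usq_mat, Matrix.toBlocks_fromBlocks₁₁, Matrix.one_apply_ne (ne_of_gt hji)]
  · intro i
    rw [usq_mat, Matrix.toBlocks_fromBlocks₁₁, Matrix.one_apply_eq]

theorem uphi_inU (hσ : ∀ x, σ (σ x) = x) (s : SpecialLinearGroup (Fin l) K)
    (hs : IsUT l K (s : Matrix (Fin l) (Fin l) K)) : InU l K σ (uphi l K σ hσ s) := by
  refine ⟨?_, ?_⟩
  · rw [uphi_mat, Matrix.toBlocks_fromBlocks₂₁]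
  · rw [uphi_mat, Matrix.toBlocks_fromBlocks₁₁]
    exact hs

theorem skew_single (i : Fin l) (b : K) (hb : σ b = -b) :
    (Matrix.single i i b).map σ = -(Matrix.single i i b)ᵀ := by
  rw [Matrix.transpose_single]
  ext r s
  simp only [Matrix.map_apply, Matrix.single_apply, Matrix.neg_apply]
  split_ifs
  · exact hb
  · simp

/-- long root elements `1 + b E_{e_i, f_i}`, `σ b = -b` -/
def uyy (i : Fin l) (b : K) (hb : σ b = -b) : GU l K σ :=
  usq l K σ (Matrix.single i i b) (skew_single l K σ i b hb)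

/-- opposite long root elements `1 + b E_{f_i, e_i}`, `σ b = -b` -/
def uzz (i : Fin l) (b : K) (hb : σ b = -b) : GU l K σ :=
  usqL l K σ (Matrix.single i i b) (skew_single l K σ i b hb)

theorem uyy_mat (i : Fin l) (b : K) (hb : σ b = -b) :
    mat l K σ (uyy l K σ i b hb) = fromBlocks 1 (Matrix.single i i b) 0 1 := rfl

theorem uzz_mat (i : Fin l) (b : K) (hb : σ b = -b) :
    mat l K σ (uzz l K σ i b hb) = fromBlocks 1 0 (Matrix.single i i b) 1 := rfl

theorem uyy_mul (i : Fin l) (a b : K) (ha : σ a = -a) (hb : σ b = -b) (hab : σ (a + b) = -(a + b)) :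
    uyy l K σ i a ha * uyy l K σ i b hb = uyy l K σ i (a + b) hab := by
  apply mat_ext
  rw [mat_mul, uyy_mat, uyy_mat, uyy_mat, Matrix.fromBlocks_multiply]
  simp [Matrix.single_add, add_comm]

theorem uzz_mul (i : Fin l) (a b : K) (ha : σ a = -a) (hb : σ b = -b) (hab : σ (a + b) = -(a + b)) :
    uzz l K σ i a ha * uzz l K σ i b hb = uzz l K σ i (a + b) hab := by
  apply mat_ext
  rw [mat_mul, uzz_mat, uzz_mat, uzz_mat, Matrix.fromBlocks_multiply]
  simp [Matrix.single_add]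

theorem uyy_zero (i : Fin l) (h0 : σ (0 : K) = -0) : uyy l K σ i 0 h0 = 1 := by
  apply mat_ext
  rw [uyy_mat, mat_one, Matrix.single_zero, Matrix.fromBlocks_one]

theorem uzz_zero (i : Fin l) (h0 : σ (0 : K) = -0) : uzz l K σ i 0 h0 = 1 := by
  apply mat_ext
  rw [uzz_mat, mat_one, Matrix.single_zero, Matrix.fromBlocks_one]

theorem uyy_inU (i : Fin l) (b : K) (hb : σ b = -b) : InU l K σ (uyy l K σ i b hb) :=
  usq_inU l K σ _ _

theorem sig_neg {b : K} (hb : σ b = -b) : σ (-b) = -(-b) := by rw [map_neg, hb]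

theorem sig_nsmul {b : K} (hb : σ b = -b) (n : ℕ) : σ ((n : K) * b) = -((n : K) * b) := by
  rw [map_mul, map_natCast, hb, mul_neg]

theorem uyy_inv (i : Fin l) (b : K) (hb : σ b = -b) :
    (uyy l K σ i b hb)⁻¹ = uyy l K σ i (-b) (sig_neg K σ hb) := by
  apply inv_eq_of_mul_eq_one_right
  rw [uyy_mul l K σ i b (-b) hb (sig_neg K σ hb) (by rw [add_neg_cancel, map_zero, neg_zero])]
  apply mat_ext
  rw [uyy_mat, mat_one, add_neg_cancel, Matrix.single_zero, Matrix.fromBlocks_one]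

theorem uzz_inv (i : Fin l) (b : K) (hb : σ b = -b) :
    (uzz l K σ i b hb)⁻¹ = uzz l K σ i (-b) (sig_neg K σ hb) := by
  apply inv_eq_of_mul_eq_one_right
  rw [uzz_mul l K σ i b (-b) hb (sig_neg K σ hb) (by rw [add_neg_cancel, map_zero, neg_zero])]
  apply mat_ext
  rw [uzz_mat, mat_one, add_neg_cancel, Matrix.single_zero, Matrix.fromBlocks_one]

theorem uyy_pow (i : Fin l) (b : K) (hb : σ b = -b) (n : ℕ) :
    uyy l K σ i b hb ^ n = uyy l K σ i ((n : K) * b) (sig_nsmul K σ hb n) := by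
  induction n with
  | zero =>
    apply mat_ext
    rw [pow_zero, uyy_mat, mat_one, Nat.cast_zero, zero_mul, Matrix.single_zero,
      Matrix.fromBlocks_one]
  | succ n ih =>
    rw [pow_succ, ih, uyy_mul l K σ i _ _ _ hb
      (by rw [map_add, sig_nsmul K σ hb n, hb, neg_add])]
    apply mat_ext
    rw [uyy_mat, uyy_mat]
    congr 2
    push_cast
    ring

theorem uzz_pow (i : Fin l) (b : K) (hb : σ b = -b) (n : ℕ) :
    uzz l K σ i b hb ^ n = uzz l K σ i ((n : K) * b) (sig_nsmul K σ hb n) := by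
  induction n with
  | zero =>
    apply mat_ext
    rw [pow_zero, uzz_mat, mat_one, Nat.cast_zero, zero_mul, Matrix.single_zero,
      Matrix.fromBlocks_one]
  | succ n ih =>
    rw [pow_succ, ih, uzz_mul l K σ i _ _ _ hb
      (by rw [map_add, sig_nsmul K σ hb n, hb, neg_add])]
    apply mat_ext
    rw [uzz_mat, uzz_mat]
    congr 2
    push_cast
    ring

end Cfsg.Agent.Lib.Helper91.SuU
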