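import Mathlib
import Cfsg.Agent.Lib.Helper24.UniTri

set_option autoImplicit false

namespace Cfsg.Agent.Lib.Helper91.PslU

open Matrix Cfsg.Agent.Lib.Helper24

/-- the grading making `utSubgroup` the upper unitriangular group -/
def gr (n : ℕ) : Fin n → ℕ := fun i => n - 1 - (i : ℕ)

/-- the upper unitriangular matrices, as a subgroup of `SL_n(K)` -/
def UU (n : ℕ) (K : Type*) [Field K] : Subgroup (SpecialLinearGroup (Fin n) K) :=
  (utSubgroup (R := K) (gr n) 1 le_rfl).comap SpecialLinearGroup.toGL

theorem mem_UU_iff (n : ℕ) (K : Type*) [Field K] (g : SpecialLinearGroup (Fin n) K) :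
    g ∈ UU n K ↔ (∀ i j : Fin n, j < i → g.1 i j = 0) ∧ ∀ i : Fin n, g.1 i i = 1 := by
  have hmem : g ∈ UU n K ↔ StrictTri (gr n) 1 (g.1 - 1) := Iff.rfl
  rw [hmem]
  constructor
  · intro h
    refine ⟨fun i j hji => ?_, fun i => ?_⟩
    · by_contra hne
      have h1 : (g.1 - 1) i j ≠ 0 := by
        rw [Matrix.sub_apply, Matrix.one_apply_ne (ne_of_gt hji), sub_zero]
        exact hne
      have := h i j h1
      have hi := i.2
      have hj := j.2
      have hji' : (j : ℕ) < (i : ℕ) := hji
      unfold gr at this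
      omega
    · by_contra hne
      have h1 : (g.1 - 1) i i ≠ 0 := by
        rw [Matrix.sub_apply, Matrix.one_apply_eq]
        exact sub_ne_zero.mpr hne
      have := h i i h1
      omega
  · rintro ⟨h1, h2⟩ i j hij
    by_contra hcon
    apply hij
    rcases lt_trichotomy i j with hlt | heq | hgt
    · exfalso
      apply hcon
      have hi := i.2
      have hj := j.2
      have hlt' : (i : ℕ) < (j : ℕ) := hlt
      unfold gr
      omega
    · subst heq
      rw [Matrix.sub_apply, Matrix.one_apply_eq, h2, sub_self]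
    · rw [Matrix.sub_apply, Matrix.one_apply_ne (ne_of_gt hgt), sub_zero, h1 i j hgt]

end Cfsg.Agent.Lib.Helper91.PslU
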