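import Mathlib
import Cfsg.Prelude.Def_GeometricClasses
import Cfsg.Prelude.Def_LieClassical

/-!
Project SUQ (S5841, architect helper50): piece F4PL, proved by helper91.
Over the field with four elements a non-degenerate unitary plane has exactly two non-isotropic
points, and they are orthogonal.
-/

set_option autoImplicit false

namespace Cfsg.Agent.Lib.Helper91.SUQF4PL

open Matrix Cfsg.Geo

variable {n : ℕ} {F : Type*} [Field F] [Fintype F] {q : ℕ}

/-- F4PL: over the field with four elements (`q = 2`) a non-degenerate unitary plane has exactly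
two non-isotropic points, and they are orthogonal. -/
theorem F4PL (hF : Fintype.card F = q ^ 2) (hq : q = 2) (W : Submodule F (Fin n → F))
    (hW : IsNondegenerateOn (Cfsg.hermForm n F q) W) (hdim : Module.finrank F W = 2) :
    ∃ v₁ v₂ : Fin n → F, v₁ ∈ W ∧ v₂ ∈ W ∧ Cfsg.hermForm n F q v₁ v₁ ≠ 0 ∧
      Cfsg.hermForm n F q v₂ v₂ ≠ 0 ∧ Cfsg.hermForm n F q v₁ v₂ = 0 ∧
      ∀ w ∈ W, Cfsg.hermForm n F q w w ≠ 0 → (∃ c : F, w = c • v₁) ∨ (∃ c : F, w = c • v₂) := by
  classical
  subst hq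
  have hcard : Fintype.card F = 4 := by rw [hF]; norm_num
  have h4 : ((4 : ℕ) : F) = 0 := by rw [← hcard]; exact FiniteField.cast_card_eq_zero F
  have h2 : (2 : F) = 0 := by
    have h22 : (2 : F) ^ 2 = 0 := by
      have : (2 : F) ^ 2 = ((4 : ℕ) : F) := by norm_num
      rw [this, h4]
    exact (pow_eq_zero_iff (two_ne_zero)).mp h22
  have hp4 : ∀ x : F, x ^ 4 = x := by intro x; rw [← hcard]; exact FiniteField.pow_card x
  have hp3 : ∀ x : F, x ≠ 0 → x ^ 3 = 1 := by
    intro x hx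
    have h1 : x * x ^ 3 = x * 1 := by rw [mul_one, ← pow_succ']; exact hp4 x
    exact mul_left_cancel₀ hx h1
  have hsq_add : ∀ a b : F, (a + b) ^ 2 = a ^ 2 + b ^ 2 := by
    intro a b
    have : (a + b) ^ 2 = a ^ 2 + b ^ 2 + 2 * (a * b) := by ring
    rw [this, h2, zero_mul, add_zero]
  obtain ⟨c₀, hc0, hc1⟩ : ∃ c : F, c ≠ 0 ∧ c ≠ 1 := by
    by_contra hcon
    push Not at hcon
    have hsub : (Finset.univ : Finset F) ⊆ {0, 1} := by
      intro x _
      by_cases hx : x = 0
      · simp [hx]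
      · simp [hcon x hx]
    have h1 := Finset.card_le_card hsub
    have h2' : ({0, 1} : Finset F).card ≤ 2 := Finset.card_le_two
    rw [Finset.card_univ, hcard] at h1
    omega
  set h := Cfsg.hermForm n F 2 with hh
  have hadd_left : ∀ u u' v, h (u + u') v = h u v + h u' v := by
    intro u u' v; simp [hh, Cfsg.hermForm, add_mul, Finset.sum_add_distrib]
  have hsmul_left : ∀ (c : F) u v, h (c • u) v = c * h u v := by
    intro c u v; simp [hh, Cfsg.hermForm, Finset.mul_sum, mul_assoc]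
  have hadd_right : ∀ u v v', h u (v + v') = h u v + h u v' := by
    intro u v v'; simp [hh, Cfsg.hermForm, hsq_add, mul_add, Finset.sum_add_distrib]
  have hsmul_right : ∀ (c : F) u v, h u (c • v) = c ^ 2 * h u v := by
    intro c u v
    simp only [hh, Cfsg.hermForm, Pi.smul_apply, smul_eq_mul, mul_pow, Finset.mul_sum]
    exact Finset.sum_congr rfl (fun i _ => by ring)
  have hsymm : ∀ u v, h v u = (h u v) ^ 2 := by
    intro u v
    have hsum : ∀ (s : Finset (Fin n)) (f : Fin n → F),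
        (∑ i ∈ s, f i) ^ 2 = ∑ i ∈ s, f i ^ 2 := by
      intro s f
      induction s using Finset.induction_on with
      | empty => simp
      | insert a s ha ih => rw [Finset.sum_insert ha, Finset.sum_insert ha, hsq_add, ih]
    simp only [hh, Cfsg.hermForm]
    rw [hsum]
    exact Finset.sum_congr rfl (fun i _ => by rw [mul_pow, ← pow_mul, hp4, mul_comm])
  have hzero : h 0 0 = 0 := by simp [hh, Cfsg.hermForm]
  have hval : ∀ v, h v v ≠ 0 → h v v = 1 := by
    intro v hv
    have h1 : h v v = (h v v) ^ 2 := hsymm v v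
    have h2' : h v v * (h v v - 1) = 0 := by rw [mul_sub, mul_one, ← sq, ← h1, sub_self]
    rcases mul_eq_zero.mp h2' with h3 | h3
    · exact absurd h3 hv
    · exact sub_eq_zero.mp h3
  -- a non-isotropic vector
  obtain ⟨v₁, hv₁W, hv₁⟩ : ∃ v₁ ∈ W, h v₁ v₁ ≠ 0 := by
    by_contra hcon
    push Not at hcon
    have hWne : W ≠ ⊥ := by
      intro hbot
      rw [hbot, finrank_bot] at hdim
      omega
    obtain ⟨w₀, hw₀W, hw₀⟩ := Submodule.exists_mem_ne_zero_of_ne_bot hWne
    obtain ⟨⟨z, hzW, hz⟩, -⟩ := hW w₀ hw₀W hw₀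
    have key : ∀ c : F, c ^ 2 * h z w₀ + c * (h z w₀) ^ 2 = 0 := by
      intro c
      have h0 := hcon (z + c • w₀) (W.add_mem hzW (W.smul_mem c hw₀W))
      simp only [hadd_left, hadd_right, hsmul_left, hsmul_right, hcon z hzW, hcon w₀ hw₀W,
        hsymm z w₀] at h0
      linear_combination h0
    have k1 := key 1
    have k2 := key c₀
    have ht2 : (h z w₀) ^ 2 = - h z w₀ := by linear_combination k1
    have h3 : h z w₀ * (c₀ * (c₀ - 1)) = 0 := by
      rw [ht2] at k2
      linear_combination k2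
    rcases mul_eq_zero.mp h3 with h5 | h5
    · exact hz h5
    · rcases mul_eq_zero.mp h5 with h6 | h6
      · exact hc0 h6
      · exact hc1 (sub_eq_zero.mp h6)
  have hv₁1 : h v₁ v₁ = 1 := hval v₁ hv₁
  have hv₁ne : v₁ ≠ 0 := by
    rintro rfl
    exact hv₁ hzero
  obtain ⟨u, huW, hu⟩ : ∃ u ∈ W, u ∉ Submodule.span F {v₁} := by
    by_contra hcon
    push Not at hcon
    have hle : W ≤ Submodule.span F {v₁} := hcon
    have h1 := Submodule.finrank_mono hle
    rw [finrank_span_singleton hv₁ne, hdim] at h1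
    omega
  have hsub_left : ∀ u u' v, h (u - u') v = h u v - h u' v := by
    intro u u' v
    have h1 := hadd_left (u - u') u' v
    rw [sub_add_cancel] at h1
    rw [h1]; ring
  have hv₂W : u - (h u v₁) • v₁ ∈ W := W.sub_mem huW (W.smul_mem _ hv₁W)
  have hv₂v₁ : h (u - (h u v₁) • v₁) v₁ = 0 := by
    rw [hsub_left, hsmul_left, hv₁1, mul_one, sub_self]
  have hv₂span : u - (h u v₁) • v₁ ∉ Submodule.span F {v₁} := by
    intro hmem
    apply hu
    have h1 : u = (u - (h u v₁) • v₁) + (h u v₁) • v₁ := by rw [sub_add_cancel]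
    rw [h1]
    exact Submodule.add_mem _ hmem
      (Submodule.smul_mem _ _ (Submodule.mem_span_singleton_self v₁))
  generalize u - (h u v₁) • v₁ = v₂ at hv₂W hv₂v₁ hv₂span
  have hv₁v₂ : h v₁ v₂ = 0 := by rw [hsymm v₂ v₁, hv₂v₁]; ring
  have hv₂ne : v₂ ≠ 0 := by
    intro h0
    apply hv₂span
    rw [h0]
    exact Submodule.zero_mem _
  have hli : LinearIndependent F ![v₁, v₂] := by
    rw [LinearIndependent.pair_iff]
    intro s t hst
    have h1 : h (s • v₁ + t • v₂) v₁ = 0 := by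
      rw [hst]
      simp [hh, Cfsg.hermForm]
    rw [hadd_left, hsmul_left, hsmul_left, hv₁1, hv₂v₁, mul_one, mul_zero, add_zero] at h1
    subst h1
    rw [zero_smul, zero_add] at hst
    exact ⟨rfl, (smul_eq_zero.mp hst).resolve_right hv₂ne⟩
  have hspan : ∀ w ∈ W, ∃ a b : F, w = a • v₁ + b • v₂ := by
    have hle : Submodule.span F (Set.range ![v₁, v₂]) ≤ W := by
      rw [Submodule.span_le]
      rintro _ ⟨i, rfl⟩
      fin_cases i
      · exact hv₁W
      · exact hv₂W
    have hfr : Module.finrank F (Submodule.span F (Set.range ![v₁, v₂])) = 2 := by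
      rw [finrank_span_eq_card hli]; simp
    have heq : Submodule.span F (Set.range ![v₁, v₂]) = W :=
      Submodule.eq_of_le_of_finrank_eq hle (by rw [hfr, hdim])
    intro w hw
    rw [← heq, Submodule.mem_span_range_iff_exists_fun] at hw
    obtain ⟨c, hc⟩ := hw
    rw [Fin.sum_univ_two] at hc
    exact ⟨c 0, c 1, by rw [← hc]; rfl⟩
  have hv₂ : h v₂ v₂ ≠ 0 := by
    intro h0
    obtain ⟨⟨z, hzW, hz⟩, -⟩ := hW v₂ hv₂W hv₂ne
    obtain ⟨a, b, rfl⟩ := hspan z hzW
    apply hz
    rw [hadd_left, hsmul_left, hsmul_left, hv₁v₂, h0, mul_zero, mul_zero, add_zero]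
  have hv₂1 : h v₂ v₂ = 1 := hval v₂ hv₂
  refine ⟨v₁, v₂, hv₁W, hv₂W, hv₁, hv₂, hv₁v₂, ?_⟩
  intro w hwW hw
  obtain ⟨a, b, rfl⟩ := hspan w hwW
  have hform : h (a • v₁ + b • v₂) (a • v₁ + b • v₂) = a ^ 3 + b ^ 3 := by
    simp only [hadd_left, hadd_right, hsmul_left, hsmul_right, hv₁1, hv₂1, hv₁v₂, hv₂v₁]
    ring
  by_cases ha : a = 0
  · right
    exact ⟨b, by rw [ha, zero_smul, zero_add]⟩
  · by_cases hb : b = 0
    · left
      exact ⟨a, by rw [hb, zero_smul, add_zero]⟩
    · exfalso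
      apply hw
      rw [hform, hp3 a ha, hp3 b hb, one_add_one_eq_two, h2]

end Cfsg.Agent.Lib.Helper91.SUQF4PL
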