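import Mathlib

/-! Project SPG (helper71), sub-project TIF: piece T3y (equal tensor products of non-zero
matrices have proportional factors). -/

set_option autoImplicit false

namespace Cfsg.Agent.Lib.Helper91.TIFT3y

open Matrix

variable {n : ℕ} {F : Type*} [Field F] [Fintype F]

/-- T3y: equal tensor products of non-zero matrices have proportional factors. -/
theorem T3y {m k : ℕ} (M N : Fin k → Matrix (Fin m) (Fin m) F) (hN : ∀ i, ∃ u v, N i u v ≠ 0)
    (h : ∀ a b : Fin k → Fin m, ∏ i, M i (a i) (b i) = ∏ i, N i (a i) (b i)) :
    ∀ i, ∃ μ : F, μ ≠ 0 ∧ M i = μ • N i := by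
  classical
  choose u v huv using hN
  have hNne : ∏ i, N i (u i) (v i) ≠ 0 := Finset.prod_ne_zero_iff.2 (fun i _ => huv i)
  have hMne : ∀ i, M i (u i) (v i) ≠ 0 := by
    have h1 := h u v
    rw [← h1] at hNne
    exact fun i => (Finset.prod_ne_zero_iff.1 hNne) i (Finset.mem_univ i)
  intro i
  set A := ∏ j ∈ Finset.univ.erase i, M j (u j) (v j) with hA
  set B := ∏ j ∈ Finset.univ.erase i, N j (u j) (v j) with hB
  have hAne : A ≠ 0 := Finset.prod_ne_zero_iff.2 (fun j _ => hMne j)
  have hBne : B ≠ 0 := Finset.prod_ne_zero_iff.2 (fun j _ => huv j)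
  have key : ∀ x y : Fin m, M i x y * A = N i x y * B := by
    intro x y
    have h1 := h (Function.update u i x) (Function.update v i y)
    rw [← Finset.mul_prod_erase Finset.univ _ (Finset.mem_univ i),
      ← Finset.mul_prod_erase Finset.univ _ (Finset.mem_univ i)] at h1
    simp only [Function.update_self] at h1
    have e1 : ∏ j ∈ Finset.univ.erase i,
        M j (Function.update u i x j) (Function.update v i y j) = A := by
      apply Finset.prod_congr rfl
      intro j hj
      rw [Function.update_of_ne (Finset.ne_of_mem_erase hj),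
        Function.update_of_ne (Finset.ne_of_mem_erase hj)]
    have e2 : ∏ j ∈ Finset.univ.erase i,
        N j (Function.update u i x j) (Function.update v i y j) = B := by
      apply Finset.prod_congr rfl
      intro j hj
      rw [Function.update_of_ne (Finset.ne_of_mem_erase hj),
        Function.update_of_ne (Finset.ne_of_mem_erase hj)]
    rw [e1, e2] at h1
    exact h1
  refine ⟨B / A, div_ne_zero hBne hAne, ?_⟩
  ext x y
  rw [Matrix.smul_apply, smul_eq_mul]
  have h3 := key x y
  field_simp
  linear_combination h3

end Cfsg.Agent.Lib.Helper91.TIFT3y
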