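import Mathlib

/-! Project SPG (helper71), sub-project TIF: piece T6s (the pure tensors span the tensor
power). -/

set_option autoImplicit false

namespace Cfsg.Agent.Lib.Helper91.TIFT6s

open Matrix

variable {n : ℕ} {F : Type*} [Field F] [Fintype F]

/-- T6s: the pure tensors span the tensor power. -/
theorem T6s {m k : ℕ} :
    Submodule.span F {x : (Fin k → Fin m) → F | ∃ w : Fin k → Fin m → F,
      x = fun a => ∏ i, w i (a i)} = ⊤ := by
  classical
  rw [eq_top_iff]
  intro x _
  have hx : x = ∑ a, x a • (Pi.single a (1 : F) : (Fin k → Fin m) → F) := by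
    funext b
    simp [Finset.sum_apply, Pi.single_apply]
  rw [hx]
  apply Submodule.sum_mem
  intro a _
  apply Submodule.smul_mem
  apply Submodule.subset_span
  refine ⟨fun i => Pi.single (a i) 1, ?_⟩
  funext b
  by_cases hab : b = a
  · subst hab
    simp
  · rw [Pi.single_apply, if_neg hab]
    obtain ⟨i, hi⟩ : ∃ i, b i ≠ a i := by
      by_contra hcon
      push Not at hcon
      exact hab (funext hcon)
    symm
    apply Finset.prod_eq_zero (Finset.mem_univ i)
    show (Pi.single (a i) (1 : F) : Fin m → F) (b i) = 0
    rw [Pi.single_apply, if_neg hi]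

end Cfsg.Agent.Lib.Helper91.TIFT6s
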