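import Mathlib
import Cfsg.Prelude.Def_GeometricClasses
import Cfsg.Prelude.Def_LieClassical
import Cfsg.Agent.Lib.Helper93.SPPTS4

/-! Project O9 (helper44; S5835): piece `T7` (by helper91): transport of the tensor-power clause
along `e : κ ≃ Fin n` (twin of helper93's `SPPTS4.TS4`). -/

set_option autoImplicit false
set_option linter.unusedSectionVars false
set_option linter.unusedVariables false

namespace Cfsg.Agent.Lib.Helper44.O9

open Matrix Cfsg.Geo
open scoped Kronecker

variable {n : ℕ} {F : Type*} [Field F] [Fintype F]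

section Transport

variable {κ : Type} [Fintype κ] [DecidableEq κ]

theorem T7_reindex {m t : ℕ} (e : κ ≃ Fin n) (e' : Fin n ≃ (Fin t → Fin m))
    (k : GL (Fin t → Fin m) F) :
    (glReindex e).symm (glReindex e'.symm k) = glReindex (e.trans e').symm k := by
  apply Units.ext
  ext i j
  rfl

theorem T7 (e : κ ≃ Fin n) (f : (κ → F) → (κ → F) → F) (H : Subgroup (GL κ F)) {m t : ℕ}
    (e' : Fin n ≃ (Fin t → Fin m)) (P' : GL (Fin n) F)
    (f₁ : (Fin m → F) → (Fin m → F) → F) :
    (H.map (glReindex e).toMonoidHom ≤ tensorWreathSubgroup m t e' P' →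
      H ≤ tensorWreathSubgroup m t (e.trans e') ((glReindex e).symm P')) ∧
    (IsTensorPowerFormStructure id (fun u v : Fin n → F => f (u ∘ e) (v ∘ e)) f₁ e' P' →
      IsTensorPowerFormStructure id f f₁ (e.trans e') ((glReindex e).symm P')) := by
  refine ⟨?_, ?_⟩
  · intro h g hg
    have h1 : (glReindex e) g ∈ tensorWreathSubgroup m t e' P' := h ⟨g, hg, rfl⟩
    obtain ⟨y, ⟨k, hk, rfl⟩, hyg⟩ := h1
    refine ⟨glReindex (e.trans e').symm k, ⟨k, hk, rfl⟩, ?_⟩
    have h2 : g = (glReindex e).symm ((glReindex e) g) := by simp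
    rw [h2, ← hyg, ← T7_reindex]
    simp [MulAut.conj_apply]
  · rintro ⟨c, hc, h⟩
    refine ⟨c, hc, fun x y => ?_⟩
    have h1 := h x y
    simp only at h1
    rw [Cfsg.Agent.Lib.Helper93.SPPTS4.ts4_mulVec, Cfsg.Agent.Lib.Helper93.SPPTS4.ts4_mulVec] at h1
    exact h1

end Transport

end Cfsg.Agent.Lib.Helper44.O9
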