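import Mathlib
import Cfsg.Prelude.Def_GeometricClasses
import Cfsg.Prelude.Def_LieClassical
import Cfsg.Agent.S0282

/-! Project U9 (helper44, S5832): piece SOL3: `GU_3(2)` is solvable. -/

set_option autoImplicit false

namespace Cfsg.Agent.Lib.Helper44.U9

open Matrix Cfsg.Geo

variable {n : ℕ} {F : Type*} [Field F] [Fintype F] {q : ℕ}

/-- `SU_3(2)` is solvable. -/
theorem SOL3_su (hF : Fintype.card F = 4) : Group.IsSolvable ↥(Cfsg.SU 3 F 2) := by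
  have h1 : Group.IsSolvable (Cfsg.PSU 3 F 2) := (Cfsg.Agent.S0282.result hF).2
  have h2 : Group.IsSolvable ↥(Subgroup.center ↥(Cfsg.SU 3 F 2)) :=
    Group.isSolvable_of_comm (fun a b => Subtype.ext (Subgroup.mem_center_iff.1 b.2 a.1))
  have h3 : (QuotientGroup.mk' (Subgroup.center ↥(Cfsg.SU 3 F 2))).ker ≤
      (Subgroup.center ↥(Cfsg.SU 3 F 2)).subtype.range := by
    rw [QuotientGroup.ker_mk', Subgroup.range_subtype]
  exact Group.isSolvable_of_ker_le_range (Subgroup.center ↥(Cfsg.SU 3 F 2)).subtype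
    (QuotientGroup.mk' (Subgroup.center ↥(Cfsg.SU 3 F 2))) h3

/-- the inclusion of `SU_3(2)` into `GU_3(2)` -/
def SOL3_incl (F : Type*) [Field F] [Fintype F] : ↥(Cfsg.SU 3 F 2) →* ↥(Cfsg.GU 3 F 2) :=
  (Matrix.SpecialLinearGroup.toGL.comp (Cfsg.SU 3 F 2).subtype).codRestrict (Cfsg.GU 3 F 2)
    (fun x => x.2)

/-- the determinant on `GU_3(2)` -/
def SOL3_det (F : Type*) [Field F] [Fintype F] : ↥(Cfsg.GU 3 F 2) →* Fˣ :=
  Matrix.GeneralLinearGroup.det.comp (Cfsg.GU 3 F 2).subtype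

/-- SOL3: `GU_3(2)` is solvable. -/
theorem SOL3 (hF : Fintype.card F = 4) : Group.IsSolvable ↥(Cfsg.GU 3 F 2) := by
  have h0 : Group.IsSolvable ↥(Cfsg.SU 3 F 2) := SOL3_su hF
  refine Group.isSolvable_of_ker_le_range (SOL3_incl F) (SOL3_det F) ?_
  intro g hg
  rw [MonoidHom.mem_ker] at hg
  have hdet : (g.1 : Matrix (Fin 3) (Fin 3) F).det = 1 := by
    have h1 : ((SOL3_det F g : Fˣ) : F) = 1 := by rw [hg]; rfl
    exact h1
  have hmem : (⟨(g.1 : Matrix (Fin 3) (Fin 3) F), hdet⟩ :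
      Matrix.SpecialLinearGroup (Fin 3) F) ∈ Cfsg.SU 3 F 2 := by
    intro u v
    exact g.2 u v
  refine ⟨⟨⟨(g.1 : Matrix (Fin 3) (Fin 3) F), hdet⟩, hmem⟩, ?_⟩
  apply Subtype.ext
  apply Units.ext
  rfl

end Cfsg.Agent.Lib.Helper44.U9
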