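import Mathlib
import Cfsg.Agent.Lib.Helper52.SP8EBDefs

/-! SP8-EB (helper52, S5823): piece QMUL (card F = 3: the quaternion set is closed under
products). -/

set_option autoImplicit false

namespace Cfsg.Agent.Lib.Helper52.SP8EB

open Matrix Cfsg.Geo Cfsg.Agent.Lib.Helper71.Asch

variable {n : ℕ} {F : Type*} [Field F] [Fintype F]

/-- the finite check over `ZMod 3` -/
theorem QMUL_z3 : ∀ a b c d e f : ZMod 3, -(a * a) - b * c = 1 → -(d * d) - e * f = 1 →
    (a * d + b * f = 1 ∧ a * e - b * d = 0 ∧ c * d - a * f = 0 ∧ c * e + a * d = 1) ∨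
    (a * d + b * f = -1 ∧ a * e - b * d = 0 ∧ c * d - a * f = 0 ∧ c * e + a * d = -1) ∨
    (a * d + b * f + (c * e + a * d) = 0) := by
  decide

/-- the finite check over a field with three elements -/
theorem QMUL_f3 (hq3 : Fintype.card F = 3) (a b c d e f : F) (h1 : -(a * a) - b * c = 1)
    (h2 : -(d * d) - e * f = 1) :
    (a * d + b * f = 1 ∧ a * e - b * d = 0 ∧ c * d - a * f = 0 ∧ c * e + a * d = 1) ∨
    (a * d + b * f = -1 ∧ a * e - b * d = 0 ∧ c * d - a * f = 0 ∧ c * e + a * d = -1) ∨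
    (a * d + b * f + (c * e + a * d) = 0) := by
  let φ : F ≃+* ZMod 3 := (ZMod.ringEquivOfPrime F Nat.prime_three hq3).symm
  have hinj : Function.Injective φ := φ.injective
  have h1' : -(φ a * φ a) - φ b * φ c = 1 := by
    rw [← map_mul, ← map_mul, ← map_neg, ← map_sub, h1, map_one]
  have h2' : -(φ d * φ d) - φ e * φ f = 1 := by
    rw [← map_mul, ← map_mul, ← map_neg, ← map_sub, h2, map_one]
  have e1 : ∀ u v w z : F, φ u * φ v + φ w * φ z = φ (u * v + w * z) := by
    intro u v w z; simp only [map_add, map_mul]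
  have e2 : ∀ u v w z : F, φ u * φ v - φ w * φ z = φ (u * v - w * z) := by
    intro u v w z; simp only [map_sub, map_mul]
  have key := QMUL_z3 (φ a) (φ b) (φ c) (φ d) (φ e) (φ f) h1' h2'
  rw [e1, e2, e2, e1] at key
  rcases key with ⟨k1, k2, k3, k4⟩ | ⟨k1, k2, k3, k4⟩ | k
  · left
    refine ⟨hinj ?_, hinj ?_, hinj ?_, hinj ?_⟩
    · rw [k1, map_one]
    · rw [k2, map_zero]
    · rw [k3, map_zero]
    · rw [k4, map_one]
  · right; left
    refine ⟨hinj ?_, hinj ?_, hinj ?_, hinj ?_⟩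
    · rw [k1, map_neg, map_one]
    · rw [k2, map_zero]
    · rw [k3, map_zero]
    · rw [k4, map_neg, map_one]
  · right; right
    apply hinj
    rw [map_add, k, map_zero]

theorem QMUL_neg (x : Matrix (Fin 2) (Fin 2) F) (hx : IsQ x) : IsQ (-x) := by
  obtain ⟨hd, h⟩ := hx
  refine ⟨?_, ?_⟩
  · rw [Matrix.det_neg, hd]
    simp
  · rcases h with h | h | h
    · right; left; rw [h]
    · left; rw [h, neg_neg]
    · right; right; rw [Matrix.trace_neg, h, neg_zero]

/-- QMUL [finite check, card F = 3]: the quaternion set is closed under products. -/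
theorem QMUL (hq3 : Fintype.card F = 3) : HQmul F := by
  intro x y hx hy
  obtain ⟨hdx, hx'⟩ := hx
  obtain ⟨hdy, hy'⟩ := hy
  rcases hx' with hx1 | hx1 | hx0
  · rw [hx1, one_mul]; exact ⟨hdy, hy'⟩
  · rw [hx1, neg_mul, one_mul]; exact QMUL_neg y ⟨hdy, hy'⟩
  · rcases hy' with hy1 | hy1 | hy0
    · rw [hy1, mul_one]; exact ⟨hdx, Or.inr (Or.inr hx0)⟩
    · rw [hy1, mul_neg, mul_one]; exact QMUL_neg x ⟨hdx, Or.inr (Or.inr hx0)⟩
    · refine ⟨by rw [Matrix.det_mul, hdx, hdy, mul_one], ?_⟩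
      rw [Matrix.trace_fin_two] at hx0 hy0
      rw [Matrix.det_fin_two] at hdx hdy
      have hx11 : x 1 1 = -(x 0 0) := by linear_combination hx0
      have hy11 : y 1 1 = -(y 0 0) := by linear_combination hy0
      have h1 : -(x 0 0 * x 0 0) - x 0 1 * x 1 0 = 1 := by
        rw [hx11] at hdx; linear_combination hdx
      have h2 : -(y 0 0 * y 0 0) - y 0 1 * y 1 0 = 1 := by
        rw [hy11] at hdy; linear_combination hdy
      have p00 : (x * y) 0 0 = x 0 0 * y 0 0 + x 0 1 * y 1 0 := by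
        simp [Matrix.mul_apply, Fin.sum_univ_two]
      have p01 : (x * y) 0 1 = x 0 0 * y 0 1 - x 0 1 * y 0 0 := by
        simp [Matrix.mul_apply, Fin.sum_univ_two, hy11]; ring
      have p10 : (x * y) 1 0 = x 1 0 * y 0 0 - x 0 0 * y 1 0 := by
        simp [Matrix.mul_apply, Fin.sum_univ_two, hx11]; ring
      have p11 : (x * y) 1 1 = x 1 0 * y 0 1 + x 0 0 * y 0 0 := by
        simp [Matrix.mul_apply, Fin.sum_univ_two, hx11, hy11]
      rcases QMUL_f3 hq3 (x 0 0) (x 0 1) (x 1 0) (y 0 0) (y 0 1) (y 1 0) h1 h2 with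
        ⟨k1, k2, k3, k4⟩ | ⟨k1, k2, k3, k4⟩ | k
      · left
        ext i j
        fin_cases i <;> fin_cases j
        · show (x * y) 0 0 = (1 : Matrix (Fin 2) (Fin 2) F) 0 0
          rw [p00, k1]; simp
        · show (x * y) 0 1 = (1 : Matrix (Fin 2) (Fin 2) F) 0 1
          rw [p01, k2]; simp
        · show (x * y) 1 0 = (1 : Matrix (Fin 2) (Fin 2) F) 1 0
          rw [p10, k3]; simp
        · show (x * y) 1 1 = (1 : Matrix (Fin 2) (Fin 2) F) 1 1
          rw [p11, k4]; simp
      · right; left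
        ext i j
        fin_cases i <;> fin_cases j
        · show (x * y) 0 0 = (-1 : Matrix (Fin 2) (Fin 2) F) 0 0
          rw [p00, k1]; simp
        · show (x * y) 0 1 = (-1 : Matrix (Fin 2) (Fin 2) F) 0 1
          rw [p01, k2]; simp
        · show (x * y) 1 0 = (-1 : Matrix (Fin 2) (Fin 2) F) 1 0
          rw [p10, k3]; simp
        · show (x * y) 1 1 = (-1 : Matrix (Fin 2) (Fin 2) F) 1 1
          rw [p11, k4]; simp
      · right; right
        rw [Matrix.trace_fin_two, p00, p11]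
        exact k

end Cfsg.Agent.Lib.Helper52.SP8EB
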