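import Cfsg.Agent.Lib.Helper96.PiDefs
import Cfsg.Agent.Lib.Helper96.PiGlueB
import Cfsg.Agent.Lib.Helper96.PiOmega
import Cfsg.Agent.Lib.Helper9.HeUNIPPOW
import Cfsg.Agent.Lib.Helper51.HypPairs
import Cfsg.Agent.Lib.Helper95.HyTYPA

/-!
Project PI (S5989, helper96): PIECE GLUET: the whole space of `quadFormPlus` has type `1`.
-/

set_option autoImplicit false
set_option linter.unusedSectionVars false
set_option linter.unusedVariables false

namespace Cfsg.Agent.Lib.Helper91.Pi

open Module Cfsg.Agent.Lib.Helper96.Sp Cfsg.Agent.Lib.Helper96.BG Cfsg.Agent.Lib.Helper96.Hy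
  Cfsg.Agent.Lib.Helper96.Pi Cfsg.Agent.Lib.Helper47

universe u

section Concrete

open Matrix
open scoped MatrixGroups

variable {F : Type u} [Field F] [Fintype F]

-- PIECE GLUET
theorem typ_top_plus (p : ℕ) [Fact p.Prime] [CharP F p] (h2 : (2 : F) ≠ 0) (d : ℕ)
    (hd : 1 ≤ d) : Typ (QuadraticMap.polarBilin (Cfsg.Agent.Lib.Helper51.QPlus d F)) ⊤ 1 := by
  classical
  have hS : LinearMap.BilinForm.IsSymm
      (QuadraticMap.polarBilin (Cfsg.Agent.Lib.Helper51.QPlus d F)) := by
    refine ⟨fun x y => ?_⟩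
    show QuadraticMap.polarBilin (Cfsg.Agent.Lib.Helper51.QPlus d F) x y
      = QuadraticMap.polarBilin (Cfsg.Agent.Lib.Helper51.QPlus d F) y x
    rw [QuadraticMap.polarBilin_apply_apply, QuadraticMap.polarBilin_apply_apply,
      QuadraticMap.polar_comm]
  have hfin : finrank F (Fin d ⊕ Fin d → F) = 2 * d := by
    rw [Module.finrank_fintype_fun_eq_card]
    simp [two_mul]
  set L : (Fin d ⊕ Fin d → F) →ₗ[F] (Fin d → F) := LinearMap.funLeft F F Sum.inr with hL
  have hLsurj : Function.Surjective L :=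
    LinearMap.funLeft_surjective_of_injective F F Sum.inr Sum.inr_injective
  have hker : finrank F (LinearMap.ker L) = d := by
    have h1 := LinearMap.finrank_range_add_finrank_ker L
    rw [LinearMap.range_eq_top.2 hLsurj, finrank_top, Module.finrank_fintype_fun_eq_card,
      Fintype.card_fin, hfin] at h1
    omega
  have hQ0 : ∀ w ∈ LinearMap.ker L, Cfsg.Agent.Lib.Helper51.QPlus d F w = 0 := by
    intro w hw
    rw [Cfsg.Agent.Lib.Helper51.QPlus_apply]
    apply Finset.sum_eq_zero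
    intro i _
    have h3 : L w i = 0 := by rw [LinearMap.mem_ker.1 hw]; rfl
    have h4 : w (Sum.inr i) = 0 := h3
    rw [h4, mul_zero]
  have hHyp : Hyp (QuadraticMap.polarBilin (Cfsg.Agent.Lib.Helper51.QPlus d F)) ⊤ := by
    refine ⟨Cfsg.Agent.Lib.Helper96.Pi.glue_nd_top_plus d, LinearMap.ker L, le_top, ?_, ?_⟩
    · intro u hu v hv
      rw [QuadraticMap.polarBilin_apply_apply]
      unfold QuadraticMap.polar
      rw [hQ0 _ (Submodule.add_mem _ hu hv), hQ0 u hu, hQ0 v hv]
      simp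
    · rw [hker, finrank_top, hfin]
  apply Cfsg.Agent.Lib.Helper95.Hy.typ_of_hyp p hS h2 ⊤ hHyp
  rw [finrank_top, hfin]
  omega

end Concrete

end Cfsg.Agent.Lib.Helper91.Pi
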