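import Mathlib
import Cfsg.Agent.Lib.Helper72.JRDefs

/-! JR-HB (S2950 project of helper72): for a 2-local `H ⊇ K ⊔ J(T)`, the subgroup
`H ⊓ N_G(J(T))` normalizes `YOf M T K`. -/

set_option autoImplicit false

namespace Cfsg.Agent.Lib.Helper91.JR

open Cfsg.Agent.Lib.Helper72.JR Cfsg.Agent.Lib.Helper72.JP Cfsg.Agent.Lib.Helper72.JM
  Cfsg.Agent.Lib.Helper72.JL Cfsg.Agent.Lib.Helper72.SC Cfsg.Agent.Lib.Helper78.Jc

open scoped commutatorElement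

universe u

/-- an element `n` with `Y^n ≤ Y` and `Y^(n⁻¹) ≤ Y` normalizes `Y` -/
theorem hb_mem_normalizer_of_map_le {G : Type*} [Group G] (Y : Subgroup G) (n : G)
    (h1 : Y.map (MulAut.conj n).toMonoidHom ≤ Y)
    (h2 : Y.map (MulAut.conj n⁻¹).toMonoidHom ≤ Y) :
    n ∈ Subgroup.normalizer (Y : Set G) := by
  rw [Subgroup.mem_normalizer_iff]
  intro h
  constructor
  · intro hh
    exact h1 (Subgroup.mem_map_of_mem (MulAut.conj n).toMonoidHom hh)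
  · intro hh
    have h3 := h2 (Subgroup.mem_map_of_mem (MulAut.conj n⁻¹).toMonoidHom hh)
    have e : (MulAut.conj n⁻¹).toMonoidHom (n * h * n⁻¹) = h := by
      show n⁻¹ * (n * h * n⁻¹) * n⁻¹⁻¹ = h
      group
    rwa [e] at h3

/-- the family `Fam M T K` is stable under conjugation by the elements of `H ⊓ N_G(J(T))` -/
theorem hb_fam (hLoc : LocStmt.{u}) (hNw : NwStmt.{u}) (hConj : ConjStmt.{u})
    (hL1 : L1Stmt.{u}) (G : Type u) [Group G] [Finite G] (M T K : Subgroup G)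
    (hC : Ctx G M T) (hT : IsPGroup 2 ↥T) (hK : Cfsg.IsJComponent T K) (hKM : ¬ K ≤ M)
    (H : Subgroup G) (hH : Cfsg.IsTwoLocal H) (hKH : K ≤ H)
    (hJH : Cfsg.thompsonSubgroupOf 2 T ≤ H) (m : G) (hmH : m ∈ H)
    (hmJ : m ∈ Subgroup.normalizer (Cfsg.thompsonSubgroupOf 2 T : Set G))
    (K' : Subgroup G) (hK' : K' ∈ Fam M T K) :
    K'.map (MulAut.conj m).toMonoidHom ∈ Fam M T K := by
  obtain ⟨hK'c, hK'M, hK'N⟩ := hK'
  have hmM : m ∈ M := hC.hNJ hmJ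
  have hm'J : m⁻¹ ∈ Subgroup.normalizer (Cfsg.thompsonSubgroupOf 2 T : Set G) := inv_mem hmJ
  refine ⟨(hConj G T K' m hK'c hmJ).1, ?_, ?_⟩
  · intro hle
    apply hK'M
    intro k hk
    have h1 : m * k * m⁻¹ ∈ M := hle (Subgroup.mem_map_of_mem (MulAut.conj m).toMonoidHom hk)
    have h2 : m⁻¹ * (m * k * m⁻¹) * m ∈ M := M.mul_mem (M.mul_mem (M.inv_mem hmM) h1) hmM
    have e : m⁻¹ * (m * k * m⁻¹) * m = k := by group
    rwa [e] at h2
  · obtain ⟨hK₀c, hK₀w⟩ := hConj G T K m⁻¹ hK hm'J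
    have hK₀H : K.map (MulAut.conj m⁻¹).toMonoidHom ≤ H := by
      rintro x ⟨k, hk, rfl⟩
      show m⁻¹ * k * m⁻¹⁻¹ ∈ H
      exact H.mul_mem (H.mul_mem (H.inv_mem hmH) (hKH hk)) (H.inv_mem (H.inv_mem hmH))
    have hHM : ¬ H ≤ M := fun h => hKM (hKH.trans h)
    obtain ⟨TH, hTH2, hTHne, hHov, hJTH, hiffH⟩ := hLoc G M T hC hT H hH hHM hJH
    have hK₀N : K.map (MulAut.conj m⁻¹).toMonoidHom ≤
        Subgroup.normalizer (Cfsg.wOf K : Set G) :=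
      hL1 G hC.hzn TH hTH2 hTHne H hHov _ K ((hiffH _).2 hK₀c) ((hiffH K).2 hK) hK₀H hKH
    obtain ⟨hJN, hKN, hW2, hWne, hWK⟩ := hNw G T K hK
    have hNloc : Cfsg.IsTwoLocal (Subgroup.normalizer (Cfsg.wOf K : Set G)) :=
      ⟨Cfsg.wOf K, hW2, hWne, rfl⟩
    have hNM : ¬ Subgroup.normalizer (Cfsg.wOf K : Set G) ≤ M := fun h => hKM (hKN.trans h)
    obtain ⟨TN, hTN2, hTNne, hNov, hJTN, hiffN⟩ := hLoc G M T hC hT _ hNloc hNM hJN
    have hK'K₀ : K' ≤ Subgroup.normalizer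
        (Cfsg.wOf (K.map (MulAut.conj m⁻¹).toMonoidHom) : Set G) :=
      hL1 G hC.hzn TN hTN2 hTNne _ hNov K' _ ((hiffN K').2 hK'c) ((hiffN _).2 hK₀c) hK'N hK₀N
    rw [hK₀w] at hK'K₀
    have key : ∀ y : G, y ∈ (Cfsg.wOf K).map (MulAut.conj m⁻¹).toMonoidHom ↔
        m * y * m⁻¹ ∈ Cfsg.wOf K := by
      intro y
      constructor
      · rintro ⟨z, hz, rfl⟩
        have e : m * (MulAut.conj m⁻¹).toMonoidHom z * m⁻¹ = z := by
          show m * (m⁻¹ * z * m⁻¹⁻¹) * m⁻¹ = z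
          group
        rw [e]; exact hz
      · intro hy
        refine ⟨m * y * m⁻¹, hy, ?_⟩
        show m⁻¹ * (m * y * m⁻¹) * m⁻¹⁻¹ = y
        group
    rintro x ⟨k, hk, rfl⟩
    have hk' := hK'K₀ hk
    rw [Subgroup.mem_normalizer_iff] at hk' ⊢
    intro w
    show w ∈ Cfsg.wOf K ↔ (m * k * m⁻¹) * w * (m * k * m⁻¹)⁻¹ ∈ Cfsg.wOf K
    have h3 := hk' (m⁻¹ * w * m)
    rw [key, key] at h3
    have e1 : m * (m⁻¹ * w * m) * m⁻¹ = w := by group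
    have e2 : m * (k * (m⁻¹ * w * m) * k⁻¹) * m⁻¹ = (m * k * m⁻¹) * w * (m * k * m⁻¹)⁻¹ := by
      group
    rw [e1, e2] at h3
    exact h3

/-- JR-HB -/
theorem hb (hLoc : LocStmt.{u}) (hNw : NwStmt.{u}) (hConj : ConjStmt.{u})
    (hL1 : L1Stmt.{u}) : HbStmt.{u} := by
  intro G _ _ M T K hC hT hK hKM H hH hKH hJH n hn
  obtain ⟨hnH, hnJ⟩ := Subgroup.mem_inf.1 hn
  have key : ∀ m : G, m ∈ H →
      m ∈ Subgroup.normalizer (Cfsg.thompsonSubgroupOf 2 T : Set G) →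
      (YOf M T K).map (MulAut.conj m).toMonoidHom ≤ YOf M T K := by
    intro m hmH hmJ
    unfold YOf
    rw [Subgroup.map_iSup]
    refine iSup_le fun K' => ?_
    rw [Subgroup.map_iSup]
    refine iSup_le fun hK' => ?_
    have hmem := hb_fam hLoc hNw hConj hL1 G M T K hC hT hK hKM H hH hKH hJH m hmH hmJ K' hK'
    rw [← (hConj G T K' m hK'.1 hmJ).2]
    exact le_iSup₂ (f := fun (K'' : Subgroup G) (_ : K'' ∈ Fam M T K) => Cfsg.wOf K'') _ hmem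
  exact hb_mem_normalizer_of_map_le _ n (key n hnH hnJ)
    (key n⁻¹ (H.inv_mem hnH) (inv_mem hnJ))

end Cfsg.Agent.Lib.Helper91.JR
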