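import Mathlib
import Cfsg.Prelude.Def_GeometricClasses
import Cfsg.Prelude.Def_LieClassical
import Cfsg.Agent.Lib.Helper71.Asch5
import Cfsg.Agent.Lib.Helper82.ASB8UNITS
import Cfsg.Agent.Lib.Helper44.BADDefs

/-! Project BAD (helper44; sub-project of helper49's SUG = S5663), piece SAUX (helper91):
auxiliary facts on the non-scalar elements of `bS`. -/

set_option autoImplicit false

namespace Cfsg.Agent.Lib.Helper44.BAD

open Matrix Cfsg.Geo Cfsg.Agent.Lib.Helper71.Asch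
open scoped Kronecker

variable {n : ℕ} {F : Type*} [Field F] [Fintype F] {q : ℕ}

omit [Fintype F] in
theorem SAUX_Y3 : bY F ^ 3 = 1 := by
  unfold bY
  ext i j; fin_cases i <;> fin_cases j <;>
    simp [pow_succ, Matrix.mul_apply, Fin.sum_univ_three]

omit [Fintype F] in
theorem SAUX_Y2 : bY F ^ 2 = !![0, 1, 0; 0, 0, 1; 1, 0, 0] := by
  unfold bY
  ext i j; fin_cases i <;> fin_cases j <;>
    simp [pow_two, Matrix.mul_apply, Fin.sum_univ_three]

omit [Fintype F] in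
theorem SAUX_D1 : (Matrix.diagonal ![1, 1, 1 ^ 2] : Matrix (Fin 3) (Fin 3) F) = 1 := by
  ext i j; fin_cases i <;> fin_cases j <;> simp

omit [Fintype F] in
theorem SAUX_ns1 (c d : F) (hc : c ≠ 0) :
    ¬ bScal (c • (Matrix.diagonal ![1, d, d ^ 2] * bY F ^ 1)) := by
  rintro ⟨c', h⟩
  have h02 := congrFun (congrFun h 0) 2
  simp [bY, Matrix.diagonal_mul] at h02
  exact hc h02

omit [Fintype F] in
theorem SAUX_ns2 (c d : F) (hc : c ≠ 0) :
    ¬ bScal (c • (Matrix.diagonal ![1, d, d ^ 2] * bY F ^ 2)) := by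
  rintro ⟨c', h⟩
  rw [SAUX_Y2] at h
  have h01 := congrFun (congrFun h 0) 1
  simp [Matrix.diagonal_mul] at h01
  exact hc h01

omit [Fintype F] in
theorem SAUX_ns0 (c d : F) (hc : c ≠ 0) (hd : d ≠ 1) :
    ¬ bScal (c • (Matrix.diagonal ![1, d, d ^ 2] * bY F ^ 0)) := by
  rintro ⟨c', h⟩
  rw [pow_zero, mul_one] at h
  have h00 := congrFun (congrFun h 0) 0
  have h11 := congrFun (congrFun h 1) 1
  simp at h00 h11
  apply hd
  have h3 : c * d = c * 1 := by rw [mul_one, h11, ← h00]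
  exact mul_left_cancel₀ hc h3

omit [Fintype F] in
theorem SAUX_ns (c d : F) (k : ℕ) (hc : c ≠ 0) (h : ¬ (d = 1 ∧ k % 3 = 0)) :
    ¬ bScal (c • (Matrix.diagonal ![1, d, d ^ 2] * bY F ^ k)) := by
  rw [pow_eq_pow_mod k SAUX_Y3]
  obtain ⟨r, hr⟩ : ∃ r, r = k % 3 := ⟨_, rfl⟩
  rw [← hr]
  have hr3 : r < 3 := by rw [hr]; exact Nat.mod_lt _ (by norm_num)
  interval_cases r
  · exact SAUX_ns0 c d hc (fun hd => h ⟨hd, hr.symm⟩)
  · exact SAUX_ns1 c d hc
  · exact SAUX_ns2 c d hc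

/-- SAUX: auxiliary facts on the non-scalar elements of `bS`. -/
theorem SAUX (hF : Fintype.card F = 4) : SAUXp F := by
  have h1F : (1 : F) ≠ 0 := one_ne_zero
  refine ⟨?_, ?_, ?_⟩
  · refine ⟨(1 : F) • (Matrix.diagonal ![1, 1, 1 ^ 2] * bY F ^ 1), ⟨1, 1, 1, h1F, h1F, rfl⟩,
      SAUX_ns1 1 1 h1F⟩
  · rintro M ⟨c, d, k, hc, hd, rfl⟩ hns
    have hM : c • (Matrix.diagonal ![1, d, d ^ 2] * bY F ^ k) =
        c • (Matrix.diagonal ![1, d, d ^ 2] * bY F ^ (k % 3)) := by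
      rw [pow_eq_pow_mod k SAUX_Y3]
    rw [hM] at hns ⊢
    obtain ⟨r, hr⟩ : ∃ r, r = k % 3 := ⟨_, rfl⟩
    rw [← hr] at hns ⊢
    have hr3 : r < 3 := by rw [hr]; exact Nat.mod_lt _ (by norm_num)
    have hd3 : d ^ 3 = 1 := by
      have := FiniteField.pow_card_sub_one_eq_one d hd
      rwa [hF] at this
    rintro ⟨c', h⟩
    interval_cases r
    · rw [pow_zero, mul_one] at h hns
      have hd1 : d ≠ 1 := by
        intro hd1
        apply hns
        refine ⟨c, ?_⟩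
        rw [hd1, SAUX_D1]
      have h00 := congrFun (congrFun h 0) 0
      have h11 := congrFun (congrFun h 1) 1
      simp at h00 h11
      apply hd1
      have h3 : c * c * (d * d) = c * c * 1 := by rw [mul_one, mul_assoc, h11, h00]
      have h4 : d * d = 1 := mul_left_cancel₀ (mul_ne_zero hc hc) h3
      have h5 : d ^ 3 = d := by rw [pow_succ, pow_two, h4, one_mul]
      rw [← h5, hd3]
    · have h01 := congrFun (congrFun h 0) 1
      simp [bY, Matrix.mul_apply, Fin.sum_univ_three, Matrix.diagonal_apply] at h01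
      rcases h01 with h01 | h01
      · exact hc h01
      · exact hd h01
    · rw [SAUX_Y2] at h
      have h02 := congrFun (congrFun h 0) 2
      simp [Matrix.mul_apply, Fin.sum_univ_three, Matrix.diagonal_apply] at h02
      rcases h02 with h02 | h02
      · exact hc h02
      · exact hd h02
  · rintro s ⟨c, d, k, hc, hd, rfl⟩
    by_cases hA : d = 1 ∧ k % 3 = 2
    · refine ⟨c • (Matrix.diagonal ![1, 1, 1 ^ 2] * bY F ^ 1), ⟨c, 1, 1, hc, h1F, rfl⟩,
        (1 : F) • (Matrix.diagonal ![1, 1, 1 ^ 2] * bY F ^ 1), ⟨1, 1, 1, h1F, h1F, rfl⟩,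
        SAUX_ns1 c 1 hc, SAUX_ns1 1 1 h1F, ?_⟩
      rw [hA.1, SAUX_D1, one_mul, one_mul, one_smul, smul_mul_assoc, ← pow_add,
        pow_eq_pow_mod k SAUX_Y3, hA.2]
    · refine ⟨c • (Matrix.diagonal ![1, d, d ^ 2] * bY F ^ (k + 1)), ⟨c, d, k + 1, hc, hd, rfl⟩,
        (1 : F) • (Matrix.diagonal ![1, 1, 1 ^ 2] * bY F ^ 2), ⟨1, 1, 2, h1F, h1F, rfl⟩,
        SAUX_ns c d (k + 1) hc (fun h => hA ⟨h.1, by omega⟩), SAUX_ns2 1 1 h1F, ?_⟩
      rw [SAUX_D1, one_mul, one_smul, smul_mul_assoc, mul_assoc, ← pow_add,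
        show k + 1 + 2 = k + 3 from rfl, pow_add, SAUX_Y3, mul_one]

end Cfsg.Agent.Lib.Helper44.BAD
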