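import Mathlib
import Cfsg.Prelude.Def_Solvable
import Cfsg.Agent.Lib.Helper27.Isolated
import Cfsg.Agent.Lib.Helper91.ZStarLift
import Cfsg.Agent.Lib.Helper91.BSQ8Fusion

set_option autoImplicit false

/-!
# Brauer–Suzuki for `Q8`: local group theory

Group-theoretic facts about a finite group `G` whose Sylow 2-subgroups are quaternion of order 8,
as needed for the character-theoretic step: centralizers of elements of order 4 have a normal
2-complement and Sylow 2-subgroups of order 4; no involution inverts an element of order 4.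
-/

namespace Cfsg.Agent.Lib.Helper91

universe u

open Cfsg.Agent.Lib.Helper27

section Q8more

set_option maxRecDepth 100000 in
theorem q8_exists_other : ∀ x : QuaternionGroup 2, x * x ≠ 1 →
    ∃ y : QuaternionGroup 2, y * y ≠ 1 ∧ y ≠ x ∧ y ≠ x⁻¹ := by decide

variable {G : Type u} [Group G]

theorem sq_ne_one_of_orderOf_four {x : G} (hx : orderOf x = 4) : x * x ≠ 1 := by
  intro h
  have h1 : orderOf x ∣ 2 := orderOf_dvd_of_pow_eq_one (by rw [pow_two]; exact h)
  rw [hx] at h1
  omega

theorem q8s_exists_other {P : Subgroup G} (e : P ≃* QuaternionGroup 2) {x : G} (hx : x ∈ P)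
    (hx2 : x * x ≠ 1) : ∃ y ∈ P, y * y ≠ 1 ∧ y ≠ x ∧ y ≠ x⁻¹ := by
  obtain ⟨y, hy2, hyx, hyx'⟩ := q8_exists_other (e ⟨x, hx⟩) (q8s_sq_ne e hx hx2)
  refine ⟨(e.symm y : G), (e.symm y).2, ?_, ?_, ?_⟩
  · intro h
    apply hy2
    have h1 : e.symm y * e.symm y = 1 := Subtype.ext h
    have h2 := congrArg e h1
    rw [map_mul, map_one, e.apply_symm_apply] at h2
    exact h2
  · intro h
    apply hyx
    have h1 : e.symm y = ⟨x, hx⟩ := Subtype.ext h
    rw [← h1, e.apply_symm_apply]
  · intro h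
    apply hyx'
    have h1 : e.symm y = (⟨x, hx⟩ : P)⁻¹ := Subtype.ext h
    rw [← map_inv, ← h1, e.apply_symm_apply]

theorem q8s_orderOf_four {P : Subgroup G} (e : P ≃* QuaternionGroup 2) {x : G} (hx : x ∈ P)
    (hx2 : x * x ≠ 1) : orderOf x = 4 := by
  have h4 : x ^ 4 = 1 := by
    have h := q8s_pow4 e hx
    rw [show (4 : ℕ) = 2 + 2 from rfl, pow_add, pow_two]
    exact h
  have hd : orderOf x ∣ 2 ^ 2 := orderOf_dvd_of_pow_eq_one h4
  obtain ⟨k, hk, hk'⟩ := (Nat.dvd_prime_pow Nat.prime_two).1 hd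
  have hk3 : k = 0 ∨ k = 1 ∨ k = 2 := by omega
  rcases hk3 with rfl | rfl | rfl
  · exfalso
    apply hx2
    rw [pow_zero, orderOf_eq_one_iff] at hk'
    rw [hk', one_mul]
  · exfalso
    apply hx2
    have h := pow_orderOf_eq_one x
    rw [hk', pow_one, pow_two] at h
    exact h
  · rw [hk']
    norm_num

end Q8more

section BSQ8Local
variable {G : Type u} [Group G] [Finite G]

/-- All Sylow 2-subgroups are quaternion of order 8 as soon as one of them is. -/
theorem bsq8_sylow_iso (P : Sylow 2 G) (e : (P : Subgroup G) ≃* QuaternionGroup 2)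
    (P' : Sylow 2 G) : Nonempty ((P' : Subgroup G) ≃* QuaternionGroup 2) := by
  have hfact : Fact (Nat.Prime 2) := ⟨Nat.prime_two⟩
  exact ⟨(Sylow.equiv P' P).trans e⟩

omit [Finite G] in
theorem bsq8_order_cases (P : Sylow 2 G) (e : (P : Subgroup G) ≃* QuaternionGroup 2) (x : G)
    (hx : x ∈ P) : x = 1 ∨ orderOf x = 2 ∨ orderOf x = 4 := by
  by_cases hx2 : x * x = 1
  · by_cases hx1 : x = 1
    · exact Or.inl hx1
    · exact Or.inr (Or.inl (orderOf_eq_prime (by rw [pow_two]; exact hx2) hx1))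
  · exact Or.inr (Or.inr (q8s_orderOf_four e hx hx2))

omit [Finite G] in
theorem bsq8_involution_unique (P : Sylow 2 G) (e : (P : Subgroup G) ≃* QuaternionGroup 2)
    (a b : G) (ha : a ∈ P) (hb : b ∈ P) (ha2 : orderOf a = 2) (hb2 : orderOf b = 2) : a = b :=
  q8s_invol_unique e ha hb (inv_mul_self_of_orderOf_two ha2) (inv_mul_self_of_orderOf_two hb2)
    (ne_one_of_orderOf_two ha2) (ne_one_of_orderOf_two hb2)

omit [Finite G] in
/-- An element of order 4 of `P` is inverted by an element of `P`. -/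
theorem bsq8_conj_inv (P : Sylow 2 G) (e : (P : Subgroup G) ≃* QuaternionGroup 2) (u : G)
    (huP : u ∈ P) (hu : orderOf u = 4) : ∃ y ∈ P, y * u * y⁻¹ = u⁻¹ := by
  have hu2 := sq_ne_one_of_orderOf_four hu
  obtain ⟨y, hyP, hy2, hyu, hyu'⟩ := q8s_exists_other e huP hu2
  exact ⟨y, hyP, q8s_conj_inv e huP hyP hu2 hy2 hyu hyu'⟩

/-- No involution inverts an element of order 4 when the Sylow 2-subgroups are quaternion of
order 8. -/
theorem bsq8_not_inverted (P : Sylow 2 G) (e : (P : Subgroup G) ≃* QuaternionGroup 2) (s v : G)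
    (hs : orderOf s = 2) (hv : orderOf v = 4) : s * v * s⁻¹ ≠ v⁻¹ := by
  intro h
  have hfact : Fact (Nat.Prime 2) := ⟨Nat.prime_two⟩
  have hss : s * s = 1 := inv_mul_self_of_orderOf_two hs
  have hsi : s⁻¹ = s := inv_eq_self_of_orderOf_two hs
  have hv2 := sq_ne_one_of_orderOf_four hv
  have hpS : IsPGroup 2 (Subgroup.zpowers s) :=
    IsPGroup.of_card (n := 1) (by rw [Nat.card_zpowers, hs, pow_one])
  have hpV : IsPGroup 2 (Subgroup.zpowers v) :=
    IsPGroup.of_card (n := 2) (by rw [Nat.card_zpowers, hv]; norm_num)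
  have hkey : ∀ y : G, y ∈ Subgroup.zpowers v → s * y * s⁻¹ ∈ Subgroup.zpowers v := by
    intro y hy
    obtain ⟨k, rfl⟩ := Subgroup.mem_zpowers_iff.1 hy
    have h1 : s * v ^ k * s⁻¹ = (s * v * s⁻¹) ^ k := (conj_zpow).symm
    rw [h1, h, inv_zpow]
    exact Subgroup.inv_mem _ (Subgroup.zpow_mem_zpowers v k)
  have hnorm : Subgroup.zpowers s ≤ Subgroup.normalizer (Subgroup.zpowers v : Set G) := by
    rw [Subgroup.zpowers_le, Subgroup.mem_normalizer_iff]
    intro x
    constructor
    · exact hkey x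
    · intro hx
      have h1 := hkey _ hx
      have e1 : s * (s * x * s⁻¹) * s⁻¹ = x := by
        rw [hsi]
        calc s * (s * x * s) * s = (s * s) * x * (s * s) := by group
          _ = x := by rw [hss, one_mul, mul_one]
      rw [e1] at h1
      exact h1
  have hD : IsPGroup 2 (Subgroup.zpowers s ⊔ Subgroup.zpowers v : Subgroup G) :=
    hpS.to_sup_of_normal_right' hpV hnorm
  obtain ⟨P', hP'⟩ := hD.exists_le_sylow
  obtain ⟨e'⟩ := bsq8_sylow_iso P e P'
  have hsP' : s ∈ (P' : Subgroup G) := hP' (le_sup_left (a := Subgroup.zpowers s)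
    (Subgroup.mem_zpowers s))
  have hvP' : v ∈ (P' : Subgroup G) := hP' (le_sup_right (b := Subgroup.zpowers v)
    (Subgroup.mem_zpowers v))
  have hsv : s = v * v :=
    q8s_invol_unique e' hsP' ((P' : Subgroup G).mul_mem hvP' hvP') hss (q8s_pow4 e' hvP')
      (ne_one_of_orderOf_two hs) hv2
  apply hv2
  have h2 : s * v * s⁻¹ = v := by
    rw [hsv]
    group
  rw [h2] at h
  calc v * v = v * v⁻¹ := by rw [← h]
    _ = 1 := mul_inv_cancel v

/-- The centralizer of an element `u` of order 4 has a normal 2-complement (the index of its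
`2'`-core is a power of 2) and Sylow 2-subgroups of order 4. -/
theorem bsq8_centralizer (P : Sylow 2 G) (e : (P : Subgroup G) ≃* QuaternionGroup 2) (u : G)
    (hu : orderOf u = 4) :
    (∃ k : ℕ, (Cfsg.pPrimeCore 2 (Subgroup.centralizer ({u} : Set G))).index = 2 ^ k) ∧
      (Nat.card (Subgroup.centralizer ({u} : Set G))).factorization 2 = 2 := by
  have hfact : Fact (Nat.Prime 2) := ⟨Nat.prime_two⟩
  have hu2 : u * u ≠ 1 := sq_ne_one_of_orderOf_four hu
  have hmemC : ∀ x : G, x ∈ Subgroup.centralizer ({u} : Set G) ↔ x * u = u * x := by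
    intro x
    rw [Subgroup.mem_centralizer_iff]
    constructor
    · intro h
      exact (h u rfl).symm
    · intro h y hy
      rw [Set.mem_singleton_iff] at hy
      rw [hy]
      exact h.symm
  have huC : u ∈ Subgroup.centralizer ({u} : Set G) := (hmemC u).2 rfl
  obtain ⟨S⟩ : Nonempty (Sylow 2 (Subgroup.centralizer ({u} : Set G))) := inferInstance
  have hUn : (Subgroup.zpowers (⟨u, huC⟩ : Subgroup.centralizer ({u} : Set G))).Normal := by
    refine ⟨fun n hn c => ?_⟩
    obtain ⟨k, rfl⟩ := Subgroup.mem_zpowers_iff.1 hn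
    have hcomm : Commute c (⟨u, huC⟩ : Subgroup.centralizer ({u} : Set G)) :=
      Subtype.ext ((hmemC c).1 c.2)
    have h1 : c * (⟨u, huC⟩ : Subgroup.centralizer ({u} : Set G)) ^ k * c⁻¹
        = (⟨u, huC⟩ : Subgroup.centralizer ({u} : Set G)) ^ k := by
      rw [(hcomm.zpow_right k).eq, mul_inv_cancel_right]
    rw [h1]
    exact Subgroup.zpow_mem_zpowers _ k
  have hUp : IsPGroup 2 (Subgroup.zpowers (⟨u, huC⟩ : Subgroup.centralizer ({u} : Set G))) :=
    IsPGroup.of_card (n := 2) (by rw [Nat.card_zpowers, Subgroup.orderOf_mk, hu]; norm_num)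
  have hUS : Subgroup.zpowers (⟨u, huC⟩ : Subgroup.centralizer ({u} : Set G)) ≤ S :=
    hUp.le_sylow_of_normal S
  have hSU : (S : Subgroup (Subgroup.centralizer ({u} : Set G))) ≤
      Subgroup.zpowers (⟨u, huC⟩ : Subgroup.centralizer ({u} : Set G)) := by
    have hSp : IsPGroup 2 ((S : Subgroup (Subgroup.centralizer ({u} : Set G))).map
        (Subgroup.centralizer ({u} : Set G)).subtype) := S.2.map _
    obtain ⟨P', hP'⟩ := hSp.exists_le_sylow
    obtain ⟨e'⟩ := bsq8_sylow_iso P e P'
    have huP' : u ∈ (P' : Subgroup G) :=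
      hP' (Subgroup.mem_map.2 ⟨⟨u, huC⟩, hUS (Subgroup.mem_zpowers _), rfl⟩)
    intro q hq
    have hqP' : (q : G) ∈ (P' : Subgroup G) := hP' (Subgroup.mem_map.2 ⟨q, hq, rfl⟩)
    have hqu : (q : G) * u = u * (q : G) := (hmemC _).1 q.2
    have hcases : (q : G) = 1 ∨ (q : G) = u ∨ (q : G) = u * u ∨ (q : G) = u⁻¹ := by
      by_cases hq2 : (q : G) * (q : G) = 1
      · by_cases hq1 : (q : G) = 1
        · exact Or.inl hq1
        · right; right; left
          exact q8s_invol_unique e' hqP' ((P' : Subgroup G).mul_mem huP' huP') hq2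
            (q8s_pow4 e' huP') hq1 hu2
      · by_cases h1 : (q : G) = u
        · exact Or.inr (Or.inl h1)
        · by_cases h2 : (q : G) = u⁻¹
          · exact Or.inr (Or.inr (Or.inr h2))
          · exfalso
            have h3 := q8s_conj_inv e' huP' hqP' hu2 hq2 h1 h2
            rw [hqu, mul_inv_cancel_right] at h3
            apply hu2
            calc u * u = u * u⁻¹ := by rw [← h3]
              _ = 1 := mul_inv_cancel u
    rcases hcases with h | h | h | h
    · have hq' : q = 1 := Subtype.ext h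
      rw [hq']
      exact Subgroup.one_mem _
    · have hq' : q = ⟨u, huC⟩ := Subtype.ext h
      rw [hq']
      exact Subgroup.mem_zpowers _
    · have hq' : q = ⟨u, huC⟩ * ⟨u, huC⟩ := Subtype.ext h
      rw [hq']
      exact Subgroup.mul_mem _ (Subgroup.mem_zpowers _) (Subgroup.mem_zpowers _)
    · have hq' : q = (⟨u, huC⟩ : Subgroup.centralizer ({u} : Set G))⁻¹ := Subtype.ext h
      rw [hq']
      exact Subgroup.inv_mem _ (Subgroup.mem_zpowers _)
  have hSeq : (S : Subgroup (Subgroup.centralizer ({u} : Set G))) =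
      Subgroup.zpowers (⟨u, huC⟩ : Subgroup.centralizer ({u} : Set G)) := le_antisymm hSU hUS
  have hScard : Nat.card (S : Subgroup (Subgroup.centralizer ({u} : Set G))) = 2 ^ 2 := by
    rw [hSeq, Nat.card_zpowers, Subgroup.orderOf_mk, hu]
    norm_num
  obtain ⟨K, hKn, hKodd, hKS, -⟩ := exists_normal_two_complement S (Subgroup.isCyclic_of_le hSU)
  constructor
  · have hle : K ≤ Cfsg.pPrimeCore 2 (Subgroup.centralizer ({u} : Set G)) :=
      le_sSup ⟨hKn, Nat.coprime_two_right.2 hKodd⟩
    have h1 : (Cfsg.pPrimeCore 2 (Subgroup.centralizer ({u} : Set G))).index ∣ K.index :=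
      Subgroup.index_dvd_of_le hle
    have h2 : K.index = Nat.card (S : Subgroup (Subgroup.centralizer ({u} : Set G))) :=
      hKS.symm.index_eq_card
    rw [h2, hScard] at h1
    obtain ⟨k, -, hk⟩ := (Nat.dvd_prime_pow Nat.prime_two).1 h1
    exact ⟨k, hk⟩
  · have h1 := S.card_eq_multiplicity
    rw [hScard] at h1
    exact (Nat.pow_right_injective (le_refl 2) h1).symm

end BSQ8Local

end Cfsg.Agent.Lib.Helper91
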