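import Mathlib
import Cfsg.Prelude.Def_Characters
import Cfsg.Agent.Lib.Helper35.Ind
import Cfsg.Agent.Lib.Helper4.CharLinear
import Cfsg.Agent.Lib.Helper91.BSQ8Local

set_option autoImplicit false

/-!
# Brauer–Suzuki for `Q8`: integrality of multiplicities

For an irreducible character `χ` of `G`:
* `bsq8_mult_c4`: if `u` has order 4 and is conjugate to its inverse then `χ 1 - χ (u ^ 2)` is
  four times a natural number (the multiplicity of a faithful linear character of `⟨u⟩`);
* `bsq8_mult_q8`: if a Sylow 2-subgroup `P` is quaternion of order 8 with all elements of order 4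
  conjugate in `G`, then `χ 1 + χ (u ^ 2) + 6 χ u` and `χ 1 + χ (u ^ 2) - 2 χ u` are eight times
  natural numbers (multiplicities of the trivial character and of a linear character of `P`).
-/

namespace Cfsg.Agent.Lib.Helper91

universe u

open Cfsg Cfsg.Agent.Lib.Helper35 Cfsg.Agent.Lib.Helper4
open scoped ComplexConjugate

section C4
variable {G : Type u} [Group G] [Finite G]

/-- the unit `i` of `ℂ`. -/
noncomputable def unitI : ℂˣ := ⟨Complex.I, -Complex.I, by simp, by simp⟩

theorem unitI_val : (unitI : ℂ) = Complex.I := rfl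

theorem unitI_pow_four : unitI ^ 4 = 1 := by
  apply Units.ext
  rw [Units.val_pow_eq_pow_val, unitI_val, Complex.I_pow_four, Units.val_one]

theorem bsq8_mult_c4 (χ : Cfsg.IrrCharacter G) (u : G) (hu4 : orderOf u = 4)
    (hconj : IsConj u u⁻¹) :
    ∃ n : ℕ, (χ : G → ℂ) 1 - (χ : G → ℂ) (u ^ 2) = 4 * (n : ℂ) := by
  classical
  have hχ : IsCharacter G (χ : G → ℂ) := isChar_of_irr χ.2
  have hcf : IsClassFunction G (χ : G → ℂ) := isClassFunction_of_isCharacter hχ
  let _ : Fintype (Subgroup.zpowers u) := Fintype.ofFinite _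
  obtain ⟨g0, hg0def⟩ : ∃ g0 : Subgroup.zpowers u, g0 = ⟨u, Subgroup.mem_zpowers u⟩ := ⟨_, rfl⟩
  have hg0val : (g0 : G) = u := by rw [hg0def]
  have hg0 : ∀ x : Subgroup.zpowers u, x ∈ Subgroup.zpowers g0 := by
    intro x
    obtain ⟨k, hk⟩ := Subgroup.mem_zpowers_iff.1 x.2
    refine Subgroup.mem_zpowers_iff.2 ⟨k, Subtype.ext ?_⟩
    rw [Subgroup.coe_zpow, hg0val]
    exact hk
  have hord : orderOf unitI ∣ orderOf g0 := by
    rw [← Subgroup.orderOf_coe, hg0val, hu4]
    exact orderOf_dvd_of_pow_eq_one unitI_pow_four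
  obtain ⟨l, hldef⟩ : ∃ l : Subgroup.zpowers u →* ℂˣ, l = monoidHomOfForallMemZpowers hg0 hord :=
    ⟨_, rfl⟩
  have hl : l g0 = unitI := by
    rw [hldef]
    exact monoidHomOfForallMemZpowers_apply_gen hg0 hord
  have hlchar : IsCharacter (Subgroup.zpowers u) (fun c => (l c : ℂ)) :=
    isChar_of_irr (isIrrCharacter_lin l)
  obtain ⟨n, hn⟩ := classInner_char_nat (isCharacter_res (Subgroup.zpowers u) hχ) hlchar
  refine ⟨n, ?_⟩
  have hcard : Nat.card (Subgroup.zpowers u) = 4 := by rw [Nat.card_zpowers, hu4]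
  have hfo : IsOfFinOrder u := isOfFinOrder_of_finite u
  have hu3 : u ^ 3 = u⁻¹ := by
    have h4 : u ^ 4 = 1 := by rw [← hu4]; exact pow_orderOf_eq_one u
    have h5 : u ^ 3 * u = 1 := by rw [← pow_succ]; exact h4
    exact eq_inv_of_mul_eq_one_left h5
  have hχu3 : (χ : G → ℂ) (u ^ 3) = (χ : G → ℂ) u := by
    obtain ⟨g, hg⟩ := isConj_iff.1 hconj
    rw [hu3, ← hg]
    exact hcf u g
  have hF : ∀ k : ℕ, res (Subgroup.zpowers u) (χ : G → ℂ) (g0 ^ k) * conj ((l (g0 ^ k) : ℂ))
      = (χ : G → ℂ) (u ^ k) * conj (Complex.I ^ k) := by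
    intro k
    rw [res_apply, Subgroup.coe_pow, hg0val, map_pow, hl, Units.val_pow_eq_pow_val, unitI_val]
  have hsum : ∑ c : Subgroup.zpowers u,
      res (Subgroup.zpowers u) (χ : G → ℂ) c * conj ((l c : ℂ))
      = (χ : G → ℂ) 1 - (χ : G → ℂ) (u ^ 2) := by
    rw [← Equiv.sum_comp (finEquivZPowers hfo)]
    have h1 : ∀ i : Fin (orderOf u),
        res (Subgroup.zpowers u) (χ : G → ℂ) (finEquivZPowers hfo i) *
          conj ((l (finEquivZPowers hfo i) : ℂ))
        = (fun k : ℕ => (χ : G → ℂ) (u ^ k) * conj (Complex.I ^ k)) (i : ℕ) := by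
      intro i
      have h2 : finEquivZPowers hfo i = g0 ^ (i : ℕ) := by
        apply Subtype.ext
        rw [finEquivZPowers_apply, Subgroup.coe_pow, hg0val]
      rw [h2, hF]
    rw [Finset.sum_congr rfl (fun i _ => h1 i),
      Fin.sum_univ_eq_sum_range (fun k : ℕ => (χ : G → ℂ) (u ^ k) * conj (Complex.I ^ k))
        (orderOf u), hu4]
    rw [Finset.sum_range_succ, Finset.sum_range_succ, Finset.sum_range_succ,
      Finset.sum_range_succ, Finset.sum_range_zero, hχu3]
    simp only [pow_zero, pow_one, map_one, mul_one, zero_add, map_pow, Complex.conj_I]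
    have hI2 : (-Complex.I) ^ 2 = -1 := by rw [neg_sq, Complex.I_sq]
    have hI3 : (-Complex.I) ^ 3 = Complex.I := by
      rw [pow_succ, hI2]
      ring
    rw [hI2, hI3]
    ring
  unfold classInner at hn
  rw [hcard, hsum] at hn
  have h4 : ((4 : ℕ) : ℂ) = 4 := by norm_num
  rw [h4] at hn
  linear_combination 4 * hn

end C4

section Q8

/-- the linear character of `QuaternionGroup 2` with kernel the cyclic subgroup of the `a i`. -/
noncomputable def q8lam : QuaternionGroup 2 →* ℂˣ where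
  toFun q := match q with
    | QuaternionGroup.a _ => 1
    | QuaternionGroup.xa _ => -1
  map_one' := rfl
  map_mul' := by
    rintro (i | i) (j | j)
    · rw [QuaternionGroup.a_mul_a]
      simp
    · rw [QuaternionGroup.a_mul_xa]
      simp
    · rw [QuaternionGroup.xa_mul_a]
      simp
    · rw [QuaternionGroup.xa_mul_xa]
      simp

theorem q8lam_a (i : ZMod (2 * 2)) : q8lam (QuaternionGroup.a i) = 1 := rfl

theorem q8lam_xa (i : ZMod (2 * 2)) : q8lam (QuaternionGroup.xa i) = -1 := rfl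

set_option maxRecDepth 100000 in
theorem q8_univ : (Finset.univ : Finset (QuaternionGroup 2)) =
    {QuaternionGroup.a 0, QuaternionGroup.a 1, QuaternionGroup.a 2, QuaternionGroup.a 3,
      QuaternionGroup.xa 0, QuaternionGroup.xa 1, QuaternionGroup.xa 2, QuaternionGroup.xa 3} := by
  decide

set_option maxRecDepth 100000 in
theorem q8_sum_eq (f : QuaternionGroup 2 → ℂ) :
    ∑ q : QuaternionGroup 2, f q = f (QuaternionGroup.a 0) + f (QuaternionGroup.a 1) +
      f (QuaternionGroup.a 2) + f (QuaternionGroup.a 3) + f (QuaternionGroup.xa 0) +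
      f (QuaternionGroup.xa 1) + f (QuaternionGroup.xa 2) + f (QuaternionGroup.xa 3) := by
  rw [q8_univ]
  rw [Finset.sum_insert (by decide), Finset.sum_insert (by decide), Finset.sum_insert (by decide),
    Finset.sum_insert (by decide), Finset.sum_insert (by decide), Finset.sum_insert (by decide),
    Finset.sum_insert (by decide), Finset.sum_singleton]
  ring

set_option maxRecDepth 100000 in
theorem q8_sq_eq : ∀ x : QuaternionGroup 2, x * x ≠ 1 → x * x = QuaternionGroup.a 2 := by decide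

set_option maxRecDepth 100000 in
theorem q8_sq_ne_list : (QuaternionGroup.a 1 : QuaternionGroup 2) * QuaternionGroup.a 1 ≠ 1 ∧
    (QuaternionGroup.a 3 : QuaternionGroup 2) * QuaternionGroup.a 3 ≠ 1 ∧
    (QuaternionGroup.xa 0 : QuaternionGroup 2) * QuaternionGroup.xa 0 ≠ 1 ∧
    (QuaternionGroup.xa 1 : QuaternionGroup 2) * QuaternionGroup.xa 1 ≠ 1 ∧
    (QuaternionGroup.xa 2 : QuaternionGroup 2) * QuaternionGroup.xa 2 ≠ 1 ∧
    (QuaternionGroup.xa 3 : QuaternionGroup 2) * QuaternionGroup.xa 3 ≠ 1 := by decide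

variable {G : Type u} [Group G] [Finite G]

theorem bsq8_mult_q8 (P : Sylow 2 G) (e : (P : Subgroup G) ≃* QuaternionGroup 2)
    (hfus : ∀ x y : G, x ∈ P → y ∈ P → orderOf x = 4 → orderOf y = 4 → IsConj x y)
    (χ : Cfsg.IrrCharacter G) (u : G) (hu : u ∈ P) (hu4 : orderOf u = 4) :
    ∃ m₀ m₁ : ℕ, (χ : G → ℂ) 1 + (χ : G → ℂ) (u ^ 2) + 6 * (χ : G → ℂ) u = 8 * (m₀ : ℂ) ∧
      (χ : G → ℂ) 1 + (χ : G → ℂ) (u ^ 2) - 2 * (χ : G → ℂ) u = 8 * (m₁ : ℂ) := by
  classical
  have hχ : IsCharacter G (χ : G → ℂ) := isChar_of_irr χ.2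
  have hcf : IsClassFunction G (χ : G → ℂ) := isClassFunction_of_isCharacter hχ
  let _ : Fintype (P : Subgroup G) := Fintype.ofFinite _
  obtain ⟨l, hldef⟩ : ∃ l : (P : Subgroup G) →* ℂˣ, l = q8lam.comp e.toMonoidHom := ⟨_, rfl⟩
  have hlapp : ∀ y : (P : Subgroup G), l y = q8lam (e y) := by
    intro y
    rw [hldef]
    rfl
  have hlchar : IsCharacter (P : Subgroup G) (fun y => (l y : ℂ)) :=
    isChar_of_irr (isIrrCharacter_lin l)
  obtain ⟨m₀, h0⟩ := classInner_char_nat (isCharacter_res (P : Subgroup G) hχ)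
    (isCharacter_one (G := (P : Subgroup G)))
  obtain ⟨m₁, h1⟩ := classInner_char_nat (isCharacter_res (P : Subgroup G) hχ) hlchar
  refine ⟨m₀, m₁, ?_, ?_⟩
  all_goals
    have hcard : Nat.card (P : Subgroup G) = 8 := by
      rw [Nat.card_congr e.toEquiv, Nat.card_eq_fintype_card, QuaternionGroup.card]
    have hu2 : u * u ≠ 1 := sq_ne_one_of_orderOf_four hu4
    -- values of `χ` on `P`
    have hv4 : ∀ q : QuaternionGroup 2, q * q ≠ 1 →
        (χ : G → ℂ) ((e.symm q : (P : Subgroup G)) : G) = (χ : G → ℂ) u := by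
      intro q hq
      have hy2 : ((e.symm q : (P : Subgroup G)) : G) * ((e.symm q : (P : Subgroup G)) : G) ≠ 1 := by
        intro h
        apply hq
        have h1 : e.symm q * e.symm q = 1 := Subtype.ext h
        have h2 := congrArg e h1
        rw [map_mul, map_one, e.apply_symm_apply] at h2
        exact h2
      have hy4 := q8s_orderOf_four e (e.symm q).2 hy2
      obtain ⟨g, hg⟩ := isConj_iff.1 (hfus u _ hu (e.symm q).2 hu4 hy4)
      rw [← hg]
      exact hcf u g
    have hv0 : (χ : G → ℂ) ((e.symm (QuaternionGroup.a 0) : (P : Subgroup G)) : G)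
        = (χ : G → ℂ) 1 := by
      have h1 : e.symm (QuaternionGroup.a 0) = 1 := by
        rw [QuaternionGroup.a_zero, map_one]
      rw [h1]
      rfl
    have hv2 : (χ : G → ℂ) ((e.symm (QuaternionGroup.a 2) : (P : Subgroup G)) : G)
        = (χ : G → ℂ) (u ^ 2) := by
      have h1 : e ⟨u, hu⟩ * e ⟨u, hu⟩ = QuaternionGroup.a 2 :=
        q8_sq_eq _ (q8s_sq_ne e hu hu2)
      have h2 : e.symm (QuaternionGroup.a 2) = ⟨u, hu⟩ * ⟨u, hu⟩ := by
        rw [← h1, ← map_mul, e.symm_apply_apply]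
      rw [h2, pow_two]
      rfl
    obtain ⟨ha1, ha3, hx0, hx1, hx2, hx3⟩ := q8_sq_ne_list
    have key : ∀ F : QuaternionGroup 2 → ℂ,
        ∑ y : (P : Subgroup G), res (P : Subgroup G) (χ : G → ℂ) y * F (e y)
        = ∑ q : QuaternionGroup 2, (χ : G → ℂ) ((e.symm q : (P : Subgroup G)) : G) * F q := by
      intro F
      refine Fintype.sum_equiv e.toEquiv _ _ (fun y => ?_)
      rw [res_apply]
      show (χ : G → ℂ) (y : G) * F (e y) = (χ : G → ℂ) ((e.symm (e y) : (P : Subgroup G)) : G) * F (e y)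
      rw [e.symm_apply_apply]
  · -- trivial character
    have hsum : ∑ y : (P : Subgroup G), res (P : Subgroup G) (χ : G → ℂ) y *
        conj ((1 : ↥(P : Subgroup G) → ℂ) y)
        = (χ : G → ℂ) 1 + (χ : G → ℂ) (u ^ 2) + 6 * (χ : G → ℂ) u := by
      have h2 := key (fun _ => 1)
      simp only [mul_one] at h2
      simp only [Pi.one_apply, map_one, mul_one]
      rw [h2, q8_sum_eq, hv0, hv2, hv4 _ ha1, hv4 _ ha3, hv4 _ hx0, hv4 _ hx1, hv4 _ hx2,
        hv4 _ hx3]
      ring
    unfold classInner at h0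
    rw [hcard, hsum] at h0
    have h8 : ((8 : ℕ) : ℂ) = 8 := by norm_num
    rw [h8] at h0
    linear_combination 8 * h0
  · -- the linear character
    have hsum : ∑ y : (P : Subgroup G), res (P : Subgroup G) (χ : G → ℂ) y *
        conj ((l y : ℂ))
        = (χ : G → ℂ) 1 + (χ : G → ℂ) (u ^ 2) - 2 * (χ : G → ℂ) u := by
      have h2 := key (fun q => conj ((q8lam q : ℂ)))
      simp only [← hlapp] at h2
      rw [h2, q8_sum_eq, hv0, hv2, hv4 _ ha1, hv4 _ ha3, hv4 _ hx0, hv4 _ hx1, hv4 _ hx2,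
        hv4 _ hx3]
      simp only [q8lam_a, q8lam_xa, Units.val_one, Units.val_neg, map_one, map_neg]
      ring
    unfold classInner at h1
    rw [hcard, hsum] at h1
    have h8 : ((8 : ℕ) : ℂ) = 8 := by norm_num
    rw [h8] at h1
    linear_combination 8 * h1

end Q8

end Cfsg.Agent.Lib.Helper91
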