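import Mathlib
import Cfsg.Agent.S0947
import Cfsg.Agent.Lib.Helper91.BSQ8Local

set_option autoImplicit false

/-!
# Brauer–Suzuki for `Q8`: the norm sum at an element of order 4

For an element `u` of order 4 of a group with quaternion Sylow 2-subgroups of order 8, the sum of
`|χ u|²` over the principal 2-block is 4 (the centralizer of `u` has a normal 2-complement and
Sylow 2-subgroups of order 4).
-/

namespace Cfsg.Agent.Lib.Helper91

universe u

theorem bsq8_norm_sum {G : Type u} [Group G] [Finite G] (M : Ideal Cfsg.AlgInt)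
    (hM : Cfsg.IsPModular 2 M) (P : Sylow 2 G) (e : (P : Subgroup G) ≃* QuaternionGroup 2)
    (u : G) (_hu : u ∈ P) (hu4 : orderOf u = 4) :
    ∑ᶠ χ ∈ Cfsg.principalBlock M G, ‖(χ : G → ℂ) u‖ ^ 2 = 4 := by
  have hfact : Fact (Nat.Prime 2) := ⟨Nat.prime_two⟩
  obtain ⟨hidx, hfac⟩ := bsq8_centralizer P e u hu4
  have hu1 : u ≠ 1 := by
    intro h
    rw [h, orderOf_one] at hu4
    omega
  have h := (Cfsg.Agent.S0947.result 2 M hM u ⟨2, by rw [hu4]; norm_num⟩ hu1
    (1 : Subgroup.centralizer ({u} : Set G)) (by rw [orderOf_one]; norm_num)).2 hidx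
  rw [hfac] at h
  simp only [Subgroup.coe_one, mul_one] at h
  rw [h]
  norm_num

end Cfsg.Agent.Lib.Helper91
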