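import Cfsg.Agent.Lib.Helper96.HyDefs

/-!
Project HY (S5992, architect helper96): piece EXIST (`exists_fix_odd`), proved by helper91.
-/

set_option autoImplicit false
set_option linter.unusedSectionVars false
set_option linter.unusedVariables false

namespace Cfsg.Agent.Lib.Helper91.Hy

open Module Polynomial Cfsg.Agent.Lib.Helper96.Sp Cfsg.Agent.Lib.Helper96.Hy
  Cfsg.Agent.Lib.Helper47

universe u

variable {F : Type u} [Field F] [Fintype F] {V : Type u} [AddCommGroup V] [Module F V]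
  [FiniteDimensional F V] {B : LinearMap.BilinForm F V}

-- PIECE EXIST
theorem exists_fix_odd (hS : B.IsSymm) (h2 : (2 : F) ≠ 0) (hN : ND B ⊤) (hF : Facts B) (r : ℕ)
    [Fact r.Prime] (hr2 : r ≠ 2) (hrq : ¬ r ∣ Fintype.card F) (hr0 : (r : F) ≠ 0)
    (hR : RFacts B r) (hodd : Odd (finrank F V)) (m : ℕ) (hme : Even m) (hm2 : 2 ≤ m)
    (hmn : m + 1 ≤ finrank F V)
    (hlt : m % blk (Fintype.card F) r < finrank F V % blk (Fintype.card F) r)
    (hpar : Even (orderOf ((Fintype.card F : ℕ) : ZMod r)) → m % blk (Fintype.card F) r = 0 →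
      Even (m / blk (Fintype.card F) r))
    (T : Module.End F V) (hT : Isom B T) (hTr : T ^ r = 1) :
    ∃ W : Submodule F V, finrank F W = m ∧ Hyp B W ∧ W.map T ≤ W := by
  obtain ⟨hi, -, -, hdisj, hRinv, hKinv, -, hdim, hsum⟩ :=
    Cfsg.Agent.Lib.Helper96.BG.pow_one_setup T r hrq hr0 hTr
  have hK : ND B (LinearMap.ker (T - 1)) :=
    Cfsg.Agent.Lib.Helper98.O72.nd_ker hS h2 hN T hT r hrq hr0 hTr
  have hRn : ND B (LinearMap.range (T - 1)) :=
    Cfsg.Agent.Lib.Helper98.O72.nd_range hS h2 hN T hT r hrq hr0 hTr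
  have hKR : Orth B (LinearMap.ker (T - 1)) (LinearMap.range (T - 1)) := orth_ker_range hT
  have hcpos : 1 ≤ blk (Fintype.card F) r := blk_pos _ _ hi
  have hceven : Even (blk (Fintype.card F) r) := blk_even _ _
  obtain ⟨j, hj⟩ := hR.blk_dvd T hT hTr _ le_rfl hRinv hRn
  have hsub := hR.sub_blk T hT hTr
  have htypr := hR.typ_range T hT hTr
  generalize blk (Fintype.card F) r = c at *
  generalize hf : finrank F (LinearMap.ker (T - 1)) = f at *
  obtain ⟨c', hc'⟩ := hceven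
  obtain ⟨m', hm'⟩ := hme
  have hnmod : finrank F V % c = f % c := by
    rw [← hsum, hj, Nat.add_mul_mod_self_left]
  have hfge : finrank F V % c ≤ f := by rw [hnmod]; exact Nat.mod_le _ _
  -- the general construction
  have key : ∀ b w : ℕ, b ≤ j → w + c * b = m → w < f →
      (w = 0 → Even (orderOf ((Fintype.card F : ℕ) : ZMod r)) → Even b) →
      ∃ W : Submodule F V, finrank F W = m ∧ Hyp B W ∧ W.map T ≤ W := by
    intro b w hbj hwm hwf hpar'
    obtain ⟨W₁, hW₁R, hW₁inv, hW₁nd, hW₁dim⟩ :=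
      hsub b (by rw [hj]; exact Nat.mul_le_mul_left c hbj)
    rcases Nat.eq_zero_or_pos b with hb0 | hbpos
    · subst hb0
      have hwm' : w = m := by simpa using hwm
      obtain ⟨W, hWK, hWh, hWd⟩ := hF.hyp_sub _ hK m' (by rw [hf]; omega)
      exact ⟨W, by omega, hWh, hKinv W hWK⟩
    · have htyp := htypr W₁ hW₁R hW₁inv hW₁nd b hbpos hW₁dim
      have hε : ∃ ε₁ : ℤ, Typ B W₁ ε₁ ∧ (ε₁ = 1 ∨ ε₁ = -1) ∧ (w = 0 → ε₁ = 1) := by
        refine ⟨_, htyp, ?_, ?_⟩
        · split_ifs with h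
          · rcases Nat.even_or_odd b with hb | hb
            · left; exact hb.neg_one_pow
            · right; exact hb.neg_one_pow
          · left; rfl
        · intro hw0
          split_ifs with h
          · exact (hpar' hw0 h).neg_one_pow
          · rfl
      obtain ⟨ε₁, htyp, hε, hε0⟩ := hε
      rcases Nat.eq_zero_or_pos w with hw0 | hwpos
      · have htyp1 : Typ B W₁ 1 := by rw [← hε0 hw0]; exact htyp
        exact ⟨W₁, by rw [hW₁dim]; omega, hF.hyp_of_typ W₁ hW₁nd htyp1, hW₁inv⟩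
      · have hcb : c * b = c' * b + c' * b := by rw [hc']; ring
        obtain ⟨w', hw'⟩ : ∃ w', w = 2 * w' := ⟨m' - c' * b, by omega⟩
        have hw'1 : 1 ≤ w' := by omega
        obtain ⟨W₀, hW₀K, hW₀nd, hW₀dim, hW₀typ⟩ : ∃ W₀ : Submodule F V,
            W₀ ≤ LinearMap.ker (T - 1) ∧ ND B W₀ ∧ finrank F W₀ = w ∧ Typ B W₀ ε₁ := by
          rcases hε with h1 | h1
          · obtain ⟨W, hWK, hWh, hWd⟩ := hF.hyp_sub _ hK w' (by rw [hf]; omega)
            exact ⟨W, hWK, hWh.1, by omega, by rw [h1]; exact hF.typ_of_hyp W hWh (by omega)⟩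
          · obtain ⟨W, hWK, hWnd, hWd, hWt⟩ := hF.ell_sub _ hK w' hw'1 (by rw [hf]; omega)
            exact ⟨W, hWK, hWnd, by omega, by rw [h1]; exact hWt⟩
        have horth : Orth B W₀ W₁ := orth_mono hKR hW₀K hW₁R
        have htyp2 := hF.typ_sup W₀ W₁ ε₁ ε₁ hW₀nd hW₁nd horth hW₀typ htyp
        have hεε : ε₁ * ε₁ = 1 := by rcases hε with h | h <;> rw [h] <;> norm_num
        rw [hεε] at htyp2
        have hnd := Cfsg.Agent.Lib.Helper98.O72.nd_sup hS h2 hW₀nd hW₁nd horth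
        refine ⟨W₀ ⊔ W₁, by rw [hnd.2, hW₀dim, hW₁dim]; omega,
          hF.hyp_of_typ _ hnd.1 htyp2, ?_⟩
        rw [Submodule.map_sup]
        exact sup_le_sup (hKinv W₀ hW₀K) hW₁inv
  have hdm := Nat.div_add_mod m c
  rcases le_or_gt (m / c) j with hle | hgt
  · exact key (m / c) (m % c) hle (by omega) (by omega) (fun hw0 hie => hpar hie hw0)
  · have h1 : c * (j + 1) ≤ c * (m / c) := Nat.mul_le_mul_left c hgt
    rw [mul_add, mul_one] at h1
    have h3 : c * (m / c) ≤ m := Nat.mul_div_le m c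
    refine key j (m - c * j) le_rfl (by omega) (by omega) (fun hw0 => ?_)
    exfalso; omega

end Cfsg.Agent.Lib.Helper91.Hy
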