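import Mathlib
import Cfsg.Agent.Lib.Helper78.JQDefs

/-!
Project JQ (S2945, architect helper78): piece LABC, by helper91.

Core: a `3`-group `P` of automorphisms of an abelian group `V`, generated by `g₁, g₂` with
`[V, gᵢ] ≤ Wᵢ` four-groups, `W₁ ⊓ W₂ = ⊥`, `g₂` fixed-point-free on `W₂`: then `g₁` centralizes
`W₂`.  Proof: `P` acts on the set `Λ` of four-subgroups of `M = W₁ ⊔ W₂`; the only `g₂`-invariant
members of `Λ` are `W₂` and `C_M(g₂)`; by the fixed-point congruence (twice, for `P` and for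
`⟨g₂⟩`) every `g₂`-invariant member is `P`-invariant; so `g₁` normalizes `W₂`, and
`[W₂, g₁] ≤ W₁ ⊓ W₂ = ⊥`.
-/

set_option autoImplicit false
set_option linter.style.haveILetI false

namespace Cfsg.Agent.Lib.Helper91.JQ

open Cfsg.Agent.Lib.Helper78.JQ Cfsg.Agent.Lib.Helper78.Jc
open scoped Pointwise

universe u

/-- the four-subgroups inside `M` -/
structure LabcFour {V : Type*} [Group V] (M : Subgroup V) where
  /-- the subgroup -/
  val : Subgroup V
  le : val ≤ M
  card : Nat.card val = 4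

theorem labcFour_ext {V : Type*} [Group V] {M : Subgroup V} (D D' : LabcFour M)
    (h : D.val = D'.val) : D = D' := by
  cases D
  cases D'
  simp only at h
  subst h
  rfl

theorem labcFour_val_injective {V : Type*} [Group V] (M : Subgroup V) :
    Function.Injective (LabcFour.val : LabcFour M → Subgroup V) :=
  fun D D' h => labcFour_ext D D' h

noncomputable instance labcAct {V : Type*} [Group V] (M : Subgroup V) :
    MulAction ↥(MulAction.stabilizer (MulAut V) M) (LabcFour M) where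
  smul g D :=
    { val := (g : MulAut V) • D.val
      le := by
        have h1 : (g : MulAut V) • D.val ≤ (g : MulAut V) • M :=
          Subgroup.pointwise_smul_le_pointwise_smul_iff.mpr D.le
        have h2 : (g : MulAut V) • M = M := MulAction.mem_stabilizer_iff.mp g.2
        rw [h2] at h1
        exact h1
      card := by
        have h1 := Nat.card_congr (Subgroup.equivSMul (g : MulAut V) D.val).symm.toEquiv
        rw [h1]
        exact D.card }
  one_smul D := labcFour_ext _ _ (one_smul (MulAut V) D.val)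
  mul_smul g h D := labcFour_ext _ _ (mul_smul (g : MulAut V) (h : MulAut V) D.val)

theorem labc_smul_val {V : Type*} [Group V] (M : Subgroup V)
    (g : ↥(MulAction.stabilizer (MulAut V) M)) (D : LabcFour M) :
    (g • D).val = (g : MulAut V) • D.val := rfl

theorem labc_smul_eq {V : Type*} [Group V] [Finite V] (g : MulAut V) (S : Subgroup V)
    (h : ∀ s ∈ S, g s ∈ S) : g • S = S := by
  have hle : g • S ≤ S := by
    intro x hx
    rw [Subgroup.mem_smul_pointwise_iff_exists] at hx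
    obtain ⟨s, hs, rfl⟩ := hx
    exact h s hs
  exact Subgroup.eq_of_le_of_card_ge hle
    (le_of_eq (Nat.card_congr (Subgroup.equivSMul g S).toEquiv))

theorem labc_mem_of_smul_eq {V : Type*} [Group V] (g : MulAut V) (S : Subgroup V)
    (h : g • S = S) : ∀ s ∈ S, g s ∈ S := by
  intro s hs
  have h1 : g • s ∈ g • S := Subgroup.smul_mem_pointwise_smul s g S hs
  rw [h] at h1
  exact h1

theorem labc_core {V : Type*} [CommGroup V] [Finite V]
    (g₁ g₂ : MulAut V) (W₁ W₂ : Subgroup V) (hc₁ : Nat.card W₁ = 4) (hc₂ : Nat.card W₂ = 4)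
    (hd₁ : ∀ v, v⁻¹ * g₁ v ∈ W₁) (hd₂ : ∀ v, v⁻¹ * g₂ v ∈ W₂)
    (hf₂ : ∀ w ∈ W₂, g₂ w = w → w = 1) (hW : W₁ ⊓ W₂ = ⊥)
    (hP : IsPGroup 3 ↥(Subgroup.closure ({g₁, g₂} : Set (MulAut V)))) :
    ∀ w ∈ W₂, g₁ w = w := by
  classical
  haveI : Fact (Nat.Prime 3) := ⟨by norm_num⟩
  set M : Subgroup V := W₁ ⊔ W₂ with hM
  have hW₁M : W₁ ≤ M := le_sup_left
  have hW₂M : W₂ ≤ M := le_sup_right
  -- invariance
  have hg₁M : ∀ m ∈ M, g₁ m ∈ M := by
    intro m hm
    have h1 : g₁ m = m * (m⁻¹ * g₁ m) := by group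
    rw [h1]
    exact M.mul_mem hm (hW₁M (hd₁ m))
  have hg₂M : ∀ m ∈ M, g₂ m ∈ M := by
    intro m hm
    have h1 : g₂ m = m * (m⁻¹ * g₂ m) := by group
    rw [h1]
    exact M.mul_mem hm (hW₂M (hd₂ m))
  have hg₂W : ∀ w ∈ W₂, g₂ w ∈ W₂ := by
    intro w hw
    have h1 : g₂ w = w * (w⁻¹ * g₂ w) := by group
    rw [h1]
    exact W₂.mul_mem hw (hd₂ w)
  have hs₁ : g₁ ∈ MulAction.stabilizer (MulAut V) M :=
    MulAction.mem_stabilizer_iff.mpr (labc_smul_eq g₁ M hg₁M)
  have hs₂ : g₂ ∈ MulAction.stabilizer (MulAut V) M :=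
    MulAction.mem_stabilizer_iff.mpr (labc_smul_eq g₂ M hg₂M)
  have hcl : Subgroup.closure ({g₁, g₂} : Set (MulAut V)) ≤ MulAction.stabilizer (MulAut V) M := by
    rw [Subgroup.closure_le]
    intro g hg
    rcases hg with rfl | rfl
    · exact hs₁
    · exact hs₂
  -- the groups
  set G₀ := MulAction.stabilizer (MulAut V) M with hG₀
  set P : Subgroup ↥G₀ := (Subgroup.closure ({g₁, g₂} : Set (MulAut V))).subgroupOf G₀ with hPdef
  have hPp : IsPGroup 3 ↥P := hP.of_equiv (Subgroup.subgroupOfEquivOfLe hcl).symm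
  have hγ₁ : (⟨g₁, hs₁⟩ : ↥G₀) ∈ P := by
    rw [hPdef, Subgroup.mem_subgroupOf]
    exact Subgroup.subset_closure (Or.inl rfl)
  have hγ₂ : (⟨g₂, hs₂⟩ : ↥G₀) ∈ P := by
    rw [hPdef, Subgroup.mem_subgroupOf]
    exact Subgroup.subset_closure (Or.inr rfl)
  set H₂ : Subgroup ↥G₀ := Subgroup.zpowers (⟨g₂, hs₂⟩ : ↥G₀) with hH₂
  have hH₂P : H₂ ≤ P := Subgroup.zpowers_le.mpr hγ₂
  have hHp : IsPGroup 3 ↥H₂ := hPp.to_le hH₂P
  haveI : Finite (LabcFour M) := Finite.of_injective _ (labcFour_val_injective M)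
  have hmodP := hPp.card_modEq_card_fixedPoints (LabcFour M)
  have hmodH := hHp.card_modEq_card_fixedPoints (LabcFour M)
  rw [Nat.card_coe_set_eq] at hmodP hmodH
  have hsub : MulAction.fixedPoints ↥P (LabcFour M) ⊆ MulAction.fixedPoints ↥H₂ (LabcFour M) := by
    intro D hD
    rw [MulAction.mem_fixedPoints] at hD ⊢
    intro h
    exact hD ⟨h.1, hH₂P h.2⟩
  -- `C_M(g₂)`
  set D₂ : Subgroup V := M ⊓ MonoidHom.eqLocus g₂.toMonoidHom (MonoidHom.id V) with hD₂
  have hD₂mem : ∀ x, x ∈ D₂ ↔ x ∈ M ∧ g₂ x = x := by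
    intro x
    rw [hD₂, Subgroup.mem_inf]
    rfl
  have hM16 : Nat.card M ≤ 16 := by
    let f : ↥W₁ × ↥W₂ → ↥M := fun p =>
      ⟨(p.1 : V) * (p.2 : V), M.mul_mem (hW₁M p.1.2) (hW₂M p.2.2)⟩
    have hf : Function.Surjective f := by
      rintro ⟨m, hm⟩
      rw [hM, Subgroup.mem_sup] at hm
      obtain ⟨y, hy, z, hz, hyz⟩ := hm
      exact ⟨(⟨y, hy⟩, ⟨z, hz⟩), Subtype.ext hyz⟩
    have h1 := Nat.card_le_card_of_surjective f hf
    rw [Nat.card_prod, hc₁, hc₂] at h1
    exact h1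
  have hD₂4 : Nat.card D₂ ≤ 4 := by
    let f : ↥W₂ × ↥D₂ → ↥M := fun p =>
      ⟨(p.1 : V) * (p.2 : V), M.mul_mem (hW₂M p.1.2) ((hD₂mem _).mp p.2.2).1⟩
    have hf : Function.Injective f := by
      rintro ⟨⟨w, hw⟩, ⟨d, hd⟩⟩ ⟨⟨w', hw'⟩, ⟨d', hd'⟩⟩ h
      have h1 : w * d = w' * d' := congrArg Subtype.val h
      have h2 : w'⁻¹ * w = d' * d⁻¹ := by
        rw [inv_mul_eq_iff_eq_mul, ← mul_assoc, ← h1, mul_assoc, mul_inv_cancel, mul_one]
      have h3 : w'⁻¹ * w ∈ W₂ := W₂.mul_mem (W₂.inv_mem hw') hw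
      have h4 : g₂ (w'⁻¹ * w) = w'⁻¹ * w := by
        rw [h2, map_mul, map_inv, ((hD₂mem d').mp hd').2, ((hD₂mem d).mp hd).2]
      have h5 := hf₂ _ h3 h4
      have h6 : w = w' := by
        rw [inv_mul_eq_one] at h5
        exact h5.symm
      subst h6
      have h7 : d = d' := mul_left_cancel h1
      subst h7
      rfl
    have h1 := Nat.card_le_card_of_injective f hf
    rw [Nat.card_prod, hc₂] at h1
    omega
  -- the `g₂`-invariant four-subgroups of `M`
  have hclass : ∀ D : LabcFour M, D ∈ MulAction.fixedPoints ↥H₂ (LabcFour M) →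
      D.val = W₂ ∨ D.val = D₂ := by
    intro D hD
    rw [MulAction.mem_fixedPoints] at hD
    have h1 := hD ⟨⟨g₂, hs₂⟩, Subgroup.mem_zpowers _⟩
    have h2 : g₂ • D.val = D.val := congrArg LabcFour.val h1
    have hinv := labc_mem_of_smul_eq g₂ D.val h2
    by_cases hall : ∀ d ∈ D.val, g₂ d = d
    · right
      have hle : D.val ≤ D₂ := fun d hd => (hD₂mem d).mpr ⟨D.le hd, hall d hd⟩
      exact Subgroup.eq_of_le_of_card_ge hle (by rw [D.card]; exact hD₂4)
    · left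
      push Not at hall
      obtain ⟨d, hdD, hd⟩ := hall
      have heW : d⁻¹ * g₂ d ∈ W₂ := hd₂ d
      have heD : d⁻¹ * g₂ d ∈ D.val := D.val.mul_mem (D.val.inv_mem hdD) (hinv d hdD)
      have he1 : d⁻¹ * g₂ d ≠ 1 := by
        intro h
        rw [inv_mul_eq_one] at h
        exact hd h.symm
      generalize d⁻¹ * g₂ d = e at heW heD he1
      have hge : g₂ e ≠ e := fun h => he1 (hf₂ e heW h)
      have hge1 : g₂ e ≠ 1 := by
        intro h
        apply he1
        have : g₂ e = g₂ 1 := by rw [h, map_one]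
        exact g₂.injective this
      have hK1 : Nat.card ↥(D.val ⊓ W₂) ∣ 4 := by
        rw [← D.card]
        exact Subgroup.card_dvd_of_le inf_le_left
      have hKe : e ∈ D.val ⊓ W₂ := Subgroup.mem_inf.mpr ⟨heD, heW⟩
      have hKge : g₂ e ∈ D.val ⊓ W₂ := Subgroup.mem_inf.mpr ⟨hinv e heD, hg₂W e heW⟩
      have hK4 : Nat.card ↥(D.val ⊓ W₂) = 4 := by
        have hle4 : Nat.card ↥(D.val ⊓ W₂) ≤ 4 := Nat.le_of_dvd (by norm_num) hK1
        have hne1 : Nat.card ↥(D.val ⊓ W₂) ≠ 1 := by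
          intro h
          rw [Subgroup.card_eq_one] at h
          rw [h, Subgroup.mem_bot] at hKe
          exact he1 hKe
        have hne2 : Nat.card ↥(D.val ⊓ W₂) ≠ 2 := by
          intro h
          rw [Nat.card_eq_two_iff' (1 : ↥(D.val ⊓ W₂))] at h
          obtain ⟨y, -, hy⟩ := h
          have h3 := hy ⟨e, hKe⟩ (fun h => he1 (congrArg Subtype.val h))
          have h4 := hy ⟨g₂ e, hKge⟩ (fun h => hge1 (congrArg Subtype.val h))
          exact hge (congrArg Subtype.val (h4.trans h3.symm))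
        have hne0 : Nat.card ↥(D.val ⊓ W₂) ≠ 0 := Nat.card_pos.ne'
        have hne3 : Nat.card ↥(D.val ⊓ W₂) ≠ 3 := by
          intro h
          rw [h] at hK1
          omega
        omega
      have hKD : D.val ⊓ W₂ = D.val :=
        Subgroup.eq_of_le_of_card_ge inf_le_left (by rw [hK4, D.card])
      have hKW : D.val ⊓ W₂ = W₂ :=
        Subgroup.eq_of_le_of_card_ge inf_le_right (by rw [hK4, hc₂])
      rw [← hKD, hKW]
  have hFH2 : (MulAction.fixedPoints ↥H₂ (LabcFour M)).ncard ≤ 2 := by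
    have himg : LabcFour.val '' (MulAction.fixedPoints ↥H₂ (LabcFour M)) ⊆
        ({W₂, D₂} : Set (Subgroup V)) := by
      rintro _ ⟨D, hD, rfl⟩
      rcases hclass D hD with h | h
      · exact Or.inl h
      · exact Or.inr h
    have h1 := Set.ncard_le_ncard himg (Set.toFinite _)
    rw [Set.ncard_image_of_injective _ (labcFour_val_injective M)] at h1
    have h2 : ({W₂, D₂} : Set (Subgroup V)).ncard ≤ 2 := by
      have h3 := Set.ncard_insert_le W₂ ({D₂} : Set (Subgroup V))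
      rw [Set.ncard_singleton] at h3
      exact h3
    omega
  have hFeq : MulAction.fixedPoints ↥P (LabcFour M) = MulAction.fixedPoints ↥H₂ (LabcFour M) := by
    apply Set.eq_of_subset_of_ncard_le hsub
    have h1 := Set.ncard_le_ncard hsub (Set.toFinite _)
    have h2 : (MulAction.fixedPoints ↥P (LabcFour M)).ncard ≡
        (MulAction.fixedPoints ↥H₂ (LabcFour M)).ncard [MOD 3] := hmodP.symm.trans hmodH
    unfold Nat.ModEq at h2
    omega
  -- `W₂` is `g₂`-invariant, hence `P`-invariant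
  have hW₂fix : (⟨W₂, hW₂M, hc₂⟩ : LabcFour M) ∈ MulAction.fixedPoints ↥H₂ (LabcFour M) := by
    rw [MulAction.mem_fixedPoints]
    intro h
    have h1 : H₂ ≤ MulAction.stabilizer ↥G₀ (⟨W₂, hW₂M, hc₂⟩ : LabcFour M) := by
      rw [hH₂, Subgroup.zpowers_le, MulAction.mem_stabilizer_iff]
      apply labcFour_ext
      rw [labc_smul_val]
      exact labc_smul_eq g₂ W₂ hg₂W
    exact MulAction.mem_stabilizer_iff.mp (h1 h.2)
  rw [← hFeq, MulAction.mem_fixedPoints] at hW₂fix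
  have h1 := hW₂fix ⟨⟨g₁, hs₁⟩, hγ₁⟩
  have h2 : g₁ • W₂ = W₂ := congrArg LabcFour.val h1
  have hg₁W := labc_mem_of_smul_eq g₁ W₂ h2
  intro w hw
  have h3 : w⁻¹ * g₁ w ∈ W₁ ⊓ W₂ :=
    Subgroup.mem_inf.mpr ⟨hd₁ w, W₂.mul_mem (W₂.inv_mem hw) (hg₁W w hw)⟩
  rw [hW, Subgroup.mem_bot, inv_mul_eq_one] at h3
  exact h3.symm

/-- the commutative group structure on an abelian subgroup -/
@[reducible] def labcCommGroup {X : Type*} [Group X] (U : Subgroup X)
    (h : ∀ a ∈ U, ∀ b ∈ U, a * b = b * a) : CommGroup ↥U :=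
  { (inferInstance : Group ↥U) with
    mul_comm := fun a b => Subtype.ext (h a.1 a.2 b.1 b.2) }

theorem labc : LabcStmt.{u} := by
  intro X _ _ U N W₁ W₂ x₁ x₂ hUn hUc hUe hN hx₁ hx₂ hW₁U hW₂U hc₁ hc₂ hd₁ hd₂ hf₁ hf₂ hW w hw
  classical
  have hρ : ∀ (x : X) (v : ↥U), (((MulAut.conjNormal x : MulAut ↥U) v : ↥U) : X) = x * v * x⁻¹ :=
    fun x v => rfl
  have key := @labc_core ↥U (labcCommGroup U hUc) _ (MulAut.conjNormal x₁) (MulAut.conjNormal x₂)
    (W₁.subgroupOf U) (W₂.subgroupOf U) ?_ ?_ ?_ ?_ ?_ ?_ ?_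
  · have h1 := key ⟨w, hW₂U hw⟩ (Subgroup.mem_subgroupOf.mpr hw)
    have h2 := congrArg Subtype.val h1
    rw [hρ] at h2
    have h3 : x₁ * w * x₁⁻¹ = w := h2
    calc x₁ * w = x₁ * w * x₁⁻¹ * x₁ := by group
      _ = w * x₁ := by rw [h3]
  · rw [Nat.card_congr (Subgroup.subgroupOfEquivOfLe hW₁U).toEquiv]
    exact hc₁
  · rw [Nat.card_congr (Subgroup.subgroupOfEquivOfLe hW₂U).toEquiv]
    exact hc₂
  · intro v
    rw [Subgroup.mem_subgroupOf]
    exact hd₁ v.1 v.2
  · intro v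
    rw [Subgroup.mem_subgroupOf]
    exact hd₂ v.1 v.2
  · intro w' hw' hfix
    apply Subtype.ext
    have h1 := congrArg Subtype.val hfix
    rw [hρ] at h1
    exact hf₂ w'.1 (Subgroup.mem_subgroupOf.mp hw') h1
  · rw [eq_bot_iff]
    intro v hv
    rw [Subgroup.mem_inf, Subgroup.mem_subgroupOf, Subgroup.mem_subgroupOf] at hv
    have h1 : (v : X) ∈ W₁ ⊓ W₂ := Subgroup.mem_inf.mpr hv
    rw [hW, Subgroup.mem_bot] at h1
    rw [Subgroup.mem_bot]
    exact Subtype.ext h1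
  · have hle : Subgroup.closure
        ({MulAut.conjNormal x₁, MulAut.conjNormal x₂} : Set (MulAut ↥U)) ≤
        N.map (MulAut.conjNormal : X →* MulAut ↥U) := by
      rw [Subgroup.closure_le]
      intro g hg
      rcases hg with rfl | rfl
      · exact ⟨x₁, hx₁, rfl⟩
      · exact ⟨x₂, hx₂, rfl⟩
    intro g
    obtain ⟨n, hn, hng⟩ := hle g.2
    obtain ⟨j, hj⟩ := hN n hn
    refine ⟨j, ?_⟩
    apply Subtype.ext
    rw [Subgroup.coe_pow, ← hng, ← map_pow]
    apply MulEquiv.ext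
    intro v
    apply Subtype.ext
    rw [hρ]
    have h1 := hj v.1 v.2
    rw [h1]
    simp

end Cfsg.Agent.Lib.Helper91.JQ
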