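import Cfsg.Agent.Lib.Helper96.PiDefs
import Cfsg.Agent.Lib.Helper96.PiGlueB
import Cfsg.Agent.Lib.Helper96.PiOmega
import Cfsg.Agent.Lib.Helper9.HeUNIPPOW
import Cfsg.Agent.Lib.Helper95.O72EVEN

/-!
Project PI (S5989, helper96): PIECE DERANGE.
-/

set_option autoImplicit false
set_option linter.unusedSectionVars false
set_option linter.unusedVariables false

namespace Cfsg.Agent.Lib.Helper91.Pi

open Module Cfsg.Agent.Lib.Helper96.Sp Cfsg.Agent.Lib.Helper96.BG Cfsg.Agent.Lib.Helper96.Hy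
  Cfsg.Agent.Lib.Helper96.Pi Cfsg.Agent.Lib.Helper47

universe u

variable {F : Type u} [Field F] [Fintype F] {V : Type u} [AddCommGroup V] [Module F V]
  [FiniteDimensional F V] {B : LinearMap.BilinForm F V}

-- PIECE DERANGE
theorem even_of_inv_fpf (hS : B.IsSymm) (h2 : (2 : F) ≠ 0) (hN : ND B ⊤) (r : ℕ) [Fact r.Prime]
    (hr2 : r ≠ 2) (hrq : ¬ r ∣ Fintype.card F) (hr0 : (r : F) ≠ 0) (T : Module.End F V)
    (hT : Isom B T) (hTr : T ^ r = 1) (hker : LinearMap.ker (T - 1) = ⊥)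
    (W : Submodule F V) (hW : ND B W) (hWT : W.map T ≤ W) : Even (finrank F W) := by
  have hsurj : LinearMap.range (T - 1) = ⊤ := by
    rw [LinearMap.range_eq_top]
    exact LinearMap.injective_iff_surjective.1 (LinearMap.ker_eq_bot.1 hker)
  exact Cfsg.Agent.Lib.Helper98.O72.even_finrank_of_nd_range hS h2 hN T hT r hr2 hrq hr0 hTr
    W hWT hW (by rw [hsurj]; exact le_top)

end Cfsg.Agent.Lib.Helper91.Pi
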