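import Cfsg.Agent.Lib.Helper96.PiDefs
import Cfsg.Agent.Lib.Helper96.PiGlueB
import Cfsg.Agent.Lib.Helper96.PiOmega
import Cfsg.Agent.Lib.Helper9.HeUNIPPOW
import Cfsg.Agent.Lib.Helper34.HyORBIT
import Cfsg.Agent.Lib.Helper30.O72WITT

/-!
Project PI (S5989, helper96): PIECE GENCNT.
-/

set_option autoImplicit false
set_option linter.unusedSectionVars false
set_option linter.unusedVariables false

namespace Cfsg.Agent.Lib.Helper91.Pi

open Module Cfsg.Agent.Lib.Helper96.Sp Cfsg.Agent.Lib.Helper96.BG Cfsg.Agent.Lib.Helper96.Hy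
  Cfsg.Agent.Lib.Helper96.Pi Cfsg.Agent.Lib.Helper47

universe u

variable {F : Type u} [Field F] [Fintype F] {V : Type u} [AddCommGroup V] [Module F V]
  [FiniteDimensional F V] {B : LinearMap.BilinForm F V}

-- PIECE GENCNT
theorem exists_isom_of_dvd (hS : B.IsSymm) (h2 : (2 : F) ≠ 0) (hN : ND B ⊤)
    (P : Submodule F V → Prop)
    (hiso : ∀ W W' : Submodule F V, P W → P W' → Iso B W W')
    (hmap : ∀ (W : Submodule F V) (g : V ≃ₗ[F] V), Isom B (g : V →ₗ[F] V) → P W →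
      P (W.map (g : V →ₗ[F] V)))
    (W₁ : Submodule F V) (hW₁ : P W₁) (r : ℕ) [Fact r.Prime]
    (hΩ : r ∣ Nat.card {W : Submodule F V // P W}) :
    ∃ g : Module.End F V, Isom B g ∧ g ^ r = 1 ∧ g ≠ 1 := by
  refine Cfsg.Agent.Lib.Helper34.Hy.exists_isom_of_dvd_card hN P hmap W₁ hW₁ ?_ r hΩ
  intro W W' hW hW'
  obtain ⟨e, he⟩ := hiso W W' hW hW'
  obtain ⟨g, hg, hge⟩ := Cfsg.Agent.Lib.Helper98.O72.witt_ext hS h2 hN W W' e he
  refine ⟨g, hg, ?_⟩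
  apply le_antisymm
  · rintro _ ⟨w, hw, rfl⟩
    have h1 := hge ⟨w, hw⟩
    show g w ∈ W'
    have h3 : g w = (e ⟨w, hw⟩ : V) := h1
    rw [h3]
    exact (e ⟨w, hw⟩).2
  · intro w' hw'
    refine ⟨(e.symm ⟨w', hw'⟩ : V), (e.symm ⟨w', hw'⟩).2, ?_⟩
    have h1 := hge (e.symm ⟨w', hw'⟩)
    rw [LinearEquiv.apply_symm_apply] at h1
    exact h1

end Cfsg.Agent.Lib.Helper91.Pi
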