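import Cfsg.Agent.Lib.Helper96.PiDefs
import Cfsg.Agent.Lib.Helper96.PiGlueB
import Cfsg.Agent.Lib.Helper96.PiOmega
import Cfsg.Agent.Lib.Helper9.HeUNIPPOW
import Cfsg.Agent.Lib.Helper51.HypPairs
import Cfsg.Prelude.Def_GeometricClasses
import Cfsg.Prelude.Def_Classical

/-!
Project PI (S5989, helper96): PIECE GLUEF: the polar form of `quadFormPlus`: symmetric,
diagonal, and the Prelude notions "nondegenerate on" / "isometric for" are `ND` / `Iso`.
-/

set_option autoImplicit false
set_option linter.unusedSectionVars false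
set_option linter.unusedVariables false

namespace Cfsg.Agent.Lib.Helper91.Pi

open Module Cfsg.Agent.Lib.Helper96.Sp Cfsg.Agent.Lib.Helper96.BG Cfsg.Agent.Lib.Helper96.Hy
  Cfsg.Agent.Lib.Helper96.Pi Cfsg.Agent.Lib.Helper47

universe u

section Concrete

open Matrix
open scoped MatrixGroups

variable {F : Type u} [Field F] [Fintype F]

theorem gluef_polar (d : ℕ) (u v : Fin d ⊕ Fin d → F) :
    QuadraticMap.polarBilin (Cfsg.Agent.Lib.Helper51.QPlus d F) u v
      = QuadraticMap.polar (Cfsg.quadFormPlus d F) u v := by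
  rw [QuadraticMap.polarBilin_apply_apply, Cfsg.Agent.Lib.Helper51.coe_QPlus]

theorem gluef_self (d : ℕ) (v : Fin d ⊕ Fin d → F) :
    QuadraticMap.polar (Cfsg.quadFormPlus d F) v v = 2 * Cfsg.quadFormPlus d F v := by
  rw [← Cfsg.Agent.Lib.Helper51.coe_QPlus, QuadraticMap.polar_self, two_nsmul, two_mul]

-- PIECE GLUEF
theorem glue_form_plus (h2 : (2 : F) ≠ 0) (d : ℕ) :
    LinearMap.BilinForm.IsSymm (QuadraticMap.polarBilin (Cfsg.Agent.Lib.Helper51.QPlus d F)) ∧
    (∀ v, QuadraticMap.polarBilin (Cfsg.Agent.Lib.Helper51.QPlus d F) v v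
      = 2 * Cfsg.quadFormPlus d F v) ∧
    (∀ W : Submodule F (Fin d ⊕ Fin d → F),
      Cfsg.Geo.IsNondegenerateOn (QuadraticMap.polar (Cfsg.quadFormPlus d F)) W ↔
        ND (QuadraticMap.polarBilin (Cfsg.Agent.Lib.Helper51.QPlus d F)) W) ∧
    (∀ W W' : Submodule F (Fin d ⊕ Fin d → F),
      Cfsg.Geo.AreIsometricFor (Cfsg.quadFormPlus d F) W W' ↔
        Iso (QuadraticMap.polarBilin (Cfsg.Agent.Lib.Helper51.QPlus d F)) W W') := by
  refine ⟨⟨fun x y => ?_⟩, ?_, ?_, ?_⟩
  · show QuadraticMap.polarBilin (Cfsg.Agent.Lib.Helper51.QPlus d F) x y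
      = QuadraticMap.polarBilin (Cfsg.Agent.Lib.Helper51.QPlus d F) y x
    rw [gluef_polar, gluef_polar, QuadraticMap.polar_comm]
  · intro v
    rw [gluef_polar, gluef_self]
  · intro W
    constructor
    · intro hnd u hu h
      by_contra hne
      obtain ⟨x, hx, hxne⟩ := (hnd u hu hne).2
      apply hxne
      rw [← gluef_polar]
      exact h x hx
    · intro hnd w hw hne
      have key : ∃ x ∈ W, QuadraticMap.polar (Cfsg.quadFormPlus d F) w x ≠ 0 := by
        by_contra hcon
        push Not at hcon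
        apply hne
        apply hnd w hw
        intro v hv
        rw [gluef_polar]
        exact hcon v hv
      obtain ⟨x, hx, hxne⟩ := key
      exact ⟨⟨x, hx, by rw [QuadraticMap.polar_comm]; exact hxne⟩, ⟨x, hx, hxne⟩⟩
  · intro W W'
    constructor
    · rintro ⟨e, he⟩
      refine ⟨e, fun w => ?_⟩
      rw [gluef_polar, gluef_self, gluef_polar, gluef_self, he w]
    · rintro ⟨e, he⟩
      refine ⟨e, fun w => ?_⟩
      have h1 := he w
      rw [gluef_polar, gluef_self, gluef_polar, gluef_self] at h1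
      exact mul_left_cancel₀ h2 h1

end Concrete

end Cfsg.Agent.Lib.Helper91.Pi
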