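import Mathlib
import Cfsg.Prelude.Def_Classical

/-!
Project PM (S5991, helper96): PIECE MCONC: for `e` even `≥ 2` a unipotent isometry of
`quadFormMinus e F a b` of Jordan type `(3, 3, 2^(e-2))`.
-/

set_option autoImplicit false
set_option linter.unusedSectionVars false
set_option linter.unusedVariables false

namespace Cfsg.Agent.Lib.Helper91.Pm

open Module

universe u

section Concrete

open Matrix
open scoped MatrixGroups

variable {F : Type u} [Field F] [Fintype F]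

/-- the pairing involution `2 ↔ 3, 4 ↔ 5, …` of `Fin e` (identity on `0, 1`) -/
def mconc_sig (e : ℕ) (h0 : e % 2 = 0) (i : Fin e) : Fin e :=
  if h : i.val < 2 then i
  else if h' : i.val % 2 = 0 then ⟨i.val + 1, by have := i.isLt; omega⟩
  else ⟨i.val - 1, by have := i.isLt; omega⟩

theorem mconc_sig_of_lt {e : ℕ} (h0 : e % 2 = 0) (i : Fin e) (h : i.val < 2) :
    mconc_sig e h0 i = i := by
  unfold mconc_sig
  rw [dif_pos h]

theorem mconc_sig_of_even {e : ℕ} (h0 : e % 2 = 0) (i : Fin e) (h : 2 ≤ i.val)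
    (h' : i.val % 2 = 0) : (mconc_sig e h0 i).val = i.val + 1 := by
  unfold mconc_sig
  rw [dif_neg (by omega), dif_pos h']

theorem mconc_sig_of_odd {e : ℕ} (h0 : e % 2 = 0) (i : Fin e) (h : 2 ≤ i.val)
    (h' : ¬ i.val % 2 = 0) : (mconc_sig e h0 i).val = i.val - 1 := by
  unfold mconc_sig
  rw [dif_neg (by omega), dif_neg h']

theorem mconc_sig_ge {e : ℕ} (h0 : e % 2 = 0) (i : Fin e) (h : 2 ≤ i.val) :
    2 ≤ (mconc_sig e h0 i).val := by
  by_cases h' : i.val % 2 = 0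
  · rw [mconc_sig_of_even h0 i h h']; omega
  · rw [mconc_sig_of_odd h0 i h h']; omega

theorem mconc_sig_sig {e : ℕ} (h0 : e % 2 = 0) (i : Fin e) :
    mconc_sig e h0 (mconc_sig e h0 i) = i := by
  by_cases h : i.val < 2
  · rw [mconc_sig_of_lt h0 i h, mconc_sig_of_lt h0 i h]
  · have h2 : 2 ≤ i.val := by omega
    apply Fin.ext
    by_cases h' : i.val % 2 = 0
    · have h3 := mconc_sig_of_even h0 i h2 h'
      rw [mconc_sig_of_odd h0 _ (by omega) (by omega), h3]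
      omega
    · have h3 := mconc_sig_of_odd h0 i h2 h'
      rw [mconc_sig_of_even h0 _ (by omega) (by omega), h3]
      omega

/-- the signs `+1` (even index), `-1` (odd index) -/
def mconc_eps {e : ℕ} (F : Type u) [Field F] (i : Fin e) : F :=
  if i.val % 2 = 0 then 1 else -1

theorem mconc_eps_sq {e : ℕ} (i : Fin e) : mconc_eps F i * mconc_eps F i = 1 := by
  unfold mconc_eps
  split_ifs <;> ring

theorem mconc_eps_sig {e : ℕ} (h0 : e % 2 = 0) (i : Fin e) (h : 2 ≤ i.val) :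
    mconc_eps F (mconc_sig e h0 i) = -mconc_eps F i := by
  unfold mconc_eps
  by_cases h' : i.val % 2 = 0
  · have h3 := mconc_sig_of_even h0 i h h'
    rw [if_pos h', if_neg (by omega)]
  · have h3 := mconc_sig_of_odd h0 i h h'
    rw [if_neg h', if_pos (by omega), neg_neg]

/-- the nilpotent part `N` of the unipotent element -/
def mconc_N (e : ℕ) (h0 : e % 2 = 0) (he2 : 2 ≤ e) (a b : F) :
    (((Fin e ⊕ Fin e) ⊕ Fin 2) → F) →ₗ[F] (((Fin e ⊕ Fin e) ⊕ Fin 2) → F) where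
  toFun v := fun j => Sum.elim (Sum.elim
      (fun i : Fin e => if i.val = 0 then
          -(2 * v (Sum.inr 0) + a * v (Sum.inr 1)) - v (Sum.inl (Sum.inr i))
        else if i.val = 1 then
          -((4 * b - a ^ 2) * v (Sum.inr 1)) - (4 * b - a ^ 2) * v (Sum.inl (Sum.inr i))
        else mconc_eps F i * v (Sum.inl (Sum.inr (mconc_sig e h0 i))))
      (fun _ : Fin e => (0 : F)))
      (fun k : Fin 2 => if k = 0 then
          v (Sum.inl (Sum.inr ⟨0, by omega⟩)) - a * v (Sum.inl (Sum.inr ⟨1, by omega⟩))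
        else 2 * v (Sum.inl (Sum.inr ⟨1, by omega⟩))) j
  map_add' := by
    intro u v
    funext j
    rcases j with ((i | i) | k)
    · simp only [Sum.elim_inl, Pi.add_apply]
      split_ifs <;> ring
    · simp
    · simp only [Sum.elim_inr, Pi.add_apply]
      split_ifs <;> ring
  map_smul' := by
    intro c v
    funext j
    rcases j with ((i | i) | k)
    · simp only [Sum.elim_inl, Pi.smul_apply, smul_eq_mul, RingHom.id_apply]
      split_ifs <;> ring
    · simp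
    · simp only [Sum.elim_inr, Pi.smul_apply, smul_eq_mul, RingHom.id_apply]
      split_ifs <;> ring

theorem mconc_N_x (e : ℕ) (h0 : e % 2 = 0) (he2 : 2 ≤ e) (a b : F)
    (v : ((Fin e ⊕ Fin e) ⊕ Fin 2) → F) (i : Fin e) :
    mconc_N e h0 he2 a b v (Sum.inl (Sum.inl i)) =
      if i.val = 0 then -(2 * v (Sum.inr 0) + a * v (Sum.inr 1)) - v (Sum.inl (Sum.inr i))
      else if i.val = 1 then
        -((4 * b - a ^ 2) * v (Sum.inr 1)) - (4 * b - a ^ 2) * v (Sum.inl (Sum.inr i))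
      else mconc_eps F i * v (Sum.inl (Sum.inr (mconc_sig e h0 i))) := rfl

theorem mconc_N_y (e : ℕ) (h0 : e % 2 = 0) (he2 : 2 ≤ e) (a b : F)
    (v : ((Fin e ⊕ Fin e) ⊕ Fin 2) → F) (i : Fin e) :
    mconc_N e h0 he2 a b v (Sum.inl (Sum.inr i)) = 0 := rfl

theorem mconc_N_z0 (e : ℕ) (h0 : e % 2 = 0) (he2 : 2 ≤ e) (a b : F)
    (v : ((Fin e ⊕ Fin e) ⊕ Fin 2) → F) :
    mconc_N e h0 he2 a b v (Sum.inr 0) =
      v (Sum.inl (Sum.inr ⟨0, by omega⟩)) - a * v (Sum.inl (Sum.inr ⟨1, by omega⟩)) := rfl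

theorem mconc_N_z1 (e : ℕ) (h0 : e % 2 = 0) (he2 : 2 ≤ e) (a b : F)
    (v : ((Fin e ⊕ Fin e) ⊕ Fin 2) → F) :
    mconc_N e h0 he2 a b v (Sum.inr 1) = 2 * v (Sum.inl (Sum.inr ⟨1, by omega⟩)) := rfl

/-- `N` kills the vectors with vanishing `y`- and `z`-coordinates -/
theorem mconc_N_zero (e : ℕ) (h0 : e % 2 = 0) (he2 : 2 ≤ e) (a b : F)
    (v : ((Fin e ⊕ Fin e) ⊕ Fin 2) → F) (hy : ∀ i, v (Sum.inl (Sum.inr i)) = 0)
    (hz : ∀ k, v (Sum.inr k) = 0) : mconc_N e h0 he2 a b v = 0 := by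
  funext j
  rcases j with ((i | i) | k)
  · rw [mconc_N_x]
    simp [hy, hz]
  · rfl
  · have hk : k = 0 ∨ k = 1 := by
      rcases k with ⟨k, hk⟩
      rcases k with _ | _ | k
      · left; rfl
      · right; rfl
      · omega
    rcases hk with rfl | rfl
    · rw [mconc_N_z0]; simp [hy]
    · rw [mconc_N_z1]; simp [hy]

theorem mconc_fin2 (k : Fin 2) : k = 0 ∨ k = 1 := by
  rcases k with ⟨k, hk⟩
  rcases k with _ | _ | k
  · left; rfl
  · right; rfl
  · omega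

/-- the coordinates of `N (N v)` -/
theorem mconc_NN (e : ℕ) (h0 : e % 2 = 0) (he2 : 2 ≤ e) (a b : F)
    (v : ((Fin e ⊕ Fin e) ⊕ Fin 2) → F) :
    mconc_N e h0 he2 a b (mconc_N e h0 he2 a b v) =
      (-2 * v (Sum.inl (Sum.inr ⟨0, by omega⟩))) •
          (Pi.single (Sum.inl (Sum.inl ⟨0, by omega⟩)) 1 : ((Fin e ⊕ Fin e) ⊕ Fin 2) → F) +
        (-2 * (4 * b - a ^ 2) * v (Sum.inl (Sum.inr ⟨1, by omega⟩))) •
          (Pi.single (Sum.inl (Sum.inl ⟨1, by omega⟩)) 1 : ((Fin e ⊕ Fin e) ⊕ Fin 2) → F) := by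
  funext j
  rcases j with ((i | i) | k)
  · rw [mconc_N_x]
    simp only [mconc_N_y, mconc_N_z0, mconc_N_z1, Pi.add_apply, Pi.smul_apply, smul_eq_mul,
      Pi.single_apply, Sum.inl.injEq, mul_zero, sub_zero]
    by_cases hi0 : i.val = 0
    · have e0 : i = ⟨0, by omega⟩ := Fin.ext hi0
      have e1 : ¬ i = ⟨1, by omega⟩ := fun h => by rw [h] at hi0; simp at hi0
      rw [if_pos hi0, if_pos e0, if_neg e1]
      ring
    · by_cases hi1 : i.val = 1
      · have e1 : i = ⟨1, by omega⟩ := Fin.ext hi1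
        have e0 : ¬ i = ⟨0, by omega⟩ := fun h => by rw [h] at hi0; simp at hi0
        rw [if_neg hi0, if_pos hi1, if_neg e0, if_pos e1]
        ring
      · have e0 : ¬ i = ⟨0, by omega⟩ := fun h => by rw [h] at hi0; simp at hi0
        have e1 : ¬ i = ⟨1, by omega⟩ := fun h => by rw [h] at hi1; simp at hi1
        rw [if_neg hi0, if_neg hi1, if_neg e0, if_neg e1]
        ring
  · simp [mconc_N_y]
  · rcases mconc_fin2 k with rfl | rfl
    · rw [mconc_N_z0]; simp [mconc_N_y]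
    · rw [mconc_N_z1]; simp [mconc_N_y]

theorem mconc_NNN (e : ℕ) (h0 : e % 2 = 0) (he2 : 2 ≤ e) (a b : F)
    (v : ((Fin e ⊕ Fin e) ⊕ Fin 2) → F) :
    mconc_N e h0 he2 a b (mconc_N e h0 he2 a b (mconc_N e h0 he2 a b v)) = 0 := by
  apply mconc_N_zero
  · intro i
    rw [mconc_N_y]
  · intro k
    rcases mconc_fin2 k with rfl | rfl
    · rw [mconc_N_z0, mconc_N_y, mconc_N_y]; simp
    · rw [mconc_N_z1, mconc_N_y]; simp

/-- the skew part contributes nothing to the quadratic form -/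
theorem mconc_skew (h2 : (2 : F) ≠ 0) (e : ℕ) (h0 : e % 2 = 0) (y : Fin e → F) :
    ∑ i : Fin e, (if 2 ≤ i.val then mconc_eps F i * y (mconc_sig e h0 i) * y i else 0) = 0 := by
  have hinv : Function.Involutive (mconc_sig e h0) := mconc_sig_sig h0
  have h1 : ∑ i : Fin e, (if 2 ≤ i.val then mconc_eps F i * y (mconc_sig e h0 i) * y i else 0)
      = ∑ i : Fin e, (if 2 ≤ (mconc_sig e h0 i).val then
          mconc_eps F (mconc_sig e h0 i) * y (mconc_sig e h0 (mconc_sig e h0 i)) *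
            y (mconc_sig e h0 i) else 0) :=
    (Equiv.sum_comp hinv.toPerm
      (fun i : Fin e => if 2 ≤ i.val then mconc_eps F i * y (mconc_sig e h0 i) * y i else 0)).symm
  have h3 : ∑ i : Fin e, (if 2 ≤ (mconc_sig e h0 i).val then
          mconc_eps F (mconc_sig e h0 i) * y (mconc_sig e h0 (mconc_sig e h0 i)) *
            y (mconc_sig e h0 i) else 0)
      = -∑ i : Fin e, (if 2 ≤ i.val then mconc_eps F i * y (mconc_sig e h0 i) * y i else 0) := by
    rw [← Finset.sum_neg_distrib]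
    apply Finset.sum_congr rfl
    intro i _
    by_cases hi : 2 ≤ i.val
    · rw [if_pos (mconc_sig_ge h0 i hi), if_pos hi, mconc_sig_sig, mconc_eps_sig h0 i hi]
      ring
    · have hlt : i.val < 2 := by omega
      rw [mconc_sig_of_lt h0 i hlt, if_neg hi, if_neg hi, neg_zero]
  have h4 : (2 : F) * ∑ i : Fin e,
      (if 2 ≤ i.val then mconc_eps F i * y (mconc_sig e h0 i) * y i else 0) = 0 := by
    have h5 := h1.trans h3
    linear_combination h5
  exact (mul_eq_zero.1 h4).resolve_left h2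

/-- `1 + N` preserves the quadratic form -/
theorem mconc_isom (h2 : (2 : F) ≠ 0) (e : ℕ) (h0 : e % 2 = 0) (he2 : 2 ≤ e) (a b : F)
    (v : ((Fin e ⊕ Fin e) ⊕ Fin 2) → F) :
    Cfsg.quadFormMinus e F a b (v + mconc_N e h0 he2 a b v) = Cfsg.quadFormMinus e F a b v := by
  unfold Cfsg.quadFormMinus
  simp only [Pi.add_apply, mconc_N_y, mconc_N_z0, mconc_N_z1, add_zero]
  have hsplit : ∀ i : Fin e,
      (v (Sum.inl (Sum.inl i)) + mconc_N e h0 he2 a b v (Sum.inl (Sum.inl i))) *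
        v (Sum.inl (Sum.inr i)) =
      v (Sum.inl (Sum.inl i)) * v (Sum.inl (Sum.inr i)) +
        ((if i = (⟨0, by omega⟩ : Fin e) then
            (-(2 * v (Sum.inr 0) + a * v (Sum.inr 1)) - v (Sum.inl (Sum.inr ⟨0, by omega⟩))) *
              v (Sum.inl (Sum.inr ⟨0, by omega⟩)) else 0) +
          ((if i = (⟨1, by omega⟩ : Fin e) then
            (-((4 * b - a ^ 2) * v (Sum.inr 1)) -
              (4 * b - a ^ 2) * v (Sum.inl (Sum.inr ⟨1, by omega⟩))) *
              v (Sum.inl (Sum.inr ⟨1, by omega⟩)) else 0) +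
          (if 2 ≤ i.val then mconc_eps F i * v (Sum.inl (Sum.inr (mconc_sig e h0 i))) *
              v (Sum.inl (Sum.inr i)) else 0))) := by
    intro i
    rw [mconc_N_x]
    by_cases hi0 : i.val = 0
    · have e0 : i = ⟨0, by omega⟩ := Fin.ext hi0
      have e1 : ¬ i = ⟨1, by omega⟩ := fun h => by rw [h] at hi0; simp at hi0
      rw [if_pos hi0, if_pos e0, if_neg e1, if_neg (by omega), ← e0]
      ring
    · by_cases hi1 : i.val = 1
      · have e1 : i = ⟨1, by omega⟩ := Fin.ext hi1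
        have e0 : ¬ i = ⟨0, by omega⟩ := fun h => by rw [h] at hi0; simp at hi0
        rw [if_neg hi0, if_pos hi1, if_neg e0, if_pos e1, if_neg (by omega), ← e1]
        ring
      · have e0 : ¬ i = ⟨0, by omega⟩ := fun h => by rw [h] at hi0; simp at hi0
        have e1 : ¬ i = ⟨1, by omega⟩ := fun h => by rw [h] at hi1; simp at hi1
        rw [if_neg hi0, if_neg hi1, if_neg e0, if_neg e1, if_pos (by omega)]
        ring
  rw [Finset.sum_congr rfl (fun i _ => hsplit i)]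
  rw [Finset.sum_add_distrib, Finset.sum_add_distrib, Finset.sum_add_distrib,
    Finset.sum_ite_eq' Finset.univ, Finset.sum_ite_eq' Finset.univ,
    mconc_skew h2 e h0 (fun i => v (Sum.inl (Sum.inr i)))]
  simp only [Finset.mem_univ, if_true]
  ring

/-- a preimage under `N` of a vector with vanishing `y`- and `z`-coordinates -/
def mconc_pre (e : ℕ) (h0 : e % 2 = 0) (he2 : 2 ≤ e) (a b : F)
    (v : ((Fin e ⊕ Fin e) ⊕ Fin 2) → F) : ((Fin e ⊕ Fin e) ⊕ Fin 2) → F :=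
  fun j => Sum.elim (Sum.elim (fun _ : Fin e => (0 : F))
      (fun i : Fin e => if 2 ≤ i.val then
          mconc_eps F (mconc_sig e h0 i) * v (Sum.inl (Sum.inl (mconc_sig e h0 i))) else 0))
      (fun k : Fin 2 => if k = 0 then
          (-(v (Sum.inl (Sum.inl ⟨0, by omega⟩))) -
            a * (-(v (Sum.inl (Sum.inl ⟨1, by omega⟩))) / (4 * b - a ^ 2))) / 2
        else -(v (Sum.inl (Sum.inl ⟨1, by omega⟩))) / (4 * b - a ^ 2)) j

theorem mconc_pre_y (e : ℕ) (h0 : e % 2 = 0) (he2 : 2 ≤ e) (a b : F)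
    (v : ((Fin e ⊕ Fin e) ⊕ Fin 2) → F) (i : Fin e) :
    mconc_pre e h0 he2 a b v (Sum.inl (Sum.inr i)) =
      if 2 ≤ i.val then
        mconc_eps F (mconc_sig e h0 i) * v (Sum.inl (Sum.inl (mconc_sig e h0 i))) else 0 := rfl

theorem mconc_pre_z0 (e : ℕ) (h0 : e % 2 = 0) (he2 : 2 ≤ e) (a b : F)
    (v : ((Fin e ⊕ Fin e) ⊕ Fin 2) → F) :
    mconc_pre e h0 he2 a b v (Sum.inr 0) =
      (-(v (Sum.inl (Sum.inl ⟨0, by omega⟩))) -
        a * (-(v (Sum.inl (Sum.inl ⟨1, by omega⟩))) / (4 * b - a ^ 2))) / 2 := rfl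

theorem mconc_pre_z1 (e : ℕ) (h0 : e % 2 = 0) (he2 : 2 ≤ e) (a b : F)
    (v : ((Fin e ⊕ Fin e) ⊕ Fin 2) → F) :
    mconc_pre e h0 he2 a b v (Sum.inr 1) =
      -(v (Sum.inl (Sum.inl ⟨1, by omega⟩))) / (4 * b - a ^ 2) := rfl

/-- the kernel of `N` lies in its range -/
theorem mconc_ker (h2 : (2 : F) ≠ 0) (e : ℕ) (h0 : e % 2 = 0) (he2 : 2 ≤ e) (a b : F)
    (hD : (4 * b - a ^ 2 : F) ≠ 0) (v : ((Fin e ⊕ Fin e) ⊕ Fin 2) → F)
    (hv : mconc_N e h0 he2 a b v = 0) :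
    mconc_N e h0 he2 a b (mconc_pre e h0 he2 a b v) = v := by
  have hv' : ∀ j, mconc_N e h0 he2 a b v j = 0 := fun j => by rw [hv]; rfl
  have hy1 : v (Sum.inl (Sum.inr ⟨1, by omega⟩)) = 0 := by
    have h1 := hv' (Sum.inr 1)
    rw [mconc_N_z1] at h1
    exact (mul_eq_zero.1 h1).resolve_left h2
  have hy0 : v (Sum.inl (Sum.inr ⟨0, by omega⟩)) = 0 := by
    have h1 := hv' (Sum.inr 0)
    rw [mconc_N_z0, hy1] at h1
    simpa using h1
  have hz1 : v (Sum.inr 1) = 0 := by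
    have h1 := hv' (Sum.inl (Sum.inl ⟨1, by omega⟩))
    rw [mconc_N_x, if_neg (by simp), if_pos rfl, hy1] at h1
    have h3 : (4 * b - a ^ 2) * v (Sum.inr 1) = 0 := by linear_combination -h1
    exact (mul_eq_zero.1 h3).resolve_left hD
  have hz0 : v (Sum.inr 0) = 0 := by
    have h1 := hv' (Sum.inl (Sum.inl ⟨0, by omega⟩))
    rw [mconc_N_x, if_pos rfl, hy0, hz1] at h1
    have h3 : (2 : F) * v (Sum.inr 0) = 0 := by linear_combination -h1
    exact (mul_eq_zero.1 h3).resolve_left h2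
  have hy : ∀ j : Fin e, v (Sum.inl (Sum.inr j)) = 0 := by
    intro j
    by_cases hj0 : j.val = 0
    · have e0 : j = ⟨0, by omega⟩ := Fin.ext hj0
      rw [e0]; exact hy0
    · by_cases hj1 : j.val = 1
      · have e1 : j = ⟨1, by omega⟩ := Fin.ext hj1
        rw [e1]; exact hy1
      · have hj2 : 2 ≤ j.val := by omega
        have hs := mconc_sig_ge h0 j hj2
        have h1 := hv' (Sum.inl (Sum.inl (mconc_sig e h0 j)))
        rw [mconc_N_x, if_neg (by omega), if_neg (by omega), mconc_sig_sig] at h1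
        rcases mul_eq_zero.1 h1 with h | h
        · exfalso
          have h3 := mconc_eps_sq (F := F) (mconc_sig e h0 j)
          rw [h] at h3
          simp at h3
        · exact h
  funext j
  rcases j with ((i | i) | k)
  · rw [mconc_N_x, mconc_pre_y, mconc_pre_z0, mconc_pre_z1]
    by_cases hi0 : i.val = 0
    · have e0 : i = ⟨0, by omega⟩ := Fin.ext hi0
      rw [if_pos hi0, if_neg (by omega), ← e0]
      field_simp
      ring
    · by_cases hi1 : i.val = 1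
      · have e1 : i = ⟨1, by omega⟩ := Fin.ext hi1
        rw [if_neg hi0, if_pos hi1, if_neg (by omega), ← e1]
        field_simp
        ring
      · have hi2 : 2 ≤ i.val := by omega
        rw [if_neg hi0, if_neg hi1, mconc_pre_y, if_pos (mconc_sig_ge h0 i hi2), mconc_sig_sig,
          ← mul_assoc, mconc_eps_sq, one_mul]
  · rw [mconc_N_y, hy i]
  · rcases mconc_fin2 k with rfl | rfl
    · rw [mconc_N_z0, mconc_pre_y, mconc_pre_y, hz0]
      simp
    · rw [mconc_N_z1, mconc_pre_y, hz1]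
      simp

theorem mconc_ring_id {R : Type*} [Ring R] (n : R) :
    (1 + n) * (1 - n + n * n) = 1 + n * n * n := by
  simp only [mul_add, add_mul, mul_sub, sub_mul, one_mul, mul_one, mul_assoc]
  abel

theorem mconc_ring_id' {R : Type*} [Ring R] (n : R) :
    (1 - n + n * n) * (1 + n) = 1 + n * n * n := by
  simp only [mul_add, add_mul, mul_sub, sub_mul, one_mul, mul_one, mul_assoc]
  abel

-- PIECE MCONC
theorem exists_unip_minus_C (h2 : (2 : F) ≠ 0) (e : ℕ) (he : Even e) (he2 : 2 ≤ e) (a b : F)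
    (hab : ∀ z₁ z₂ : F, z₁ ^ 2 + a * z₁ * z₂ + b * z₂ ^ 2 = 0 → z₁ = 0 ∧ z₂ = 0) :
    ∃ x : GL ((Fin e ⊕ Fin e) ⊕ Fin 2) F,
      (∀ v, Cfsg.quadFormMinus e F a b
          ((x : Matrix ((Fin e ⊕ Fin e) ⊕ Fin 2) ((Fin e ⊕ Fin e) ⊕ Fin 2) F) *ᵥ v)
        = Cfsg.quadFormMinus e F a b v) ∧
      (∀ z : F, (x : Matrix ((Fin e ⊕ Fin e) ⊕ Fin 2) ((Fin e ⊕ Fin e) ⊕ Fin 2) F)
        ≠ z • (1 : Matrix ((Fin e ⊕ Fin e) ⊕ Fin 2) ((Fin e ⊕ Fin e) ⊕ Fin 2) F)) ∧
      (Matrix.toLin' (x : Matrix ((Fin e ⊕ Fin e) ⊕ Fin 2) ((Fin e ⊕ Fin e) ⊕ Fin 2) F) - 1) ^ 3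
        = 0 ∧
      LinearMap.ker
          (Matrix.toLin' (x : Matrix ((Fin e ⊕ Fin e) ⊕ Fin 2) ((Fin e ⊕ Fin e) ⊕ Fin 2) F) - 1)
        ≤ LinearMap.range
          (Matrix.toLin' (x : Matrix ((Fin e ⊕ Fin e) ⊕ Fin 2) ((Fin e ⊕ Fin e) ⊕ Fin 2) F) - 1) ∧
      finrank F (LinearMap.range
        ((Matrix.toLin' (x : Matrix ((Fin e ⊕ Fin e) ⊕ Fin 2) ((Fin e ⊕ Fin e) ⊕ Fin 2) F) - 1)
          * (Matrix.toLin' (x : Matrix ((Fin e ⊕ Fin e) ⊕ Fin 2) ((Fin e ⊕ Fin e) ⊕ Fin 2) F)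
            - 1))) ≤ 2 := by
  classical
  have h0 : e % 2 = 0 := Nat.even_iff.1 he
  have hD : (4 * b - a ^ 2 : F) ≠ 0 := by
    intro hD0
    have h1 := (hab (-a) 2 (by linear_combination hD0)).2
    exact h2 h1
  have hN3 : mconc_N e h0 he2 a b * mconc_N e h0 he2 a b * mconc_N e h0 he2 a b = 0 :=
    LinearMap.ext fun v => mconc_NNN e h0 he2 a b v
  have hinv1 : (1 + mconc_N e h0 he2 a b) *
      (1 - mconc_N e h0 he2 a b + mconc_N e h0 he2 a b * mconc_N e h0 he2 a b) = 1 := by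
    rw [mconc_ring_id, hN3, add_zero]
  have hinv2 : (1 - mconc_N e h0 he2 a b + mconc_N e h0 he2 a b * mconc_N e h0 he2 a b) *
      (1 + mconc_N e h0 he2 a b) = 1 := by
    rw [mconc_ring_id', hN3, add_zero]
  have hxM : ∃ x : GL ((Fin e ⊕ Fin e) ⊕ Fin 2) F,
      (x : Matrix ((Fin e ⊕ Fin e) ⊕ Fin 2) ((Fin e ⊕ Fin e) ⊕ Fin 2) F) =
        LinearMap.toMatrix' (1 + mconc_N e h0 he2 a b) :=
    ⟨⟨LinearMap.toMatrix' (1 + mconc_N e h0 he2 a b),
      LinearMap.toMatrix' (1 - mconc_N e h0 he2 a b +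
        mconc_N e h0 he2 a b * mconc_N e h0 he2 a b),
      by rw [← LinearMap.toMatrix'_mul, hinv1, LinearMap.toMatrix'_one],
      by rw [← LinearMap.toMatrix'_mul, hinv2, LinearMap.toMatrix'_one]⟩, rfl⟩
  obtain ⟨x, hx⟩ := hxM
  have hlin : Matrix.toLin' (x : Matrix ((Fin e ⊕ Fin e) ⊕ Fin 2) ((Fin e ⊕ Fin e) ⊕ Fin 2) F)
      - 1 = mconc_N e h0 he2 a b := by
    rw [hx, Matrix.toLin'_toMatrix', add_sub_cancel_left]
  have hmv : ∀ v : ((Fin e ⊕ Fin e) ⊕ Fin 2) → F,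
      (x : Matrix ((Fin e ⊕ Fin e) ⊕ Fin 2) ((Fin e ⊕ Fin e) ⊕ Fin 2) F) *ᵥ v =
        v + mconc_N e h0 he2 a b v := by
    intro v
    rw [hx, ← Matrix.toLin'_apply, Matrix.toLin'_toMatrix']
    rfl
  refine ⟨x, ?_, ?_, ?_, ?_, ?_⟩
  · intro v
    rw [hmv]
    exact mconc_isom h2 e h0 he2 a b v
  · intro z hz
    have h1 : ((x : Matrix ((Fin e ⊕ Fin e) ⊕ Fin 2) ((Fin e ⊕ Fin e) ⊕ Fin 2) F) *ᵥ
        (Pi.single (Sum.inl (Sum.inr ⟨0, by omega⟩)) 1 : ((Fin e ⊕ Fin e) ⊕ Fin 2) → F))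
          (Sum.inr 0) =
        ((z • (1 : Matrix ((Fin e ⊕ Fin e) ⊕ Fin 2) ((Fin e ⊕ Fin e) ⊕ Fin 2) F)) *ᵥ
        (Pi.single (Sum.inl (Sum.inr ⟨0, by omega⟩)) 1 : ((Fin e ⊕ Fin e) ⊕ Fin 2) → F))
          (Sum.inr 0) := by
      rw [hz]
    rw [hmv, Matrix.smul_mulVec, Matrix.one_mulVec, Pi.add_apply, mconc_N_z0, Pi.smul_apply] at h1
    simp at h1
  · rw [hlin, pow_succ, pow_succ, pow_one]
    exact hN3
  · rw [hlin]
    intro v hv
    rw [LinearMap.mem_ker] at hv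
    exact ⟨mconc_pre e h0 he2 a b v, mconc_ker h2 e h0 he2 a b hD v hv⟩
  · rw [hlin]
    have hle : LinearMap.range (mconc_N e h0 he2 a b * mconc_N e h0 he2 a b) ≤
        Submodule.span F
          ((({(Pi.single (Sum.inl (Sum.inl ⟨0, by omega⟩)) 1 : ((Fin e ⊕ Fin e) ⊕ Fin 2) → F),
            (Pi.single (Sum.inl (Sum.inl ⟨1, by omega⟩)) 1 : ((Fin e ⊕ Fin e) ⊕ Fin 2) → F)} :
            Finset (((Fin e ⊕ Fin e) ⊕ Fin 2) → F)) : Set (((Fin e ⊕ Fin e) ⊕ Fin 2) → F))) := by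
      rintro _ ⟨v, rfl⟩
      show mconc_N e h0 he2 a b (mconc_N e h0 he2 a b v) ∈ _
      rw [mconc_NN]
      apply Submodule.add_mem
      · apply Submodule.smul_mem
        apply Submodule.subset_span
        simp
      · apply Submodule.smul_mem
        apply Submodule.subset_span
        simp
    exact (Submodule.finrank_mono hle).trans
      ((finrank_span_finset_le_card _).trans Finset.card_le_two)

end Concrete

end Cfsg.Agent.Lib.Helper91.Pm
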