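import Mathlib
import Cfsg.Agent.S0249
import Cfsg.Agent.Lib.Helper91.PslU
import Cfsg.Agent.Lib.Helper91.SimpleGen
import Cfsg.Agent.Lib.Helper75.PslB1
import Cfsg.Agent.Lib.Helper55.PslB2
import Cfsg.Agent.Lib.Helper23.PslB3
import Cfsg.Agent.Lib.Helper29.PslB4
import Cfsg.Agent.Lib.Helper64.PslB5
import Cfsg.Agent.Lib.Helper64.PslB6
import Cfsg.Agent.Lib.Helper29.PslB7a
import Cfsg.Agent.Lib.Helper74.PslB7b
import Cfsg.Agent.Lib.Helper18.PslB7c
import Cfsg.Agent.Lib.Helper92.PslB8
import Cfsg.Agent.Lib.Helper21.PslT1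
import Cfsg.Agent.Lib.Helper21.PslT2

set_option autoImplicit false

namespace Cfsg.Agent.Lib.Helper91.PslSimple

open Matrix Matrix.SpecialLinearGroup Cfsg.Agent.Lib.Helper91.PslU Cfsg.Agent.Lib.Helper91.SimpleGen

/-! ## Assembly -/

theorem transv_mem_UU' (n : ℕ) (K : Type*) [Field K] (i j : Fin n) (hij : i ≠ j) (h : i < j)
    (a : K) : transvection hij a ∈ UU n K := by
  rw [mem_UU_iff]
  refine ⟨fun r s hsr => ?_, fun r => ?_⟩
  · rw [transvection_coe, Matrix.add_apply, Matrix.one_apply_ne (ne_of_gt hsr), zero_add,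
      Matrix.single_apply, if_neg]
    rintro ⟨rfl, rfl⟩
    exact absurd h (not_lt.mpr hsr.le)
  · rw [transvection_coe, Matrix.add_apply, Matrix.one_apply_eq, Matrix.single_apply, if_neg,
      add_zero]
    rintro ⟨rfl, rfl⟩
    exact hij rfl

theorem transv_pow (n : ℕ) (K : Type*) [Field K] (i j : Fin n) (hij : i ≠ j) (a : K) (m : ℕ) :
    transvection hij a ^ m = transvection hij ((m : K) * a) := by
  induction m with
  | zero => simp [transvection_coeff_zero]
  | succ m ih =>
    rw [pow_succ, ih, ← transvection_add]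
    congr 1
    push_cast
    ring

theorem transv_pow_p (n : ℕ) (K : Type*) [Field K] (p : ℕ) [CharP K p] (i j : Fin n)
    (hij : i ≠ j) (a : K) : transvection hij a ^ p ^ 1 = 1 := by
  rw [pow_one, transv_pow, CharP.cast_eq_zero, zero_mul, transvection_coeff_zero]

theorem mem_normalizer_of_conj' {G : Type*} [Group G] (H : Subgroup G) (g : G)
    (h1 : ∀ x ∈ H, g * x * g⁻¹ ∈ H) (h2 : ∀ x ∈ H, g⁻¹ * x * g⁻¹⁻¹ ∈ H) :
    g ∈ Subgroup.normalizer (H : Set G) := by
  rw [Subgroup.mem_normalizer_iff]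
  intro x
  refine ⟨h1 x, fun hx => ?_⟩
  have := h2 _ hx
  simpa [mul_assoc] using this

theorem diag2n_inv' (n : ℕ) (K : Type*) [Field K] (i j : Fin n) (hij : i ≠ j) (a : K)
    (ha : a ≠ 0) : (diag2n hij a ha)⁻¹ = diag2n hij a⁻¹ (inv_ne_zero ha) := by
  apply inv_eq_of_mul_eq_one_right
  apply Subtype.ext
  change (diag2n hij a ha).1 * (diag2n hij a⁻¹ (inv_ne_zero ha)).1 = 1
  rw [diag2n_coe, diag2n_coe, Matrix.diagonal_mul_diagonal, ← Matrix.diagonal_one]
  congr 1
  funext k
  by_cases hk : k = i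
  · simp [hk, ha]
  · by_cases hk' : k = j
    · simp [hk', hij.symm, ha]
    · simp [hk, hk']

theorem UU_H1 {n : ℕ} (hn : 3 ≤ n) (K : Type*) [Field K] [Fintype K] (p : ℕ) [Fact p.Prime]
    [CharP K p] (T : Subgroup (SpecialLinearGroup (Fin n) K)) (hT : T ≤ UU n K)
    (hc : ∀ x ∈ T, ∀ g : SpecialLinearGroup (Fin n) K, g * x * g⁻¹ ∈ UU n K → g * x * g⁻¹ ∈ T) :
    T = ⊥ ∨ T = UU n K := by
  by_cases hT1 : T = ⊥
  · exact Or.inl hT1
  right
  obtain ⟨i, j, hij, a, ha, hmem⟩ := Cfsg.Agent.Lib.Helper55.PslB2.UU_normal_transv K p T hT hT1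
    (fun u hu x hx => hc x hx u (mul_mem (mul_mem hu (hT hx)) (inv_mem hu)))
  apply le_antisymm hT
  refine (Cfsg.Agent.Lib.Helper29.PslB4.UU_le_closure n K).trans ?_
  rw [Subgroup.closure_le]
  rintro x ⟨i', j', hij', b, hlt, rfl⟩
  by_cases hb : b = 0
  · subst hb
    rw [transvection_coeff_zero]
    exact one_mem _
  obtain ⟨g, hg⟩ := Cfsg.Agent.Lib.Helper23.PslB3.transv_conj hn K i j i' j' hij hij' a b ha hb
  have := hc _ hmem g (by rw [hg]; exact transv_mem_UU' n K i' j' hij' hlt b)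
  rw [hg] at this
  exact this

theorem UU_H2 {n : ℕ} (hn : 3 ≤ n) (K : Type*) [Field K] (p : ℕ) [Fact p.Prime] [CharP K p] :
    Subgroup.normalizer ((UU n K : Subgroup (SpecialLinearGroup (Fin n) K)) :
        Set (SpecialLinearGroup (Fin n) K)) ≤
      Subgroup.closure (((UU n K : Subgroup (SpecialLinearGroup (Fin n) K)) :
          Set (SpecialLinearGroup (Fin n) K)) ∪
        (Subgroup.centralizer ((UU n K : Subgroup (SpecialLinearGroup (Fin n) K)) :
          Set (SpecialLinearGroup (Fin n) K)) : Set (SpecialLinearGroup (Fin n) K)) ∪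
        {h : SpecialLinearGroup (Fin n) K |
          h ∈ Subgroup.normalizer ((UU n K : Subgroup (SpecialLinearGroup (Fin n) K)) :
            Set (SpecialLinearGroup (Fin n) K)) ∧
          ∃ P : Subgroup (SpecialLinearGroup (Fin n) K), P ≤ UU n K ∧
            (∀ s ∈ UU n K, ∀ x ∈ P, s * x * s⁻¹ ∈ P) ∧
            (∀ c ∈ UU n K, (∀ x ∈ P, c * x = x * c) → c ∈ P) ∧
            h ∈ Subgroup.closure
              {x : SpecialLinearGroup (Fin n) K |
                x ∈ Subgroup.normalizer (P : Set (SpecialLinearGroup (Fin n) K)) ∧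
                  ∃ k : ℕ, x ^ p ^ k = 1}}) := by
  intro g hg
  have h1 := Cfsg.Agent.Lib.Helper64.PslB6.tri_mem_closure n K g (Cfsg.Agent.Lib.Helper64.PslB5.normalizer_UU_tri n K g hg)
  refine (Subgroup.closure_le _).mpr ?_ h1
  rintro x (hx | ⟨i, j, hij, a, ha, hadj, rfl⟩)
  · exact Subgroup.subset_closure (Or.inl (Or.inl hx))
  · apply Subgroup.subset_closure
    right
    refine ⟨?_, ?_⟩
    · apply mem_normalizer_of_conj'
      · exact fun u hu => Cfsg.Agent.Lib.Helper92.PslB8.diag2n_normalizes n K i j hij a ha u hu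
      · intro u hu
        rw [diag2n_inv']
        exact Cfsg.Agent.Lib.Helper92.PslB8.diag2n_normalizes n K i j hij a⁻¹ (inv_ne_zero ha) u hu
    · obtain ⟨P, hP⟩ := Cfsg.Agent.Lib.Helper29.PslB7a.exists_PP n K i j hadj
      obtain ⟨hP1, hP2⟩ := Cfsg.Agent.Lib.Helper74.PslB7b.PP_props hn K i j hadj P hP
      refine ⟨P, fun x hx => ((hP x).mp hx).1, hP1, hP2, ?_⟩
      have hlt : i < j := by
        rw [Fin.lt_def]
        omega
      have hup : ∀ b : K, transvection hij b ∈ Subgroup.closure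
          {x : SpecialLinearGroup (Fin n) K |
            x ∈ Subgroup.normalizer (P : Set (SpecialLinearGroup (Fin n) K)) ∧
              ∃ k : ℕ, x ^ p ^ k = 1} := by
        intro b
        apply Subgroup.subset_closure
        refine ⟨?_, 1, transv_pow_p n K p i j hij b⟩
        apply mem_normalizer_of_conj'
        · exact fun x hx => hP1 _ (transv_mem_UU' n K i j hij hlt b) x hx
        · intro x hx
          rw [transvection_inv]
          exact hP1 _ (transv_mem_UU' n K i j hij hlt (-b)) x hx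
      have hlo : ∀ b : K, transvection hij.symm b ∈ Subgroup.closure
          {x : SpecialLinearGroup (Fin n) K |
            x ∈ Subgroup.normalizer (P : Set (SpecialLinearGroup (Fin n) K)) ∧
              ∃ k : ℕ, x ^ p ^ k = 1} := by
        intro b
        apply Subgroup.subset_closure
        refine ⟨?_, 1, transv_pow_p n K p j i hij.symm b⟩
        apply mem_normalizer_of_conj'
        · exact fun x hx => Cfsg.Agent.Lib.Helper18.PslB7c.lower_normalizes n K i j hadj hij.symm P hP b x hx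
        · intro x hx
          rw [transvection_inv]
          exact Cfsg.Agent.Lib.Helper18.PslB7c.lower_normalizes n K i j hadj hij.symm P hP (-b) x hx
      rw [Cfsg.Agent.S0249.diag2n_eq hij a ha]
      exact mul_mem (mul_mem (mul_mem (mul_mem (mul_mem (hup _) (hlo _)) (hup _)) (hup _))
        (hlo _)) (hup _)

theorem goodSyl_UU {n : ℕ} (hn : 3 ≤ n) (K : Type*) [Field K] [Fintype K] (p : ℕ)
    [Fact p.Prime] [CharP K p] : GoodSyl p (UU n K) := by
  refine ⟨?_, fun T hT hc => UU_H1 hn K p T hT hc, UU_H2 hn K p⟩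
  intro h
  have h01 : (⟨0, by omega⟩ : Fin n) ≠ ⟨1, by omega⟩ := by simp [Fin.ext_iff]
  have hm := transv_mem_UU' n K _ _ h01 (by simp [Fin.lt_def]) (1 : K)
  rw [h, Subgroup.mem_bot] at hm
  have := congrArg (fun g : SpecialLinearGroup (Fin n) K => g.1 ⟨0, by omega⟩ ⟨1, by omega⟩) hm
  simp [transvection_coe] at this

theorem center_p_free (n : ℕ) (K : Type*) [Field K] (p : ℕ) [Fact p.Prime] [CharP K p]
    (z : SpecialLinearGroup (Fin n) K)
    (hz : z ∈ Subgroup.center (SpecialLinearGroup (Fin n) K)) (k : ℕ) (hk : z ^ p ^ k = 1) :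
    z = 1 := by
  rcases Nat.eq_zero_or_pos n with rfl | hnpos
  · exact Subsingleton.elim _ _
  obtain ⟨r, hr, hrz⟩ := Matrix.SpecialLinearGroup.mem_center_iff.mp hz
  have h1 : (z.1) ^ p ^ k = 1 := by
    have := congrArg Subtype.val hk
    simpa using this
  rw [← hrz, ← map_pow] at h1
  have h2 : r ^ p ^ k = 1 := by
    have := congrFun (congrFun h1 ⟨0, hnpos⟩) ⟨0, hnpos⟩
    simpa using this
  have h3 : (r - 1) ^ p ^ k = 0 := by rw [sub_pow_char_pow, h2, one_pow, sub_self]
  have h4 : r = 1 := sub_eq_zero.mp (pow_eq_zero_iff (pow_ne_zero k (Fact.out : p.Prime).ne_zero) |>.mp h3)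
  apply Subtype.ext
  rw [← hrz, h4]
  simp

theorem psl_simple {K : Type*} [Field K] [Fintype K] (p : ℕ) [Fact p.Prime] [CharP K p] (n : ℕ)
    (hn : 3 ≤ n) (S : Sylow p (Matrix.ProjectiveSpecialLinearGroup (Fin n) K)) :
    (Cfsg.groupFusionSystem
      (S : Subgroup (Matrix.ProjectiveSpecialLinearGroup (Fin n) K))).IsSimple p := by
  classical
  haveI : Finite (SpecialLinearGroup (Fin n) K) := inferInstance
  haveI : Finite (Matrix.ProjectiveSpecialLinearGroup (Fin n) K) := inferInstance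
  obtain ⟨S₀, hS₀⟩ := Cfsg.Agent.Lib.Helper75.PslB1.UU_sylow n K p
  have hg0 := goodSyl_UU hn K p
  have hpg : IsPGroup p (UU n K) := hS₀ ▸ S₀.isPGroup'
  have hq := Cfsg.Agent.Lib.Helper21.PslT2.goodSyl_quot p (Subgroup.center (SpecialLinearGroup (Fin n) K)) le_rfl
    (fun z hz k hk => center_p_free n K p z hz k hk) (UU n K) hpg hg0
  obtain ⟨g, hg⟩ := MulAction.exists_smul_eq (Matrix.ProjectiveSpecialLinearGroup (Fin n) K)
    (S₀.mapSurjective (QuotientGroup.mk'_surjective
      (Subgroup.center (SpecialLinearGroup (Fin n) K)))) S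
  have hS : (S : Subgroup (Matrix.ProjectiveSpecialLinearGroup (Fin n) K)) =
      ((UU n K).map (QuotientGroup.mk' (Subgroup.center (SpecialLinearGroup (Fin n) K)))).map
        (MulAut.conj g).toMonoidHom := by
    rw [← hg, Sylow.coe_subgroup_smul, Sylow.coe_mapSurjective, hS₀]
    rfl
  have hfin := Cfsg.Agent.Lib.Helper21.PslT1.goodSyl_map_equiv (MulAut.conj g) p _ hq
  rw [← hS] at hfin
  exact simple_of_goodSyl S hfin

end Cfsg.Agent.Lib.Helper91.PslSimple
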