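import Mathlib
import Cfsg.Prelude.Def_ClassicalGeometry
import Cfsg.Agent.S0784
import Cfsg.Agent.Lib.Helper18.CartanDieudonne

set_option autoImplicit false

namespace Cfsg.Agent.Lib.Helper91

open Matrix Cfsg

section General

variable {F : Type*} [Field F] {n : ℕ}

theorem refl_apply (Q : QuadraticForm F (Fin n → F)) (v x : Fin n → F) :
    (reflectionMatrix (⇑Q) v) *ᵥ x = x - ((Q v)⁻¹ * QuadraticMap.polar (⇑Q) v x) • v :=
  Cfsg.Agent.S0784.refl_mulVec Q v x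

theorem refl_sq (Q : QuadraticForm F (Fin n → F)) (v : Fin n → F) (hv : Q v ≠ 0) :
    reflectionMatrix (⇑Q) v * reflectionMatrix (⇑Q) v = 1 := by
  apply Cfsg.Agent.Lib.Helper18.cd_mat_ext
  intro x
  rw [← Matrix.mulVec_mulVec, Matrix.one_mulVec, refl_apply, refl_apply,
    QuadraticMap.polar_sub_right, QuadraticMap.polar_smul_right, QuadraticMap.polar_self]
  have hc : (Q v)⁻¹ * (QuadraticMap.polar (⇑Q) v x -
      ((Q v)⁻¹ * QuadraticMap.polar (⇑Q) v x) • (2 • Q v)) =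
      -((Q v)⁻¹ * QuadraticMap.polar (⇑Q) v x) := by
    rw [smul_eq_mul, nsmul_eq_mul]
    field_simp
    ring
  rw [hc, neg_smul]
  abel

theorem refl_ne_one (h2 : (2 : F) ≠ 0) (Q : QuadraticForm F (Fin n → F)) (v : Fin n → F)
    (hv : Q v ≠ 0) : reflectionMatrix (⇑Q) v ≠ 1 := by
  intro h
  have h1 := (Cfsg.Agent.S0784.result Q v hv).2.1
  rw [h, Matrix.one_mulVec] at h1
  have h3 : (2 : F) • v = 0 := by
    rw [two_smul]
    nth_rewrite 1 [h1]
    exact neg_add_cancel v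
  have hv0 : v = 0 := by
    rcases smul_eq_zero.mp h3 with h | h
    · exact absurd h h2
    · exact h
  rw [hv0, QuadraticMap.map_zero] at hv
  exact hv rfl

theorem polar_mulVec (Q : QuadraticForm F (Fin n → F)) (A : Matrix (Fin n) (Fin n) F)
    (hA : ∀ x, Q (A *ᵥ x) = Q x) (x y : Fin n → F) :
    QuadraticMap.polar (⇑Q) (A *ᵥ x) (A *ᵥ y) = QuadraticMap.polar (⇑Q) x y := by
  unfold QuadraticMap.polar
  rw [← Matrix.mulVec_add, hA, hA, hA]

theorem refl_conj (Q : QuadraticForm F (Fin n → F)) (A : Matrix (Fin n) (Fin n) F)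
    (hA : ∀ x, Q (A *ᵥ x) = Q x) (w : Fin n → F) :
    A * reflectionMatrix (⇑Q) w = reflectionMatrix (⇑Q) (A *ᵥ w) * A := by
  apply Cfsg.Agent.Lib.Helper18.cd_mat_ext
  intro x
  rw [← Matrix.mulVec_mulVec, ← Matrix.mulVec_mulVec, refl_apply, refl_apply,
    Matrix.mulVec_sub, Matrix.mulVec_smul, hA w, polar_mulVec Q A hA]

theorem refl_smul (Q : QuadraticForm F (Fin n → F)) (a : F) (ha : a ≠ 0) (v : Fin n → F)
    (hv : Q v ≠ 0) : reflectionMatrix (⇑Q) (a • v) = reflectionMatrix (⇑Q) v := by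
  apply Cfsg.Agent.Lib.Helper18.cd_mat_ext
  intro x
  rw [refl_apply, refl_apply, QuadraticMap.map_smul, QuadraticMap.polar_smul_left, smul_smul]
  congr 2
  rw [smul_eq_mul, smul_eq_mul]
  field_simp

theorem refl_comm (Q : QuadraticForm F (Fin n → F)) (v w : Fin n → F) (hv : Q v ≠ 0)
    (hvw : QuadraticMap.polar (⇑Q) v w = 0) :
    reflectionMatrix (⇑Q) v * reflectionMatrix (⇑Q) w =
      reflectionMatrix (⇑Q) w * reflectionMatrix (⇑Q) v := by
  rw [refl_conj Q _ (Cfsg.Agent.S0784.result Q v hv).1 w, refl_apply, hvw, mul_zero, zero_smul,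
    sub_zero]

end General

section ModThree

variable {n : ℕ}

theorem z3_sq_one : ∀ ε : ZMod 3, ε ≠ 0 → ε * ε = 1 := by decide

theorem z3_i : ∀ d q x : ZMod 3, d ≠ 0 → q ≠ d → 0 + q + x ≠ d → 0 + q - x ≠ d → x = 0 := by
  decide

theorem z3_key : ∀ d q1 q2 x : ZMod 3, d ≠ 0 → q1 ≠ 0 → q1 ≠ d → q2 ≠ 0 → q2 ≠ d →
    q1 + q2 + x ≠ d → q1 + q2 - x ≠ d → (q1 + q2 + x = 0 ∨ q1 + q2 - x = 0) := by
  decide

/-- braid relation for two reflections of the same norm with non-orthogonal centres -/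
theorem refl_braid (Q : QuadraticForm (ZMod 3) (Fin n → ZMod 3)) (v w : Fin n → ZMod 3)
    (c : ZMod 3) (hc : c ≠ 0) (hv : Q v = c) (hw : Q w = c)
    (hvw : QuadraticMap.polar (⇑Q) v w ≠ 0) :
    reflectionMatrix (⇑Q) v * reflectionMatrix (⇑Q) w * reflectionMatrix (⇑Q) v =
      reflectionMatrix (⇑Q) w * reflectionMatrix (⇑Q) v * reflectionMatrix (⇑Q) w := by
  have hv0 : Q v ≠ 0 := by rw [hv]; exact hc
  have hw0 : Q w ≠ 0 := by rw [hw]; exact hc
  have h1 : reflectionMatrix (⇑Q) v * reflectionMatrix (⇑Q) w * reflectionMatrix (⇑Q) v =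
      reflectionMatrix (⇑Q) (reflectionMatrix (⇑Q) v *ᵥ w) := by
    rw [refl_conj Q _ (Cfsg.Agent.S0784.result Q v hv0).1 w, mul_assoc, refl_sq Q v hv0, mul_one]
  have h2 : reflectionMatrix (⇑Q) w * reflectionMatrix (⇑Q) v * reflectionMatrix (⇑Q) w =
      reflectionMatrix (⇑Q) (reflectionMatrix (⇑Q) w *ᵥ v) := by
    rw [refl_conj Q _ (Cfsg.Agent.S0784.result Q w hw0).1 v, mul_assoc, refl_sq Q w hw0, mul_one]
  obtain ⟨ε, hε⟩ : ∃ ε, ε = c⁻¹ * QuadraticMap.polar (⇑Q) v w := ⟨_, rfl⟩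
  have hε0 : ε ≠ 0 := by
    rw [hε]; exact mul_ne_zero (inv_ne_zero hc) hvw
  have hεε : ε * ε = 1 := z3_sq_one ε hε0
  have h3 : reflectionMatrix (⇑Q) w *ᵥ v = (-ε) • (reflectionMatrix (⇑Q) v *ᵥ w) := by
    rw [refl_apply, refl_apply, hv, hw, QuadraticMap.polar_comm (⇑Q) w v, ← hε, smul_sub,
      smul_smul, neg_mul, hεε, neg_smul, neg_smul, one_smul]
    abel
  have hQ' : Q (reflectionMatrix (⇑Q) v *ᵥ w) ≠ 0 := by
    rw [(Cfsg.Agent.S0784.result Q v hv0).1 w]; exact hw0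
  rw [h1, h2, h3, refl_smul Q _ (neg_ne_zero.mpr hε0) _ hQ']

/-- An elementary representation lemma: a "quadratic" function on `𝔽₃ⁿ`, `n ≥ 4`, whose polar
form has radical inside a span of two vectors takes every non-zero value. -/
theorem exists_value (hn : 4 ≤ n) (Q' : (Fin n → ZMod 3) → ZMod 3)
    (f' : (Fin n → ZMod 3) → (Fin n → ZMod 3) → ZMod 3)
    (hadd : ∀ t s, Q' (t + s) = Q' t + Q' s + f' t s)
    (hsub : ∀ t s, Q' (t - s) = Q' t + Q' s - f' t s)
    (v w : Fin n → ZMod 3)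
    (hrad : ∀ t, (∀ s, f' t s = 0) → ∃ α β : ZMod 3, t = α • v + β • w)
    (d : ZMod 3) (hd : d ≠ 0) : ∃ t, Q' t = d := by
  by_contra hcon
  push Not at hcon
  have h0 : ∀ t, Q' t = 0 → ∀ s, f' t s = 0 := by
    intro t ht s
    have h3 := hcon (t + s)
    have h4 := hcon (t - s)
    rw [hadd, ht] at h3
    rw [hsub, ht] at h4
    exact z3_i d (Q' s) (f' t s) hd (hcon s) h3 h4
  obtain ⟨t₀, ht₀⟩ : ∃ t₀, ∀ t, ∃ e α β : ZMod 3, t = e • t₀ + α • v + β • w := by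
    by_cases hex : ∃ t₀, Q' t₀ ≠ 0
    · obtain ⟨t₀, ht₀⟩ := hex
      refine ⟨t₀, fun t => ?_⟩
      by_cases ht : Q' t = 0
      · obtain ⟨α, β, h⟩ := hrad t (h0 t ht)
        exact ⟨0, α, β, by rw [zero_smul, zero_add]; exact h⟩
      · have h3 := hcon (t + t₀)
        have h4 := hcon (t - t₀)
        rw [hadd] at h3
        rw [hsub] at h4
        have key := z3_key d (Q' t) (Q' t₀) (f' t t₀) hd ht (hcon t) ht₀ (hcon t₀) h3 h4
        rw [← hadd, ← hsub] at key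
        rcases key with h | h
        · obtain ⟨α, β, hh⟩ := hrad _ (h0 _ h)
          refine ⟨-1, α, β, ?_⟩
          rw [neg_one_smul, add_assoc, ← hh]
          abel
        · obtain ⟨α, β, hh⟩ := hrad _ (h0 _ h)
          refine ⟨1, α, β, ?_⟩
          rw [one_smul, add_assoc, ← hh]
          abel
    · push Not at hex
      refine ⟨0, fun t => ?_⟩
      obtain ⟨α, β, h⟩ := hrad t (h0 t (hex t))
      exact ⟨0, α, β, by rw [zero_smul, zero_add]; exact h⟩
  have hsurj : Function.Surjective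
      (fun x : ZMod 3 × ZMod 3 × ZMod 3 => x.1 • t₀ + x.2.1 • v + x.2.2 • w) := by
    intro t
    obtain ⟨e, α, β, h⟩ := ht₀ t
    exact ⟨(e, α, β), h.symm⟩
  have hcard := Fintype.card_le_of_surjective _ hsurj
  simp only [Fintype.card_pi, Finset.prod_const, Finset.card_univ, Fintype.card_fin,
    Fintype.card_prod, ZMod.card] at hcard
  have : 3 ^ 4 ≤ 3 ^ n := Nat.pow_le_pow_right (by norm_num) hn
  omega

end ModThree

end Cfsg.Agent.Lib.Helper91
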