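import Mathlib
import Cfsg.Agent.S0249
import Cfsg.Agent.Lib.Helper91.SuU
import Cfsg.Agent.Lib.Helper91.PslU
import Cfsg.Agent.Lib.Helper91.SimpleGen
import Cfsg.Agent.Lib.Helper29.PslB4
import Cfsg.Agent.Lib.Helper91.PslSimple
import Cfsg.Agent.Lib.Helper5.SpA2
import Cfsg.Agent.Lib.Helper5.SpH1a
import Cfsg.Agent.Lib.Helper77.SuEFU
import Cfsg.Agent.Lib.Helper73.SuEA1
import Cfsg.Agent.Lib.Helper16.SuEA3
import Cfsg.Agent.Lib.Helper8.SuEA4
import Cfsg.Agent.Lib.Helper78.SuEH1b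
import Cfsg.Agent.Lib.Helper74.SuEH1d
import Cfsg.Agent.Lib.Helper28.SuEH1g
import Cfsg.Agent.Lib.Helper64.SuEH1h
import Cfsg.Agent.Lib.Helper64.SuEH2a
import Cfsg.Agent.Lib.Helper4.SuEQ1
import Cfsg.Agent.Lib.Helper6.SuEQ2
import Cfsg.Agent.Lib.Helper21.SuEP1
import Cfsg.Agent.Lib.Helper85.SuEP2
import Cfsg.Agent.Lib.Helper30.SuEP3
import Cfsg.Agent.Lib.Helper30.SuETL
import Cfsg.Agent.Lib.Helper1.SuETN
import Cfsg.Agent.Lib.Helper55.SuETD

set_option autoImplicit false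

/-! S5172, even case: the standard Sylow `p`-subgroup `U` of `GU l K σ` (`SU_{2l}` in a
hyperbolic basis) is a `GoodSyl`.  Assembly by helper91 from the job-board pieces. -/

namespace Cfsg.Agent.Lib.Helper91.SuEven

open Matrix Cfsg.Agent.Lib.Helper91.SpU Cfsg.Agent.Lib.Helper91.SuU
  Cfsg.Agent.Lib.Helper91.SimpleGen Cfsg.Agent.Lib.Helper91.PslU

section assembly

variable (l : ℕ) (K : Type*) [Field K] (σ : K →+* K) (hσ : ∀ x, σ (σ x) = x)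

include hσ in
theorem skew_cong (S B : Matrix (Fin l) (Fin l) K) (hB : B.map σ = -Bᵀ) :
    (S * B * (S.map σ)ᵀ).map σ = -(S * B * (S.map σ)ᵀ)ᵀ := by
  have h2 : ((S.map σ)ᵀ).map σ = Sᵀ := by
    ext i j
    simp [hσ]
  rw [Matrix.map_mul, Matrix.map_mul, hB, h2, Matrix.transpose_mul, Matrix.transpose_mul,
    Matrix.transpose_transpose]
  simp [Matrix.mul_assoc]

/-- the additive group of skew-hermitian matrices `B` with `usq B ∈ T` -/
def TT (T : Subgroup (GU l K σ)) : AddSubgroup (Matrix (Fin l) (Fin l) K) where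
  carrier := {B | ∃ hB : B.map σ = -Bᵀ, usq l K σ B hB ∈ T}
  add_mem' := by
    rintro B B' ⟨hB, h⟩ ⟨hB', h'⟩
    exact ⟨skew_add l K σ hB hB', by
      rw [← usq_mul l K σ B B' hB hB' (skew_add l K σ hB hB')]; exact mul_mem h h'⟩
  zero_mem' := ⟨skew_zero l K σ, by rw [usq_zero]; exact one_mem _⟩
  neg_mem' := by
    rintro B ⟨hB, h⟩
    exact ⟨skew_neg l K σ hB, by rw [← usq_inv l K σ B hB (skew_neg l K σ hB)]; exact inv_mem h⟩

/-- the Siegel radical -/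
def QQ : Subgroup (GU l K σ) where
  carrier := {g | ∃ (B : Matrix (Fin l) (Fin l) K) (hB : B.map σ = -Bᵀ), g = usq l K σ B hB}
  mul_mem' := by
    rintro _ _ ⟨B, hB, rfl⟩ ⟨B', hB', rfl⟩
    exact ⟨B + B', skew_add l K σ hB hB', usq_mul l K σ B B' hB hB' _⟩
  one_mem' := ⟨0, skew_zero l K σ, (usq_zero l K σ _).symm⟩
  inv_mem' := by
    rintro _ ⟨B, hB, rfl⟩
    exact ⟨-B, skew_neg l K σ hB, usq_inv l K σ B hB _⟩

include hσ

theorem uphi_normalizes_QQ (s : SpecialLinearGroup (Fin l) K) :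
    uphi l K σ hσ s ∈ Subgroup.normalizer ((QQ l K σ : Subgroup (GU l K σ)) : Set (GU l K σ)) := by
  have key : ∀ s : SpecialLinearGroup (Fin l) K, ∀ x ∈ QQ l K σ,
      uphi l K σ hσ s * x * (uphi l K σ hσ s)⁻¹ ∈ QQ l K σ := by
    rintro s _ ⟨B, hB, rfl⟩
    exact ⟨_, skew_cong l K σ hσ _ B hB, uphi_conj_usq l K σ hσ s B hB _⟩
  apply Cfsg.Agent.Lib.Helper91.PslSimple.mem_normalizer_of_conj'
  · exact key s
  · intro x hx
    rw [← map_inv]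
    exact key s⁻¹ x hx

theorem uphi_transv_inU (i j : Fin l) (hij : i ≠ j) (hlt : i < j) (a : K) :
    InU l K σ (uphi l K σ hσ (SpecialLinearGroup.transvection hij a)) := by
  apply uphi_inU
  exact (mem_UU_iff l K _).mp (Cfsg.Agent.Lib.Helper29.PslB4.transv_mem_UU l K i j hij hlt a)

open Cfsg.Agent.Lib.Helper5.SpH1a Cfsg.Agent.Lib.Helper78.SuEH1b Cfsg.Agent.Lib.Helper74.SuEH1d
  Cfsg.Agent.Lib.Helper28.SuEH1g Cfsg.Agent.Lib.Helper64.SuEH1h Cfsg.Agent.Lib.Helper73.SuEA1 in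
theorem su_H1 (hl : 2 ≤ l) [Finite (GU l K σ)] (p : ℕ) [Fact p.Prime] [CharP K p]
    (ε : K) (hε0 : ε ≠ 0) (hε : σ ε = -ε) (θ : K) (hθ : σ θ ≠ θ)
    (htr : ∀ s : K, σ s = s → ∃ t : K, s = t + σ t)
    (U : Subgroup (GU l K σ)) (hU : ∀ g, g ∈ U ↔ InU l K σ g)
    (T : Subgroup (GU l K σ)) (hT : T ≤ U)
    (hc : ∀ x ∈ T, ∀ g : GU l K σ, g * x * g⁻¹ ∈ U → g * x * g⁻¹ ∈ T) :
    T = ⊥ ∨ T = U := by
  classical
  by_cases hT1 : T = ⊥
  · exact Or.inl hT1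
  right
  have hUp : IsPGroup p U := U_isPGroup l K σ hσ p U hU
  have hTn : ∀ u ∈ U, ∀ x ∈ T, u * x * u⁻¹ ∈ T :=
    fun u hu x hx => hc x hx u (mul_mem (mul_mem hu (hT hx)) (inv_mem hu))
  obtain ⟨z, hzT, hz1, hzc⟩ := exists_central p U T hUp hT hT1 hTn
  obtain ⟨i₀, hi₀⟩ : ∃ i₀ : Fin l, (i₀ : ℕ) = 0 := ⟨⟨0, by omega⟩, rfl⟩
  obtain ⟨i₁, hi₁⟩ : ∃ i₁ : Fin l, (i₁ : ℕ) = 1 := ⟨⟨1, by omega⟩, rfl⟩
  obtain ⟨b, hb, hzB⟩ := center_U l K σ hσ ε hε0 hε θ hθ z ((hU z).mp (hT hzT))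
    (fun u hu => hzc u ((hU u).mpr hu)) i₀ i₁ hi₀ hi₁
  have hz : z = uyy l K σ i₀ b hb := mat_ext l K σ (by rw [hzB, uyy_mat])
  have hb0 : b ≠ 0 := by
    rintro rfl
    apply hz1
    rw [hz, uyy_zero]
  have hcong : ∀ B ∈ TT l K σ T, ∀ s : SpecialLinearGroup (Fin l) K,
      (s : Matrix (Fin l) (Fin l) K) * B * ((s : Matrix (Fin l) (Fin l) K).map σ)ᵀ ∈
        TT l K σ T := by
    rintro B ⟨hB, h⟩ s
    have hB' := skew_cong l K σ hσ (s : Matrix (Fin l) (Fin l) K) B hB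
    refine ⟨hB', ?_⟩
    have := hc _ h (uphi l K σ hσ s)
      (by rw [uphi_conj_usq l K σ hσ s B hB hB']; exact (hU _).mpr (usq_inU l K σ _ _))
    rwa [uphi_conj_usq l K σ hσ s B hB hB'] at this
  have h0T : Matrix.single i₀ i₀ b ∈ TT l K σ T := ⟨skew_single l K σ i₀ b hb, by
    rw [hz] at hzT; exact hzT⟩
  have hall := herm_all l K σ hσ htr hl (TT l K σ T) hcong i₀ b hb0 hb h0T
  have hQ : ∀ (B : Matrix (Fin l) (Fin l) K) (hB : B.map σ = -Bᵀ), usq l K σ B hB ∈ T :=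
    fun B hB => by
      obtain ⟨_, h⟩ := hall B hB
      exact h
  apply le_antisymm hT
  intro u hu
  have hcl := U_le_closure_su l K σ hσ u ((hU u).mp hu)
  refine (Subgroup.closure_le T).mpr ?_ hcl
  rintro x (⟨B, hB, rfl⟩ | ⟨i, j, hij, a, hlt, rfl⟩)
  · exact hQ B hB
  · obtain ⟨g, B, hB, hg⟩ := weyl_conj l K σ hσ ε hε0 hε i j hij a
    have hin : uphi l K σ hσ (SpecialLinearGroup.transvection hij a) ∈ U :=
      (hU _).mpr (uphi_transv_inU l K σ hσ i j hij hlt a)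
    have := hc _ (hQ B hB) g (by rw [hg]; exact hin)
    rwa [hg] at this

open Cfsg.Agent.Lib.Helper16.SuEA3 Cfsg.Agent.Lib.Helper64.SuEH2a Cfsg.Agent.Lib.Helper4.SuEQ1
  Cfsg.Agent.Lib.Helper6.SuEQ2 Cfsg.Agent.Lib.Helper21.SuEP1 Cfsg.Agent.Lib.Helper85.SuEP2
  Cfsg.Agent.Lib.Helper30.SuEP3 Cfsg.Agent.Lib.Helper30.SuETL Cfsg.Agent.Lib.Helper1.SuETN
  Cfsg.Agent.Lib.Helper55.SuETD in
theorem su_H2 (hl : 2 ≤ l) (p : ℕ) [Fact p.Prime] [CharP K p]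
    (ε : K) (hε0 : ε ≠ 0) (hε : σ ε = -ε)
    (U : Subgroup (GU l K σ)) (hU : ∀ g, g ∈ U ↔ InU l K σ g) :
    Subgroup.normalizer (U : Set (GU l K σ)) ≤
      Subgroup.closure ((U : Set (GU l K σ)) ∪
        (Subgroup.centralizer (U : Set (GU l K σ)) : Set (GU l K σ)) ∪
        {h : GU l K σ | h ∈ Subgroup.normalizer (U : Set (GU l K σ)) ∧
          ∃ P : Subgroup (GU l K σ), P ≤ U ∧ (∀ s ∈ U, ∀ x ∈ P, s * x * s⁻¹ ∈ P) ∧
            (∀ c ∈ U, (∀ x ∈ P, c * x = x * c) → c ∈ P) ∧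
            h ∈ Subgroup.closure
              {x : GU l K σ | x ∈ Subgroup.normalizer (P : Set (GU l K σ)) ∧
                ∃ k : ℕ, x ^ p ^ k = 1}}) := by
  classical
  intro g hg
  obtain ⟨h1, h2⟩ := normalizer_U_tri l K σ hσ ε hε0 hε U hU g hg
  obtain ⟨i₀, hi₀⟩ : ∃ i₀ : Fin l, (i₀ : ℕ) + 1 = l := ⟨⟨l - 1, by omega⟩, by simp; omega⟩
  have h3 := tri_mem_closure_su l K σ hσ g h1 h2 i₀
  refine (Subgroup.closure_le _).mpr ?_ h3
  rintro x ((hx | ⟨s, hs, rfl⟩) | ⟨t, ht0, ht, hx⟩)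
  · exact Subgroup.subset_closure (Or.inl (Or.inl ((hU x).mpr hx)))
  · apply Subgroup.subset_closure
    right
    refine ⟨torus_normalizes l K σ hσ U hU _ (uphi_diag l K σ hσ s hs), QQ l K σ, ?_, ?_, ?_, ?_⟩
    · rintro x ⟨B, hB, rfl⟩
      exact (hU _).mpr (usq_inU l K σ B hB)
    · rintro u hu x ⟨B, hB, rfl⟩
      exact QQ_normal l K σ hσ u ((hU u).mp hu) B hB
    · intro c hc hcomm
      exact QQ_selfcent l K σ hσ ε hε0 hε c ((hU c).mp hc) (fun B hB => hcomm _ ⟨B, hB, rfl⟩)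
    · have : Nontrivial (Fin l) := Fin.nontrivial_iff_two_le.mpr hl
      refine Cfsg.Agent.S0249.transvection_induction
        (fun s => uphi l K σ hσ s ∈ Subgroup.closure
          {x : GU l K σ |
            x ∈ Subgroup.normalizer ((QQ l K σ : Subgroup (GU l K σ)) : Set (GU l K σ)) ∧
              ∃ k : ℕ, x ^ p ^ k = 1}) ?_ ?_ s
      · intro i j hij c
        apply Subgroup.subset_closure
        refine ⟨uphi_normalizes_QQ l K σ hσ _, 1, ?_⟩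
        rw [← map_pow, Cfsg.Agent.Lib.Helper91.PslSimple.transv_pow_p, map_one]
      · intro A B hA hB
        rw [map_mul]
        exact mul_mem hA hB
  · apply Subgroup.subset_closure
    right
    refine ⟨torus_normalizes l K σ hσ U hU x (by
      intro a b hab
      rw [hx, Matrix.fromBlocks_diagonal, Matrix.diagonal_apply_ne _ hab]), ?_⟩
    obtain ⟨P, hP⟩ := exists_Plong l K σ hσ U hU i₀ hi₀
    obtain ⟨hP1, hP2⟩ := Plong_props l K σ hσ hl U hU i₀ hi₀ P hP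
    refine ⟨P, fun x hx => ((hP x).mp hx).1, hP1, hP2, ?_⟩
    have hy : ∀ (b : K) (hb : σ b = -b), uyy l K σ i₀ b hb ∈ Subgroup.closure
        {x : GU l K σ | x ∈ Subgroup.normalizer (P : Set (GU l K σ)) ∧
          ∃ k : ℕ, x ^ p ^ k = 1} := by
      intro b hb
      apply Subgroup.subset_closure
      refine ⟨?_, 1, ?_⟩
      · apply Cfsg.Agent.Lib.Helper91.PslSimple.mem_normalizer_of_conj'
        · exact fun x hx => hP1 _ ((hU _).mpr (uyy_inU l K σ i₀ b hb)) x hx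
        · intro x hx
          rw [uyy_inv]
          exact hP1 _ ((hU _).mpr (uyy_inU l K σ i₀ (-b) _)) x hx
      · rw [pow_one, uyy_pow]
        apply mat_ext
        rw [uyy_mat, mat_one, CharP.cast_eq_zero, zero_mul, Matrix.single_zero,
          Matrix.fromBlocks_one]
    have hz : ∀ (b : K) (hb : σ b = -b), uzz l K σ i₀ b hb ∈ Subgroup.closure
        {x : GU l K σ | x ∈ Subgroup.normalizer (P : Set (GU l K σ)) ∧
          ∃ k : ℕ, x ^ p ^ k = 1} := by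
      intro b hb
      apply Subgroup.subset_closure
      refine ⟨?_, 1, ?_⟩
      · apply Cfsg.Agent.Lib.Helper91.PslSimple.mem_normalizer_of_conj'
        · exact fun x hx => uzz_normalizes l K σ hσ U hU i₀ hi₀ P hP b hb x hx
        · intro x hx
          have := uzz_normalizes l K σ hσ U hU i₀ hi₀ P hP (-b) (sig_neg K σ hb) x hx
          rwa [← uzz_inv] at this
      · rw [pow_one, uzz_pow]
        apply mat_ext
        rw [uzz_mat, mat_one, CharP.cast_eq_zero, zero_mul, Matrix.single_zero,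
          Matrix.fromBlocks_one]
    obtain ⟨b₁, b₂, b₃, b₄, b₅, b₆, h₁, h₂, h₃, h₄, h₅, h₆, hxe⟩ :=
      torus_long l K σ hσ ε hε0 hε i₀ t ht0 ht x hx
    rw [hxe]
    exact mul_mem (mul_mem (mul_mem (mul_mem (mul_mem (hy _ _) (hz _ _)) (hy _ _)) (hy _ _))
      (hz _ _)) (hy _ _)

theorem su_goodSyl (hl : 2 ≤ l) [Finite (GU l K σ)] (p : ℕ) [Fact p.Prime] [CharP K p]
    (ε : K) (hε0 : ε ≠ 0) (hε : σ ε = -ε) (θ : K) (hθ : σ θ ≠ θ)
    (htr : ∀ s : K, σ s = s → ∃ t : K, s = t + σ t)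
    (U : Subgroup (GU l K σ)) (hU : ∀ g, g ∈ U ↔ InU l K σ g) :
    GoodSyl p U := by
  refine ⟨?_, fun T hT hc => su_H1 l K σ hσ hl p ε hε0 hε θ hθ htr U hU T hT hc,
    su_H2 l K σ hσ hl p ε hε0 hε U hU⟩
  intro h
  have hm' := (hU (uyy l K σ ⟨0, by omega⟩ ε hε)).mpr (uyy_inU l K σ _ ε hε)
  rw [h, Subgroup.mem_bot] at hm'
  have := congrArg (fun g : GU l K σ =>
    mat l K σ g (Sum.inl ⟨0, by omega⟩) (Sum.inr ⟨0, by omega⟩)) hm'
  simp [uyy_mat, mat_one] at this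
  exact hε0 this

open Cfsg.Agent.Lib.Helper77.SuEFU Cfsg.Agent.Lib.Helper73.SuEA1 Cfsg.Agent.Lib.Helper16.SuEA3
  Cfsg.Agent.Lib.Helper8.SuEA4 Cfsg.Agent.Lib.Helper5.SpA2 in
/-- the even case: a subgroup `U` of `GU l K σ` which is a Sylow `p`-subgroup and a `GoodSyl` -/
theorem su_even_good (hl : 2 ≤ l) [Finite (GU l K σ)] (p : ℕ) [Fact p.Prime] [CharP K p]
    (ε : K) (hε0 : ε ≠ 0) (hε : σ ε = -ε) (θ : K) (hθ : σ θ ≠ θ)
    (htr : ∀ s : K, σ s = s → ∃ t : K, s = t + σ t) :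
    ∃ U : Subgroup (GU l K σ), IsPGroup p U ∧ (∃ S₀ : Sylow p (GU l K σ), (S₀ : Subgroup _) = U) ∧
      GoodSyl p U := by
  obtain ⟨U, hU⟩ := exists_UU l K σ hσ
  have hUp := U_isPGroup l K σ hσ p U hU
  refine ⟨U, hUp, ?_, su_goodSyl l K σ hσ hl p ε hε0 hε θ hθ htr U hU⟩
  exact sylow_of_normalizer p U hUp (fun x hx hk => by
    obtain ⟨k, hk⟩ := hk
    obtain ⟨h1, h2⟩ := normalizer_U_tri l K σ hσ ε hε0 hε U hU x hx
    exact (hU x).mpr (pelem_tri_inU l K σ p x h1 h2 k hk))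

end assembly

end Cfsg.Agent.Lib.Helper91.SuEven
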