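import Mathlib
import Cfsg.Agent.Lib.Helper91.SuEven
import Cfsg.Agent.Lib.Helper21.PslT1
import Cfsg.Agent.Lib.Helper21.PslT2
import Cfsg.Agent.Lib.Helper23.SuFF
import Cfsg.Agent.Lib.Helper12.SuZSU
import Cfsg.Agent.Lib.Helper17.SuISOB
import Cfsg.Agent.Lib.Helper67.SuWE

set_option autoImplicit false

/-! S5172: transfer of `GoodSyl` from a model of `SU_n` in a hyperbolic basis to `PSU_n`, and the
even case.  helper91. -/

namespace Cfsg.Agent.Lib.Helper91.SuFin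

open Matrix Cfsg.Agent.Lib.Helper91.SuU Cfsg.Agent.Lib.Helper91.SimpleGen
  Cfsg.Agent.Lib.Helper91.SuEven

theorem psu_simple_of_good {K : Type*} [Field K] [Fintype K] (p q : ℕ) [Fact p.Prime] [CharP K p]
    (hK : Fintype.card K = q ^ 2) (n : ℕ) {H : Type*} [Group H] [Finite H]
    (e : ↥(Cfsg.SU n K q) ≃* H) (U : Subgroup H) (hUp : IsPGroup p U)
    (hS : ∃ S₀ : Sylow p H, (S₀ : Subgroup H) = U) (hg : GoodSyl p U)
    (S : Sylow p (Cfsg.PSU n K q)) :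
    (Cfsg.groupFusionSystem (S : Subgroup (Cfsg.PSU n K q))).IsSimple p := by
  classical
  haveI : Finite ↥(Cfsg.SU n K q) := inferInstance
  haveI : Finite (Cfsg.PSU n K q) := inferInstance
  obtain ⟨S₀, hS₀⟩ := hS
  have hsurj : Function.Surjective e.symm.toMonoidHom := e.symm.surjective
  have hU₁p : IsPGroup p (U.map e.symm.toMonoidHom) := hUp.map e.symm.toMonoidHom
  have hg₁ : GoodSyl p (U.map e.symm.toMonoidHom) :=
    Cfsg.Agent.Lib.Helper21.PslT1.goodSyl_map_equiv e.symm p U hg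
  have hS₁c : ((S₀.mapSurjective hsurj :
      Sylow p ↥(Cfsg.SU n K q)) : Subgroup ↥(Cfsg.SU n K q)) = U.map e.symm.toMonoidHom := by
    rw [Sylow.coe_mapSurjective, hS₀]
  have hq := Cfsg.Agent.Lib.Helper21.PslT2.goodSyl_quot p (Subgroup.center ↥(Cfsg.SU n K q)) le_rfl
    (fun z hz k hk => Cfsg.Agent.Lib.Helper12.SuZSU.center_su_p_free p q hK n z hz k hk)
    (U.map e.symm.toMonoidHom) hU₁p hg₁
  obtain ⟨g, hg'⟩ := MulAction.exists_smul_eq (Cfsg.PSU n K q)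
    ((S₀.mapSurjective hsurj).mapSurjective
      (QuotientGroup.mk'_surjective (Subgroup.center ↥(Cfsg.SU n K q)))) S
  have hSe : (S : Subgroup (Cfsg.PSU n K q)) =
      ((U.map e.symm.toMonoidHom).map
        (QuotientGroup.mk' (Subgroup.center ↥(Cfsg.SU n K q)))).map
        (MulAut.conj g).toMonoidHom := by
    rw [← hg', Sylow.coe_subgroup_smul, Sylow.coe_mapSurjective, hS₁c]
    rfl
  have hfin := Cfsg.Agent.Lib.Helper21.PslT1.goodSyl_map_equiv (MulAut.conj g) p _ hq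
  rw [← hSe] at hfin
  exact simple_of_goodSyl S hfin

theorem psu_even {K : Type*} [Field K] [Fintype K] (p q : ℕ) [Fact p.Prime] [CharP K p]
    (hK : Fintype.card K = q ^ 2) (l : ℕ) (hl : 2 ≤ l) (S : Sylow p (Cfsg.PSU (2 * l) K q)) :
    (Cfsg.groupFusionSystem (S : Subgroup (Cfsg.PSU (2 * l) K q))).IsSimple p := by
  classical
  obtain ⟨σ, hσq, hσ, ⟨θ, hθ⟩, ⟨ε, hε0, hε⟩, htr, _⟩ := Cfsg.Agent.Lib.Helper23.SuFF.ff_sigma q hK
  obtain ⟨c, c', h1, h2, hc⟩ := Cfsg.Agent.Lib.Helper67.SuWE.witt_even q hK σ hσq l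
  obtain ⟨e⟩ := Cfsg.Agent.Lib.Helper17.SuISOB.su_iso_of_basis q σ hσq (2 * l) (JJ l K) c c' h1 h2
    hc (SuU.GU l K σ) (fun g => Iff.rfl)
  haveI : Finite ↥(SuU.GU l K σ) := inferInstance
  obtain ⟨U, hUp, hS, hg⟩ := su_even_good l K σ hσ hl p ε hε0 hε θ hθ htr
  exact psu_simple_of_good p q hK (2 * l) e U hUp hS hg S

end Cfsg.Agent.Lib.Helper91.SuFin
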