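import Mathlib
import Cfsg.Agent.Lib.Helper91.SuU

set_option autoImplicit false

/-! Foundation (definitions) for the odd-dimensional unitary group `SU_{2l+1}` in a hyperbolic
basis `e_1..e_l, f_1..f_l, o` (index type `(Fin l ⊕ Fin l) ⊕ Unit`), built on the even case
`SuU`.  helper91, for S5172. -/

namespace Cfsg.Agent.Lib.Helper91.SuO

open Matrix Cfsg.Agent.Lib.Helper91.SpU Cfsg.Agent.Lib.Helper91.SuU

variable (l : ℕ) (K : Type*) [Field K] (σ : K →+* K)

/-- index type: `inl (inl i)` is `e_i`, `inl (inr i)` is `f_i`, `inr ()` is the anisotropic `o` -/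
abbrev Io (l : ℕ) : Type := (Fin l ⊕ Fin l) ⊕ Unit

/-- the Gram matrix `[JJ 0; 0 1]` -/
def JJo : Matrix (Io l) (Io l) K := fromBlocks (JJ l K) 0 0 1

/-- the special unitary group of the `σ`-hermitian form with Gram matrix `JJo` -/
def GUo : Subgroup (SpecialLinearGroup (Io l) K) where
  carrier := {g | g.1ᵀ * JJo l K * g.1.map σ = JJo l K}
  mul_mem' := by
    intro g h hg hh
    change (g.1 * h.1)ᵀ * JJo l K * (g.1 * h.1).map σ = JJo l K
    rw [Matrix.transpose_mul, Matrix.map_mul]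
    calc h.1ᵀ * g.1ᵀ * JJo l K * (g.1.map σ * h.1.map σ)
        = h.1ᵀ * (g.1ᵀ * JJo l K * g.1.map σ) * h.1.map σ := by simp only [Matrix.mul_assoc]
      _ = JJo l K := by rw [hg]; exact hh
  one_mem' := by
    change (1 : Matrix (Io l) (Io l) K)ᵀ * JJo l K *
      (1 : Matrix (Io l) (Io l) K).map σ = JJo l K
    rw [Matrix.transpose_one, Matrix.map_one _ (map_zero σ) (map_one σ), Matrix.one_mul,
      Matrix.mul_one]
  inv_mem' := by
    intro g hg
    change (g⁻¹).1ᵀ * JJo l K * (g⁻¹).1.map σ = JJo l K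
    have h1 : (g⁻¹).1ᵀ * g.1ᵀ = 1 := by
      rw [← Matrix.transpose_mul]
      have : g.1 * (g⁻¹).1 = 1 := congrArg Subtype.val (mul_inv_cancel g)
      rw [this, Matrix.transpose_one]
    have h2 : g.1.map σ * (g⁻¹).1.map σ = 1 := by
      rw [← Matrix.map_mul]
      have : g.1 * (g⁻¹).1 = 1 := congrArg Subtype.val (mul_inv_cancel g)
      rw [this, Matrix.map_one _ (map_zero σ) (map_one σ)]
    calc (g⁻¹).1ᵀ * JJo l K * (g⁻¹).1.map σ
        = (g⁻¹).1ᵀ * (g.1ᵀ * JJo l K * g.1.map σ) * (g⁻¹).1.map σ := by rw [hg]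
      _ = ((g⁻¹).1ᵀ * g.1ᵀ) * JJo l K * (g.1.map σ * (g⁻¹).1.map σ) := by
          simp only [Matrix.mul_assoc]
      _ = JJo l K := by rw [h1, h2, Matrix.one_mul, Matrix.mul_one]

theorem mem_GUo_iff (g : SpecialLinearGroup (Io l) K) :
    g ∈ GUo l K σ ↔ g.1ᵀ * JJo l K * g.1.map σ = JJo l K := Iff.rfl

/-- the involution of the index type swapping `e_i` and `f_i` and fixing `o` -/
def ostar : Io l → Io l
  | Sum.inl (Sum.inl i) => Sum.inl (Sum.inr i)
  | Sum.inl (Sum.inr i) => Sum.inl (Sum.inl i)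
  | Sum.inr u => Sum.inr u

/-- the underlying matrix -/
def mato (g : GUo l K σ) : Matrix (Io l) (Io l) K := g.1.1

theorem mato_mul (g h : GUo l K σ) : mato l K σ (g * h) = mato l K σ g * mato l K σ h := rfl

theorem mato_one : mato l K σ (1 : GUo l K σ) = 1 := rfl

theorem mato_ext {g h : GUo l K σ} (e : mato l K σ g = mato l K σ h) : g = h :=
  Subtype.ext (Subtype.ext e)

theorem mato_mem (g : GUo l K σ) :
    (mato l K σ g)ᵀ * JJo l K * (mato l K σ g).map σ = JJo l K := g.2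

theorem mato_det (g : GUo l K σ) : (mato l K σ g).det = 1 := g.1.2

theorem mato_mul_inv (g : GUo l K σ) : mato l K σ g * mato l K σ g⁻¹ = 1 := by
  rw [← mato_mul, mul_inv_cancel, mato_one]

theorem mato_inv_mul (g : GUo l K σ) : mato l K σ g⁻¹ * mato l K σ g = 1 := by
  rw [← mato_mul, inv_mul_cancel, mato_one]

theorem mato_pow (g : GUo l K σ) (n : ℕ) : mato l K σ (g ^ n) = mato l K σ g ^ n := by
  induction n with
  | zero => rw [pow_zero, pow_zero, mato_one]
  | succ n ih => rw [pow_succ, pow_succ, mato_mul, ih]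

/-- the element of `GUo` with underlying matrix `M` (junk value `1` unless `M` is a
determinant-one isometry) -/
noncomputable def ofMat (M : Matrix (Io l) (Io l) K) : GUo l K σ := by
  classical
  exact if h : M.det = 1 ∧ Mᵀ * JJo l K * M.map σ = JJo l K then ⟨⟨M, h.1⟩, h.2⟩ else 1

theorem mato_ofMat (M : Matrix (Io l) (Io l) K) (h1 : M.det = 1)
    (h2 : Mᵀ * JJo l K * M.map σ = JJo l K) : mato l K σ (ofMat l K σ M) = M := by
  unfold ofMat
  rw [dif_pos ⟨h1, h2⟩]
  rfl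

/-- membership predicate of the standard Sylow `p`-subgroup `U'`: in the basis order
`e, o, f` the matrix is block upper triangular `[A a B; 0 1 a'; 0 0 D]`, `A` upper unitriangular -/
def InUo (g : GUo l K σ) : Prop :=
  (mato l K σ g).toBlocks₁₁.toBlocks₂₁ = 0 ∧
  IsUT l K (mato l K σ g).toBlocks₁₁.toBlocks₁₁ ∧
  (∀ j : Fin l, mato l K σ g (Sum.inr ()) (Sum.inl (Sum.inl j)) = 0) ∧
  (∀ i : Fin l, mato l K σ g (Sum.inl (Sum.inr i)) (Sum.inr ()) = 0) ∧
  mato l K σ g (Sum.inr ()) (Sum.inr ()) = 1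

/-- block triangular shape (the Borel subgroup): `g` stabilizes the flag of the `e_i` -/
def InBo (g : GUo l K σ) : Prop :=
  (mato l K σ g).toBlocks₁₁.toBlocks₂₁ = 0 ∧
  (∀ i j : Fin l, j < i → (mato l K σ g).toBlocks₁₁.toBlocks₁₁ i j = 0) ∧
  (∀ j : Fin l, mato l K σ g (Sum.inr ()) (Sum.inl (Sum.inl j)) = 0)

/-- `g` stabilizes the span `E` of the `e_i` -/
def StabE (g : GUo l K σ) : Prop :=
  (mato l K σ g).toBlocks₁₁.toBlocks₂₁ = 0 ∧
  (∀ j : Fin l, mato l K σ g (Sum.inr ()) (Sum.inl (Sum.inl j)) = 0)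

/-- membership predicate of the radical `Q`: `g` fixes every `e_j` -/
def InQ (g : GUo l K σ) : Prop :=
  ∀ (r : Io l) (j : Fin l), mato l K σ g r (Sum.inl (Sum.inl j)) =
    (1 : Matrix (Io l) (Io l) K) r (Sum.inl (Sum.inl j))

/-- membership predicate of the radical `R` of the stabilizer of `e_{i₁}`: `g - 1` is supported
on (row `e_{i₁}`, columns `≠ e_{i₁}`) and (column `f_{i₁}`, rows `≠ f_{i₁}`) -/
def InR (i₁ : Fin l) (g : GUo l K σ) : Prop :=
  ∀ r c : Io l, ¬ (r = Sum.inl (Sum.inl i₁) ∧ c ≠ Sum.inl (Sum.inl i₁)) →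
    ¬ (c = Sum.inl (Sum.inr i₁) ∧ r ≠ Sum.inl (Sum.inr i₁)) →
    mato l K σ g r c = (1 : Matrix (Io l) (Io l) K) r c

/-- `g` fixes `e_{i₁}` and preserves `e_{i₁}^⊥` (row `f_{i₁}` is standard) -/
def FixE (i₁ : Fin l) (g : GUo l K σ) : Prop :=
  (∀ r : Io l, mato l K σ g r (Sum.inl (Sum.inl i₁)) =
    (1 : Matrix (Io l) (Io l) K) r (Sum.inl (Sum.inl i₁))) ∧
  (∀ c : Io l, mato l K σ g (Sum.inl (Sum.inr i₁)) c =
    (1 : Matrix (Io l) (Io l) K) (Sum.inl (Sum.inr i₁)) c)

/-- matrix of the embedding of the even group -/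
def jembM (G : Matrix (Fin l ⊕ Fin l) (Fin l ⊕ Fin l) K) : Matrix (Io l) (Io l) K :=
  fromBlocks G 0 0 1

/-- matrix of the radical element `ρ(a, B)`: `o ↦ o + a`, `f_j ↦ f_j + B e - σ(a_j) o` -/
def urhoM (a : Matrix (Fin l) Unit K) (B : Matrix (Fin l) (Fin l) K) : Matrix (Io l) (Io l) K :=
  fromBlocks (fromBlocks 1 B 0 1) (fromRows a 0) (fromCols 0 (-(a.map σ)ᵀ)) 1

/-- matrix of the opposite radical element -/
def urhoLM (a : Matrix (Fin l) Unit K) (C : Matrix (Fin l) (Fin l) K) : Matrix (Io l) (Io l) K :=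
  fromBlocks (fromBlocks 1 0 C 1) (fromRows 0 a) (fromCols (-(a.map σ)ᵀ) 0) 1

/-- matrix of the torus element `e_{i₀} ↦ t e_{i₀}`, `f_{i₀} ↦ σ(t)⁻¹ f_{i₀}`, `o ↦ (σ t / t) o` -/
def h3M (i₀ : Fin l) (t : K) : Matrix (Io l) (Io l) K :=
  fromBlocks
    (fromBlocks (Matrix.diagonal (fun k => if k = i₀ then t else 1)) 0 0
      (Matrix.diagonal (fun k => if k = i₀ then (σ t)⁻¹ else 1)))
    0 0 (Matrix.diagonal (fun _ => σ t * t⁻¹))

/-- the radical element `ρ(a, B)` (meaningful when `B.map σ = -Bᵀ - a.map σ * aᵀ`) -/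
noncomputable def urho (a : Matrix (Fin l) Unit K) (B : Matrix (Fin l) (Fin l) K) : GUo l K σ :=
  ofMat l K σ (urhoM l K σ a B)

/-- the opposite radical element (meaningful when `C.map σ = -Cᵀ - a.map σ * aᵀ`) -/
noncomputable def urhoL (a : Matrix (Fin l) Unit K) (C : Matrix (Fin l) (Fin l) K) : GUo l K σ :=
  ofMat l K σ (urhoLM l K σ a C)

/-- the root element `Z(a, b)` at index `i₀` (meaningful when `b + σ b + a * σ a = 0`) -/
noncomputable def zu (i₀ : Fin l) (a b : K) : GUo l K σ :=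
  urho l K σ (Matrix.single i₀ () a) (Matrix.single i₀ i₀ b)

/-- the opposite root element `Z⁻(a, b)` at index `i₀` (meaningful when `b + σ b + a * σ a = 0`) -/
noncomputable def zl (i₀ : Fin l) (a b : K) : GUo l K σ :=
  urhoL l K σ (Matrix.single i₀ () a) (Matrix.single i₀ i₀ b)

/-- the embedding of the even group: `g ↦ [g 0; 0 1]` -/
def jemb : GU l K σ →* GUo l K σ where
  toFun g := ⟨⟨fromBlocks (mat l K σ g) 0 0 1, by
      rw [Matrix.det_fromBlocks_zero₂₁, mat_det, Matrix.det_one, one_mul]⟩, by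
    change (fromBlocks (mat l K σ g) 0 0 1)ᵀ * JJo l K * (fromBlocks (mat l K σ g) 0 0 1).map σ =
      JJo l K
    rw [Matrix.fromBlocks_transpose, Matrix.fromBlocks_map, JJo, Matrix.fromBlocks_multiply,
      Matrix.fromBlocks_multiply]
    simp only [Matrix.transpose_zero, Matrix.transpose_one, Matrix.map_zero _ (map_zero σ),
      Matrix.map_one _ (map_zero σ) (map_one σ), Matrix.mul_zero, Matrix.zero_mul, Matrix.mul_one,
      add_zero, zero_add, Matrix.one_mul]
    rw [mat_mem]⟩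
  map_one' := by
    apply mato_ext
    change fromBlocks (mat l K σ 1) 0 0 1 = (1 : Matrix (Io l) (Io l) K)
    rw [mat_one, Matrix.fromBlocks_one]
  map_mul' g h := by
    apply mato_ext
    change fromBlocks (mat l K σ (g * h)) 0 0 1 =
      fromBlocks (mat l K σ g) 0 0 1 * fromBlocks (mat l K σ h) 0 0 1
    rw [Matrix.fromBlocks_multiply, mat_mul]
    simp

theorem jemb_mat (g : GU l K σ) :
    mato l K σ (jemb l K σ g) = fromBlocks (mat l K σ g) 0 0 1 := rfl

theorem jemb_injective : Function.Injective (jemb l K σ) := by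
  intro g h e
  apply mat_ext
  have := congrArg (fun x => (mato l K σ x).toBlocks₁₁) e
  simpa [jemb_mat] using this

theorem jemb_inUo_iff (g : GU l K σ) : InUo l K σ (jemb l K σ g) ↔ InU l K σ g := by
  unfold InUo SuU.InU
  rw [jemb_mat, Matrix.toBlocks_fromBlocks₁₁]
  constructor
  · exact fun h => ⟨h.1, h.2.1⟩
  · intro h
    refine ⟨h.1, h.2, ?_, ?_, ?_⟩
    · intro j; rfl
    · intro i; rfl
    · rfl

end Cfsg.Agent.Lib.Helper91.SuO
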