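import Mathlib
import Cfsg.Agent.Lib.Helper91.SuO

set_option autoImplicit false

/-! S5172 (odd case) piece OSH: shape relations forced by the isometry condition.
(proof by helper30, job 1278) -/

namespace Cfsg.Agent.Lib.Helper91.SuO

open Matrix Cfsg.Agent.Lib.Helper91.SpU Cfsg.Agent.Lib.Helper91.SuU

theorem osh_JJo_apply (l : ℕ) (K : Type*) [Field K] (r s : Io l) :
    JJo l K r s = if r = ostar l s then 1 else 0 := by
  rcases r with ((i | i) | u) <;> rcases s with ((j | j) | v) <;>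
    simp [JJo, JJ, ostar, Matrix.one_apply]

theorem osh_mulJ (l : ℕ) (K : Type*) [Field K] (M : Matrix (Io l) (Io l) K) (r u : Io l) :
    (Mᵀ * JJo l K) r u = M (ostar l u) r := by
  rw [Matrix.mul_apply]
  simp only [osh_JJo_apply, Matrix.transpose_apply, mul_ite, mul_one, mul_zero,
    Finset.sum_ite_eq', Finset.mem_univ, if_true]

/-- the `(r, c)` entry of the isometry condition, expanded over the hyperbolic basis -/
theorem osh_entry (l : ℕ) (K : Type*) [Field K] (σ : K →+* K) (g : GUo l K σ) (r c : Io l) :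
    (∑ i : Fin l, mato l K σ g (Sum.inl (Sum.inl i)) r * σ (mato l K σ g (Sum.inl (Sum.inr i)) c)) +
      (∑ i : Fin l, mato l K σ g (Sum.inl (Sum.inr i)) r *
        σ (mato l K σ g (Sum.inl (Sum.inl i)) c)) +
      mato l K σ g (Sum.inr ()) r * σ (mato l K σ g (Sum.inr ()) c) = JJo l K r c := by
  have h := congrFun (congrFun (mato_mem l K σ g) r) c
  rw [← h, Matrix.mul_apply]
  simp only [osh_mulJ, Matrix.map_apply, Fintype.sum_sum_type, ostar, Finset.univ_unique,
    Finset.sum_singleton]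
  rw [add_comm (∑ i : Fin l, mato l K σ g (Sum.inl (Sum.inl i)) r *
    σ (mato l K σ g (Sum.inl (Sum.inr i)) c))]

theorem stabE_shape (l : ℕ) (K : Type*) [Field K] (σ : K →+* K) (g : GUo l K σ) (hg : StabE l K σ g) :
    (∀ i : Fin l, mato l K σ g (Sum.inl (Sum.inr i)) (Sum.inr ()) = 0) ∧
    (mato l K σ g).toBlocks₁₁.toBlocks₁₁ᵀ * ((mato l K σ g).toBlocks₁₁.toBlocks₂₂).map σ = 1 := by
  obtain ⟨hC, hy⟩ := hg
  have hC' : ∀ i j : Fin l, mato l K σ g (Sum.inl (Sum.inr i)) (Sum.inl (Sum.inl j)) = 0 := by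
    intro i j
    exact congrFun (congrFun hC i) j
  have hAD : (mato l K σ g).toBlocks₁₁.toBlocks₁₁ᵀ *
      ((mato l K σ g).toBlocks₁₁.toBlocks₂₂).map σ = 1 := by
    ext j k
    have h := osh_entry l K σ g (Sum.inl (Sum.inl j)) (Sum.inl (Sum.inr k))
    simp only [hC', hy, zero_mul, Finset.sum_const_zero, add_zero] at h
    rw [Matrix.mul_apply]
    simp only [Matrix.transpose_apply, Matrix.map_apply, Matrix.toBlocks₁₁, Matrix.toBlocks₂₂,
      Matrix.of_apply]
    rw [h]
    simp [JJo, JJ, Matrix.one_apply]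
  refine ⟨?_, hAD⟩
  have hDA : ((mato l K σ g).toBlocks₁₁.toBlocks₂₂).map σ *
      (mato l K σ g).toBlocks₁₁.toBlocks₁₁ᵀ = 1 := mul_eq_one_comm.mp hAD
  have hw : (mato l K σ g).toBlocks₁₁.toBlocks₁₁ᵀ *ᵥ
      (fun i : Fin l => σ (mato l K σ g (Sum.inl (Sum.inr i)) (Sum.inr ()))) = 0 := by
    funext j
    have h := osh_entry l K σ g (Sum.inl (Sum.inl j)) (Sum.inr ())
    simp only [hC', hy, zero_mul, Finset.sum_const_zero, add_zero] at h
    simp only [Matrix.mulVec, dotProduct, Matrix.transpose_apply, Matrix.toBlocks₁₁,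
      Matrix.of_apply, Pi.zero_apply]
    rw [h]
    simp [JJo]
  have hw0 : (fun i : Fin l => σ (mato l K σ g (Sum.inl (Sum.inr i)) (Sum.inr ()))) = 0 := by
    have := congrArg (fun v => ((mato l K σ g).toBlocks₁₁.toBlocks₂₂).map σ *ᵥ v) hw
    simp only [Matrix.mulVec_mulVec, hDA, Matrix.one_mulVec, Matrix.mulVec_zero] at this
    exact this
  intro i
  have h := congrFun hw0 i
  simp only [Pi.zero_apply] at h
  exact (map_eq_zero_iff σ (RingHom.injective σ)).mp h

theorem inUo_row_o (l : ℕ) (K : Type*) [Field K] (σ : K →+* K) (hσ : ∀ x, σ (σ x) = x) (g : GUo l K σ) (hg : InUo l K σ g)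
    (j : Fin l) :
    mato l K σ g (Sum.inr ()) (Sum.inl (Sum.inr j)) =
      -∑ i : Fin l, σ (mato l K σ g (Sum.inl (Sum.inl i)) (Sum.inr ())) *
        (mato l K σ g).toBlocks₁₁.toBlocks₂₂ i j := by
  obtain ⟨-, -, -, hx, hd⟩ := hg
  have h := osh_entry l K σ g (Sum.inr ()) (Sum.inl (Sum.inr j))
  simp only [hx, hd, zero_mul, Finset.sum_const_zero, add_zero, one_mul] at h
  have hJ : JJo l K (Sum.inr ()) (Sum.inl (Sum.inr j)) = 0 := by simp [JJo]
  rw [hJ] at h
  have h2 : σ (mato l K σ g (Sum.inr ()) (Sum.inl (Sum.inr j))) =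
      -∑ i : Fin l, mato l K σ g (Sum.inl (Sum.inl i)) (Sum.inr ()) *
        σ (mato l K σ g (Sum.inl (Sum.inr i)) (Sum.inl (Sum.inr j))) := by
    linear_combination h
  have h3 := congrArg σ h2
  rw [hσ] at h3
  rw [h3, map_neg, map_sum]
  congr 1
  apply Finset.sum_congr rfl
  intro i _
  rw [map_mul, hσ]
  rfl

end Cfsg.Agent.Lib.Helper91.SuO
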