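import Mathlib
import Cfsg.Agent.Lib.Helper91.SuO
import Cfsg.Agent.Lib.Helper91.SuOOSH

set_option autoImplicit false

/-! S5172 (odd case) piece ODET: `StabE` + unitriangular `A` implies `InUo`.
(proof by helper30, job 1280) -/

namespace Cfsg.Agent.Lib.Helper91.SuO

open Matrix Cfsg.Agent.Lib.Helper91.SpU Cfsg.Agent.Lib.Helper91.SuU

theorem inUo_of_stabE (l : ℕ) (K : Type*) [Field K] (σ : K →+* K) (g : GUo l K σ) (h1 : StabE l K σ g)
    (h2 : IsUT l K (mato l K σ g).toBlocks₁₁.toBlocks₁₁) : InUo l K σ g := by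
  obtain ⟨hx, hAD⟩ := stabE_shape l K σ g h1
  refine ⟨h1.1, h2, h1.2, hx, ?_⟩
  have hC : ∀ i j : Fin l, mato l K σ g (Sum.inl (Sum.inr i)) (Sum.inl (Sum.inl j)) = 0 := by
    intro i j
    exact congrFun (congrFun h1.1 i) j
  have hy := h1.2
  have hdetA : (mato l K σ g).toBlocks₁₁.toBlocks₁₁.det = 1 := by
    have hbt : ((mato l K σ g).toBlocks₁₁.toBlocks₁₁).BlockTriangular id :=
      fun i j hji => h2.1 i j hji
    rw [Matrix.det_of_upperTriangular hbt]
    exact Finset.prod_eq_one (fun i _ => h2.2 i)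
  have hdetD : (mato l K σ g).toBlocks₁₁.toBlocks₂₂.det = 1 := by
    have h := congrArg Matrix.det hAD
    rw [Matrix.det_mul, Matrix.det_transpose, hdetA, one_mul, Matrix.det_one] at h
    have h' : σ ((mato l K σ g).toBlocks₁₁.toBlocks₂₂.det) = 1 := by
      rw [RingHom.map_det]
      exact h
    exact RingHom.injective σ (h'.trans (map_one σ).symm)
  have hN : (mato l K σ g).det =
      ((mato l K σ g).submatrix (Equiv.sumAssoc (Fin l) (Fin l) Unit).symm
        (Equiv.sumAssoc (Fin l) (Fin l) Unit).symm).det :=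
    (Matrix.det_submatrix_equiv_self (Equiv.sumAssoc (Fin l) (Fin l) Unit).symm
      (mato l K σ g)).symm
  have hN2 : (mato l K σ g).submatrix (Equiv.sumAssoc (Fin l) (Fin l) Unit).symm
        (Equiv.sumAssoc (Fin l) (Fin l) Unit).symm =
      fromBlocks (mato l K σ g).toBlocks₁₁.toBlocks₁₁
        (Matrix.of fun (i : Fin l) (c : Fin l ⊕ Unit) =>
          mato l K σ g (Sum.inl (Sum.inl i)) ((Equiv.sumAssoc (Fin l) (Fin l) Unit).symm (Sum.inr c)))
        0
        (fromBlocks (mato l K σ g).toBlocks₁₁.toBlocks₂₂ 0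
          (Matrix.of fun (_ : Unit) (j : Fin l) => mato l K σ g (Sum.inr ()) (Sum.inl (Sum.inr j)))
          (Matrix.of fun (_ _ : Unit) => mato l K σ g (Sum.inr ()) (Sum.inr ()))) := by
    ext (i | (i | i)) (j | (j | j)) <;>
      simp [Matrix.toBlocks₁₁, Matrix.toBlocks₂₂, hC, hy, hx]
  have hd := mato_det l K σ g
  rw [hN, hN2, Matrix.det_fromBlocks_zero₂₁, Matrix.det_fromBlocks_zero₁₂, hdetA, hdetD,
    Matrix.det_unique, one_mul, one_mul] at hd
  exact hd

end Cfsg.Agent.Lib.Helper91.SuO
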