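import Mathlib
import Cfsg.Agent.Lib.Helper91.SuO

set_option autoImplicit false

/-! S5172 (odd case) piece OINV: the inverse of an isometry is its `JJo`-adjoint.
(proof by helper30, job 1274) -/

namespace Cfsg.Agent.Lib.Helper91.SuO

open Matrix Cfsg.Agent.Lib.Helper91.SpU Cfsg.Agent.Lib.Helper91.SuU

theorem oinv_JJo_map (l : ℕ) (K : Type*) [Field K] (σ : K →+* K) :
    (JJo l K).map σ = JJo l K := by
  unfold JJo JJ
  rw [Matrix.fromBlocks_map, Matrix.fromBlocks_map]
  simp only [Matrix.map_zero _ (map_zero σ), Matrix.map_one _ (map_zero σ) (map_one σ)]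

theorem oinv_JJo_mul_self (l : ℕ) (K : Type*) [Field K] : JJo l K * JJo l K = 1 := by
  unfold JJo JJ
  rw [Matrix.fromBlocks_multiply, Matrix.fromBlocks_multiply]
  simp only [Matrix.mul_zero, Matrix.zero_mul, Matrix.mul_one, add_zero, zero_add,
    Matrix.fromBlocks_one]

theorem oinv_JJo_apply (l : ℕ) (K : Type*) [Field K] (r s : Io l) :
    JJo l K r s = if s = ostar l r then 1 else 0 := by
  rcases r with ((i | i) | u) <;> rcases s with ((j | j) | v) <;>
    simp [JJo, JJ, ostar, Matrix.one_apply, eq_comm]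

theorem oinv_JJo_apply' (l : ℕ) (K : Type*) [Field K] (r s : Io l) :
    JJo l K r s = if r = ostar l s then 1 else 0 := by
  rcases r with ((i | i) | u) <;> rcases s with ((j | j) | v) <;>
    simp [JJo, JJ, ostar, Matrix.one_apply]

theorem mato_inv (l : ℕ) (K : Type*) [Field K] (σ : K →+* K) (hσ : ∀ x, σ (σ x) = x) (g : GUo l K σ) :
    mato l K σ g⁻¹ = JJo l K * ((mato l K σ g).map σ)ᵀ * JJo l K := by
  have h1 := congrArg (fun M : Matrix (Io l) (Io l) K => M.map σ) (mato_mem l K σ g)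
  simp only [Matrix.map_mul, oinv_JJo_map] at h1
  have h2 : ((mato l K σ g).map σ).map σ = mato l K σ g := by
    ext i j
    simp only [Matrix.map_apply]
    exact hσ _
  rw [h2] at h1
  have h3 : (mato l K σ g)ᵀ.map σ = ((mato l K σ g).map σ)ᵀ := rfl
  rw [h3] at h1
  have h4 : JJo l K * ((mato l K σ g).map σ)ᵀ * JJo l K * mato l K σ g = 1 := by
    calc JJo l K * ((mato l K σ g).map σ)ᵀ * JJo l K * mato l K σ g
        = JJo l K * (((mato l K σ g).map σ)ᵀ * JJo l K * mato l K σ g) := by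
          simp only [Matrix.mul_assoc]
      _ = 1 := by rw [h1, oinv_JJo_mul_self]
  calc mato l K σ g⁻¹ = 1 * mato l K σ g⁻¹ := (Matrix.one_mul _).symm
    _ = JJo l K * ((mato l K σ g).map σ)ᵀ * JJo l K * (mato l K σ g * mato l K σ g⁻¹) := by
        rw [← h4]; simp only [Matrix.mul_assoc]
    _ = JJo l K * ((mato l K σ g).map σ)ᵀ * JJo l K := by
        rw [mato_mul_inv, Matrix.mul_one]

theorem mato_inv_apply (l : ℕ) (K : Type*) [Field K] (σ : K →+* K) (hσ : ∀ x, σ (σ x) = x) (g : GUo l K σ) (r c : Io l) :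
    mato l K σ g⁻¹ r c = σ (mato l K σ g (ostar l c) (ostar l r)) := by
  rw [mato_inv l K σ hσ g, Matrix.mul_apply]
  simp only [Matrix.mul_apply, oinv_JJo_apply l K r, oinv_JJo_apply' l K _ c, ite_mul, one_mul,
    zero_mul, mul_ite, mul_one, mul_zero, Finset.sum_ite_eq', Finset.mem_univ,
    if_true, Matrix.transpose_apply, Matrix.map_apply]

end Cfsg.Agent.Lib.Helper91.SuO
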