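import Mathlib
import Cfsg.Agent.Lib.Helper91.SuO

set_option autoImplicit false

/-! S5172 (odd case) piece OJ: an isometry of block shape `[G 0; 0 1]` is in the image of `jemb`.
(proof by helper30, job 1276) -/

namespace Cfsg.Agent.Lib.Helper91.SuO

open Matrix Cfsg.Agent.Lib.Helper91.SpU Cfsg.Agent.Lib.Helper91.SuU

theorem eq_jemb_of_blocks (l : ℕ) (K : Type*) [Field K] (σ : K →+* K) (g : GUo l K σ)
    (hx : (mato l K σ g).toBlocks₁₂ = 0) (hy : (mato l K σ g).toBlocks₂₁ = 0)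
    (hd : (mato l K σ g).toBlocks₂₂ = 1) : ∃ g' : GU l K σ, g = jemb l K σ g' := by
  have hM : mato l K σ g = fromBlocks (mato l K σ g).toBlocks₁₁ 0 0 1 := by
    conv_lhs => rw [← Matrix.fromBlocks_toBlocks (mato l K σ g)]
    rw [hx, hy, hd]
  have hdet : ((mato l K σ g).toBlocks₁₁).det = 1 := by
    have h := mato_det l K σ g
    rw [hM, Matrix.det_fromBlocks_zero₂₁, Matrix.det_one, mul_one] at h
    exact h
  have hiso : ((mato l K σ g).toBlocks₁₁)ᵀ * JJ l K * ((mato l K σ g).toBlocks₁₁).map σ =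
      JJ l K := by
    have h := mato_mem l K σ g
    rw [hM, Matrix.fromBlocks_transpose, Matrix.fromBlocks_map, JJo, Matrix.fromBlocks_multiply,
      Matrix.fromBlocks_multiply] at h
    have h' := congrArg Matrix.toBlocks₁₁ h
    rw [Matrix.toBlocks_fromBlocks₁₁, Matrix.toBlocks_fromBlocks₁₁] at h'
    simpa only [Matrix.transpose_zero, Matrix.map_zero _ (map_zero σ), Matrix.mul_zero,
      Matrix.zero_mul, add_zero] using h'
  refine ⟨⟨⟨(mato l K σ g).toBlocks₁₁, hdet⟩, hiso⟩, ?_⟩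
  apply mato_ext
  rw [jemb_mat]
  exact hM

end Cfsg.Agent.Lib.Helper91.SuO
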