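import Mathlib
import Cfsg.Agent.Lib.Helper91.SuO

set_option autoImplicit false
set_option linter.unusedSimpArgs false

/-! S5172 (odd case) piece OM1 (filled by helper12): matrices of the radical elements
`urho` / `urhoL`. -/

namespace Cfsg.Agent.Lib.Helper91.SuO

open Matrix Cfsg.Agent.Lib.Helper91.SpU Cfsg.Agent.Lib.Helper91.SuU

theorem om1_urho_det (l : ℕ) (K : Type*) [Field K] (σ : K →+* K)
    (a : Matrix (Fin l) Unit K) (B : Matrix (Fin l) (Fin l) K) :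
    (urhoM l K σ a B).det = 1 := by
  unfold urhoM
  rw [Matrix.det_fromBlocks_one₂₂, Matrix.fromRows_mul_fromCols]
  simp only [Matrix.mul_zero, Matrix.zero_mul]
  have h : (fromBlocks 1 B 0 1 - fromBlocks 0 (a * -(a.map σ)ᵀ) 0 0 :
      Matrix (Fin l ⊕ Fin l) (Fin l ⊕ Fin l) K) =
      fromBlocks 1 (B - a * -(a.map σ)ᵀ) 0 1 := by
    ext (i | i) (j | j) <;> simp
  rw [h, Matrix.det_fromBlocks_zero₂₁]
  simp

theorem om1_urho_isom (l : ℕ) (K : Type*) [Field K] (σ : K →+* K) (hσ : ∀ x, σ (σ x) = x)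
    (a : Matrix (Fin l) Unit K) (B : Matrix (Fin l) (Fin l) K)
    (hB : B.map σ = -Bᵀ - a.map σ * aᵀ) :
    (urhoM l K σ a B)ᵀ * JJo l K * (urhoM l K σ a B).map σ = JJo l K := by
  have h1 : (-(a.map σ)ᵀ).map σ = -aᵀ := by
    ext i j
    simp [hσ]
  have h2 : (fromRows (0 : Matrix (Fin l) Unit K) (a.map σ) + fromRows 0 (-a.map σ)) = 0 := by
    ext (i | i) j <;> simp
  have h3 : (fromCols (0 : Matrix Unit (Fin l) K) aᵀ + fromCols 0 (-aᵀ)) = 0 := by
    ext i (j | j) <;> simp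
  have h4 : (fromBlocks 0 1 1 (B.map σ + Bᵀ) + fromBlocks 0 0 0 (-a.map σ * -aᵀ) :
      Matrix (Fin l ⊕ Fin l) (Fin l ⊕ Fin l) K) = fromBlocks 0 1 1 0 := by
    rw [Matrix.fromBlocks_add, hB]
    congr 1
    · simp
    · simp
    · simp
    · rw [Matrix.neg_mul, Matrix.mul_neg, neg_neg]
      abel
  unfold urhoM JJo JJ
  simp only [Matrix.fromBlocks_transpose, Matrix.fromBlocks_map, Matrix.fromBlocks_multiply,
    Matrix.transpose_fromRows, Matrix.transpose_fromCols, Matrix.fromRows_map, Matrix.fromCols_map,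
    Matrix.transpose_zero, Matrix.transpose_one, Matrix.map_zero _ (map_zero σ),
      Matrix.map_one _ (map_zero σ) (map_one σ), Matrix.mul_zero, Matrix.zero_mul, Matrix.mul_one,
      add_zero, zero_add, Matrix.one_mul, Matrix.fromRows_mul_fromCols, Matrix.fromCols_mul_fromRows,
      Matrix.fromCols_mul_fromBlocks, Matrix.fromBlocks_mul_fromRows, Matrix.transpose_neg, Matrix.transpose_transpose]
  rw [h1, h2, h3, h4]

theorem om1_urhoL_det (l : ℕ) (K : Type*) [Field K] (σ : K →+* K)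
    (a : Matrix (Fin l) Unit K) (C : Matrix (Fin l) (Fin l) K) :
    (urhoLM l K σ a C).det = 1 := by
  unfold urhoLM
  rw [Matrix.det_fromBlocks_one₂₂, Matrix.fromRows_mul_fromCols]
  simp only [Matrix.mul_zero, Matrix.zero_mul]
  have h : (fromBlocks 1 0 C 1 - fromBlocks 0 0 (a * -(a.map σ)ᵀ) 0 :
      Matrix (Fin l ⊕ Fin l) (Fin l ⊕ Fin l) K) =
      fromBlocks 1 0 (C - a * -(a.map σ)ᵀ) 1 := by
    ext (i | i) (j | j) <;> simp
  rw [h, Matrix.det_fromBlocks_zero₁₂]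
  simp

theorem om1_urhoL_isom (l : ℕ) (K : Type*) [Field K] (σ : K →+* K) (hσ : ∀ x, σ (σ x) = x)
    (a : Matrix (Fin l) Unit K) (C : Matrix (Fin l) (Fin l) K)
    (hC : C.map σ = -Cᵀ - a.map σ * aᵀ) :
    (urhoLM l K σ a C)ᵀ * JJo l K * (urhoLM l K σ a C).map σ = JJo l K := by
  have h1 : (-(a.map σ)ᵀ).map σ = -aᵀ := by
    ext i j
    simp [hσ]
  unfold urhoLM JJo JJ
  simp only [Matrix.fromBlocks_transpose, Matrix.fromBlocks_map, Matrix.fromBlocks_multiply,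
    Matrix.transpose_fromRows, Matrix.transpose_fromCols, Matrix.fromRows_map, Matrix.fromCols_map,
    Matrix.transpose_zero, Matrix.transpose_one, Matrix.map_zero _ (map_zero σ),
      Matrix.map_one _ (map_zero σ) (map_one σ), Matrix.mul_zero, Matrix.zero_mul, Matrix.mul_one,
      add_zero, zero_add, Matrix.one_mul, Matrix.fromRows_mul_fromCols, Matrix.fromCols_mul_fromRows,
      Matrix.fromCols_mul_fromBlocks, Matrix.fromBlocks_mul_fromRows, Matrix.transpose_neg, Matrix.transpose_transpose]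
  have h2 : (fromRows (a.map σ) (0 : Matrix (Fin l) Unit K) + fromRows (-a.map σ) 0) = 0 := by
    ext (i | i) j <;> simp
  have h3 : (fromCols aᵀ (0 : Matrix Unit (Fin l) K) + fromCols (-aᵀ) 0) = 0 := by
    ext i (j | j) <;> simp
  have h4 : (fromBlocks (Cᵀ + C.map σ) 1 1 0 + fromBlocks (-a.map σ * -aᵀ) 0 0 0 :
      Matrix (Fin l ⊕ Fin l) (Fin l ⊕ Fin l) K) = fromBlocks 0 1 1 0 := by
    rw [Matrix.fromBlocks_add, hC]
    congr 1
    · rw [Matrix.neg_mul, Matrix.mul_neg, neg_neg]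
      abel
    · simp
    · simp
    · simp
  rw [h1, h2, h3, h4]

theorem urho_mat (l : ℕ) (K : Type*) [Field K] (σ : K →+* K) (hσ : ∀ x, σ (σ x) = x)
    (a : Matrix (Fin l) Unit K) (B : Matrix (Fin l) (Fin l) K)
    (hB : B.map σ = -Bᵀ - a.map σ * aᵀ) :
    mato l K σ (urho l K σ a B) = urhoM l K σ a B :=
  mato_ofMat l K σ _ (om1_urho_det l K σ a B) (om1_urho_isom l K σ hσ a B hB)

theorem urhoL_mat (l : ℕ) (K : Type*) [Field K] (σ : K →+* K) (hσ : ∀ x, σ (σ x) = x)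
    (a : Matrix (Fin l) Unit K) (C : Matrix (Fin l) (Fin l) K)
    (hC : C.map σ = -Cᵀ - a.map σ * aᵀ) :
    mato l K σ (urhoL l K σ a C) = urhoLM l K σ a C :=
  mato_ofMat l K σ _ (om1_urhoL_det l K σ a C) (om1_urhoL_isom l K σ hσ a C hC)

theorem urho_inUo (l : ℕ) (K : Type*) [Field K] (σ : K →+* K) (hσ : ∀ x, σ (σ x) = x)
    (a : Matrix (Fin l) Unit K) (B : Matrix (Fin l) (Fin l) K)
    (hB : B.map σ = -Bᵀ - a.map σ * aᵀ) : InUo l K σ (urho l K σ a B) := by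
  unfold InUo
  rw [urho_mat l K σ hσ a B hB]
  unfold urhoM
  refine ⟨?_, ?_, ?_, ?_, ?_⟩
  · simp
  · rw [Matrix.toBlocks_fromBlocks₁₁, Matrix.toBlocks_fromBlocks₁₁]
    exact ⟨fun i j hji => Matrix.one_apply_ne (ne_of_gt hji), fun i => Matrix.one_apply_eq i⟩
  · intro j
    simp
  · intro i
    simp
  · simp

theorem urho_inQ (l : ℕ) (K : Type*) [Field K] (σ : K →+* K) (hσ : ∀ x, σ (σ x) = x)
    (a : Matrix (Fin l) Unit K) (B : Matrix (Fin l) (Fin l) K)
    (hB : B.map σ = -Bᵀ - a.map σ * aᵀ) : InQ l K σ (urho l K σ a B) := by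
  unfold InQ
  rw [urho_mat l K σ hσ a B hB]
  unfold urhoM
  rintro ((i | i) | ⟨⟩) j
  · simp [Matrix.one_apply]
  · simp [Matrix.one_apply]
  · simp [Matrix.one_apply]

theorem urho_apply_o (l : ℕ) (K : Type*) [Field K] (σ : K →+* K) (hσ : ∀ x, σ (σ x) = x)
    (a : Matrix (Fin l) Unit K) (B : Matrix (Fin l) (Fin l) K)
    (hB : B.map σ = -Bᵀ - a.map σ * aᵀ) (i : Fin l) :
    mato l K σ (urho l K σ a B) (Sum.inl (Sum.inl i)) (Sum.inr ()) = a i () := by
  rw [urho_mat l K σ hσ a B hB]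
  unfold urhoM
  simp

end Cfsg.Agent.Lib.Helper91.SuO
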