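import Mathlib
import Cfsg.Agent.Lib.Helper91.SuO

set_option autoImplicit false

/-! S5172 (odd case) piece OM2: the torus element `h3M` is a determinant-one isometry.
(proof by helper30, job 1269) -/

namespace Cfsg.Agent.Lib.Helper91.SuO

open Matrix Cfsg.Agent.Lib.Helper91.SpU Cfsg.Agent.Lib.Helper91.SuU

theorem h3_mat (l : ℕ) (K : Type*) [Field K] (σ : K →+* K) (hσ : ∀ x, σ (σ x) = x) (i₀ : Fin l) (t : K) (ht : t ≠ 0) :
    mato l K σ (ofMat l K σ (h3M l K σ i₀ t)) = h3M l K σ i₀ t := by
  have hst : σ t ≠ 0 := by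
    intro h
    apply ht
    rw [← hσ t, h, map_zero]
  apply mato_ofMat
  · unfold h3M
    rw [Matrix.det_fromBlocks_zero₂₁, Matrix.det_fromBlocks_zero₂₁, Matrix.det_diagonal,
      Matrix.det_diagonal, Matrix.det_diagonal, Finset.prod_ite_eq', Finset.prod_ite_eq']
    simp only [Finset.mem_univ, if_true, Finset.univ_unique, Finset.prod_singleton]
    field_simp
  · unfold h3M JJo JJ
    rw [Matrix.fromBlocks_transpose, Matrix.fromBlocks_transpose, Matrix.fromBlocks_map,
      Matrix.fromBlocks_map, Matrix.fromBlocks_multiply, Matrix.fromBlocks_multiply]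
    simp only [Matrix.transpose_zero, Matrix.map_zero _ (map_zero σ), Matrix.mul_zero,
      Matrix.zero_mul, Matrix.mul_one, Matrix.one_mul, add_zero, zero_add,
      Matrix.diagonal_transpose, Matrix.diagonal_map (map_zero σ), Matrix.diagonal_mul_diagonal,
      Matrix.fromBlocks_multiply]
    have e1 : (Matrix.diagonal fun i : Fin l =>
        (if i = i₀ then t else 1) * σ (if i = i₀ then (σ t)⁻¹ else 1)) = 1 := by
      rw [← Matrix.diagonal_one]
      congr 1
      funext i
      by_cases h : i = i₀
      · rw [if_pos h, if_pos h, map_inv₀, hσ, mul_inv_cancel₀ ht]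
      · rw [if_neg h, if_neg h, map_one, one_mul]
    have e2 : (Matrix.diagonal fun i : Fin l =>
        (if i = i₀ then (σ t)⁻¹ else 1) * σ (if i = i₀ then t else 1)) = 1 := by
      rw [← Matrix.diagonal_one]
      congr 1
      funext i
      by_cases h : i = i₀
      · rw [if_pos h, if_pos h, inv_mul_cancel₀ hst]
      · rw [if_neg h, if_neg h, map_one, one_mul]
    have e3 : (Matrix.diagonal fun _ : Unit => σ t * t⁻¹ * σ (σ t * t⁻¹)) = 1 := by
      rw [← Matrix.diagonal_one]
      congr 1
      funext i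
      rw [map_mul, map_inv₀, hσ]
      field_simp
    rw [e1, e2, e3]

end Cfsg.Agent.Lib.Helper91.SuO
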