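import Mathlib
import Cfsg.Agent.Lib.Helper91.SuO
import Cfsg.Agent.Lib.Helper91.SuOOM1

set_option autoImplicit false

/-! S5172 (odd case) piece OM3: validity condition and matrices of the rank-one root elements. -/

namespace Cfsg.Agent.Lib.Helper91.SuO

open Matrix Cfsg.Agent.Lib.Helper91.SpU Cfsg.Agent.Lib.Helper91.SuU

theorem zcond (l : ℕ) (K : Type*) [Field K] (σ : K →+* K) (i₀ : Fin l) (a b : K) (h : b + σ b + a * σ a = 0) :
    (Matrix.single i₀ i₀ b).map σ = -(Matrix.single i₀ i₀ b)ᵀ -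
      (Matrix.single i₀ () a : Matrix (Fin l) Unit K).map σ *
        (Matrix.single i₀ () a : Matrix (Fin l) Unit K)ᵀ := by
  have hσb : σ b = -b - σ a * a := by linear_combination h
  ext i j
  simp only [Matrix.map_apply, Matrix.sub_apply, Matrix.neg_apply, Matrix.transpose_apply,
    Matrix.mul_apply, Matrix.single_apply, Finset.univ_unique, Finset.sum_singleton]
  by_cases hi : i₀ = i
  · by_cases hj : i₀ = j
    · subst hi
      subst hj
      simp [hσb]
    · subst hi
      simp [hj]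
  · simp [hi]

theorem zu_mat (l : ℕ) (K : Type*) [Field K] (σ : K →+* K) (hσ : ∀ x, σ (σ x) = x) (i₀ : Fin l) (a b : K) (h : b + σ b + a * σ a = 0) :
    mato l K σ (zu l K σ i₀ a b) =
      urhoM l K σ (Matrix.single i₀ () a) (Matrix.single i₀ i₀ b) := by
  unfold zu
  exact urho_mat l K σ hσ _ _ (zcond l K σ i₀ a b h)

theorem zl_mat (l : ℕ) (K : Type*) [Field K] (σ : K →+* K) (hσ : ∀ x, σ (σ x) = x) (i₀ : Fin l) (a b : K) (h : b + σ b + a * σ a = 0) :
    mato l K σ (zl l K σ i₀ a b) =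
      urhoLM l K σ (Matrix.single i₀ () a) (Matrix.single i₀ i₀ b) := by
  unfold zl
  exact urhoL_mat l K σ hσ _ _ (zcond l K σ i₀ a b h)

theorem zu_inUo (l : ℕ) (K : Type*) [Field K] (σ : K →+* K) (hσ : ∀ x, σ (σ x) = x) (i₀ : Fin l) (a b : K) (h : b + σ b + a * σ a = 0) :
    InUo l K σ (zu l K σ i₀ a b) := by
  unfold zu
  exact urho_inUo l K σ hσ _ _ (zcond l K σ i₀ a b h)

end Cfsg.Agent.Lib.Helper91.SuO
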