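import Mathlib
import Cfsg.Agent.Lib.Helper91.SuO
import Cfsg.Agent.Lib.Helper91.SuOOM1

set_option autoImplicit false

/-! S5172 (odd case) piece OM4: algebra of the radical elements `urho`. -/

namespace Cfsg.Agent.Lib.Helper91.SuO

open Matrix Cfsg.Agent.Lib.Helper91.SpU Cfsg.Agent.Lib.Helper91.SuU

namespace OM4aux

variable {l : ℕ} {K : Type*} [Field K] (σ : K →+* K)

theorem map_map_self (hσ : ∀ x, σ (σ x) = x) {m n : Type*} (X : Matrix m n K) :
    (X.map σ).map σ = X := by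
  ext i j
  simp [hσ]

/-- the product of two radical matrices -/
theorem urhoM_mul (a c : Matrix (Fin l) Unit K) (B C : Matrix (Fin l) (Fin l) K) :
    urhoM l K σ a B * urhoM l K σ c C = urhoM l K σ (a + c) (B + C - a * (c.map σ)ᵀ) := by
  unfold urhoM
  rw [Matrix.fromBlocks_multiply, Matrix.fromRows_mul_fromCols, Matrix.fromBlocks_mul_fromRows,
    Matrix.fromCols_mul_fromBlocks, Matrix.fromCols_mul_fromRows, Matrix.fromBlocks_multiply,
    Matrix.fromBlocks_add]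
  simp only [Matrix.mul_zero, Matrix.zero_mul, Matrix.mul_one, Matrix.one_mul, add_zero, zero_add,
    Matrix.mul_neg, Matrix.map_add (f := σ) (map_add σ), Matrix.transpose_add, neg_add]
  congr 1
  · congr 1
    · abel
    · simp
  · ext (i | i) j <;> simp [add_comm]
  · ext i (j | j) <;> simp

theorem urhoM_zero : urhoM l K σ 0 0 = 1 := by
  unfold urhoM
  rw [Matrix.map_zero _ (map_zero σ), Matrix.transpose_zero, neg_zero, Matrix.fromRows_zero,
    Matrix.fromCols_zero, Matrix.fromBlocks_one, Matrix.fromBlocks_one]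

theorem valid_zero :
    (0 : Matrix (Fin l) (Fin l) K).map σ
      = -(0 : Matrix (Fin l) (Fin l) K)ᵀ - (0 : Matrix (Fin l) Unit K).map σ *
        (0 : Matrix (Fin l) Unit K)ᵀ := by
  rw [Matrix.map_zero _ (map_zero σ), Matrix.transpose_zero, Matrix.transpose_zero, neg_zero,
    Matrix.mul_zero, sub_zero]

theorem valid_mul (hσ : ∀ x, σ (σ x) = x) {a c : Matrix (Fin l) Unit K}
    {B C : Matrix (Fin l) (Fin l) K} (hB : B.map σ = -Bᵀ - a.map σ * aᵀ)
    (hC : C.map σ = -Cᵀ - c.map σ * cᵀ) :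
    (B + C - a * (c.map σ)ᵀ).map σ
      = -(B + C - a * (c.map σ)ᵀ)ᵀ - (a + c).map σ * (a + c)ᵀ := by
  rw [Matrix.map_sub (f := σ) (map_sub σ), Matrix.map_add (f := σ) (map_add σ), Matrix.map_mul,
    hB, hC, Matrix.transpose_map, map_map_self σ hσ, Matrix.map_add (f := σ) (map_add σ),
    Matrix.transpose_sub, Matrix.transpose_add, Matrix.transpose_mul, Matrix.transpose_add,
    Matrix.transpose_transpose]
  simp only [Matrix.add_mul, Matrix.mul_add]
  abel

end OM4aux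

open OM4aux

theorem urho_zero (l : ℕ) (K : Type*) [Field K] (σ : K →+* K) (hσ : ∀ x, σ (σ x) = x) : urho l K σ 0 0 = 1 := by
  apply mato_ext
  rw [urho_mat l K σ hσ 0 0 (valid_zero σ), mato_one, urhoM_zero]

theorem urho_mul_ex (l : ℕ) (K : Type*) [Field K] (σ : K →+* K) (hσ : ∀ x, σ (σ x) = x)
    (a : Matrix (Fin l) Unit K) (B : Matrix (Fin l) (Fin l) K) (hB : B.map σ = -Bᵀ - a.map σ * aᵀ)
    (c : Matrix (Fin l) Unit K) (C : Matrix (Fin l) (Fin l) K) (hC : C.map σ = -Cᵀ - c.map σ * cᵀ) :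
    ∃ B' : Matrix (Fin l) (Fin l) K, B'.map σ = -B'ᵀ - (a + c).map σ * (a + c)ᵀ ∧
      urho l K σ a B * urho l K σ c C = urho l K σ (a + c) B' := by
  refine ⟨B + C - a * (c.map σ)ᵀ, valid_mul σ hσ hB hC, ?_⟩
  apply mato_ext
  rw [mato_mul, urho_mat l K σ hσ a B hB, urho_mat l K σ hσ c C hC,
    urho_mat l K σ hσ _ _ (valid_mul σ hσ hB hC), urhoM_mul]

theorem urho_inv_ex (l : ℕ) (K : Type*) [Field K] (σ : K →+* K) (hσ : ∀ x, σ (σ x) = x)
    (a : Matrix (Fin l) Unit K) (B : Matrix (Fin l) (Fin l) K) (hB : B.map σ = -Bᵀ - a.map σ * aᵀ) :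
    ∃ B' : Matrix (Fin l) (Fin l) K, B'.map σ = -B'ᵀ - (-a).map σ * (-a)ᵀ ∧
      (urho l K σ a B)⁻¹ = urho l K σ (-a) B' := by
  have hval : (-B - a * (a.map σ)ᵀ).map σ
      = -(-B - a * (a.map σ)ᵀ)ᵀ - (-a).map σ * (-a)ᵀ := by
    rw [Matrix.map_sub (f := σ) (map_sub σ), Matrix.map_neg (f := σ) (map_neg σ), Matrix.map_mul,
      hB, Matrix.transpose_map, map_map_self σ hσ, Matrix.map_neg (f := σ) (map_neg σ),
      Matrix.transpose_sub, Matrix.transpose_neg, Matrix.transpose_mul, Matrix.transpose_neg,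
      Matrix.transpose_transpose]
    simp only [Matrix.neg_mul, Matrix.mul_neg, neg_neg]
  refine ⟨-B - a * (a.map σ)ᵀ, hval, ?_⟩
  apply inv_eq_of_mul_eq_one_right
  apply mato_ext
  rw [mato_mul, urho_mat l K σ hσ a B hB, urho_mat l K σ hσ _ _ hval, urhoM_mul, mato_one]
  have e1 : a + -a = 0 := add_neg_cancel a
  have e2 : B + (-B - a * (a.map σ)ᵀ) - a * ((-a).map σ)ᵀ = 0 := by
    rw [Matrix.map_neg (f := σ) (map_neg σ), Matrix.transpose_neg, Matrix.mul_neg]
    abel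
  rw [e1, e2, urhoM_zero]

theorem jemb_conj_urho_ex (l : ℕ) (K : Type*) [Field K] (σ : K →+* K) (hσ : ∀ x, σ (σ x) = x)
    (s : SpecialLinearGroup (Fin l) K)
    (a : Matrix (Fin l) Unit K) (B : Matrix (Fin l) (Fin l) K) (hB : B.map σ = -Bᵀ - a.map σ * aᵀ) :
    ∃ B' : Matrix (Fin l) (Fin l) K,
      B'.map σ = -B'ᵀ - ((s : Matrix (Fin l) (Fin l) K) * a).map σ *
        ((s : Matrix (Fin l) (Fin l) K) * a)ᵀ ∧
      jemb l K σ (uphi l K σ hσ s) * urho l K σ a B * (jemb l K σ (uphi l K σ hσ s))⁻¹ =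
        urho l K σ ((s : Matrix (Fin l) (Fin l) K) * a) B' := by
  have hval : ((s : Matrix (Fin l) (Fin l) K) * B * ((s : Matrix (Fin l) (Fin l) K).map σ)ᵀ).map σ
      = -((s : Matrix (Fin l) (Fin l) K) * B * ((s : Matrix (Fin l) (Fin l) K).map σ)ᵀ)ᵀ
        - ((s : Matrix (Fin l) (Fin l) K) * a).map σ * ((s : Matrix (Fin l) (Fin l) K) * a)ᵀ := by
    rw [Matrix.map_mul, Matrix.map_mul, hB, Matrix.transpose_map, map_map_self σ hσ,
      Matrix.map_mul, Matrix.transpose_mul, Matrix.transpose_mul, Matrix.transpose_mul,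
      Matrix.transpose_transpose]
    simp only [Matrix.mul_sub, Matrix.sub_mul, Matrix.mul_neg, Matrix.neg_mul, Matrix.mul_assoc]
  refine ⟨(s : Matrix (Fin l) (Fin l) K) * B * ((s : Matrix (Fin l) (Fin l) K).map σ)ᵀ, hval, ?_⟩
  rw [mul_inv_eq_iff_eq_mul]
  apply mato_ext
  rw [mato_mul, mato_mul, jemb_mat, uphi_mat, urho_mat l K σ hσ a B hB,
    urho_mat l K σ hσ _ _ hval]
  have h1 : ((s : Matrix (Fin l) (Fin l) K).map σ)ᵀ *
      (((s⁻¹ : SpecialLinearGroup (Fin l) K) : Matrix (Fin l) (Fin l) K).map σ)ᵀ = 1 := by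
    rw [← Matrix.transpose_mul, ← Matrix.map_mul]
    have : ((s⁻¹ : SpecialLinearGroup (Fin l) K) : Matrix (Fin l) (Fin l) K) *
        (s : Matrix (Fin l) (Fin l) K) = 1 := congrArg Subtype.val (inv_mul_cancel s)
    rw [this, Matrix.map_one _ (map_zero σ) (map_one σ), Matrix.transpose_one]
  unfold urhoM
  rw [Matrix.fromBlocks_multiply, Matrix.fromBlocks_multiply, Matrix.fromBlocks_multiply,
    Matrix.fromBlocks_multiply, Matrix.fromBlocks_mul_fromRows, Matrix.fromCols_mul_fromBlocks]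
  simp only [Matrix.mul_zero, Matrix.zero_mul, Matrix.mul_one, Matrix.one_mul, add_zero, zero_add,
    Matrix.map_mul, Matrix.transpose_mul, Matrix.neg_mul, Matrix.mul_assoc, h1]

end Cfsg.Agent.Lib.Helper91.SuO
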