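import Mathlib
import Cfsg.Agent.Lib.Helper91.SuO
import Cfsg.Agent.Lib.Helper91.SuOOM1
import Cfsg.Agent.Lib.Helper91.SuOOM2
import Cfsg.Agent.Lib.Helper91.SuOOM3
import Cfsg.Agent.Lib.Helper91.SuOOM4
import Cfsg.Agent.Lib.Helper91.SuOOINV
import Cfsg.Agent.Lib.Helper91.SuOOJ
import Cfsg.Agent.Lib.Helper91.SuOOSH
import Cfsg.Agent.Lib.Helper91.SuOODET

set_option autoImplicit false

/-! S5172 (odd case) piece OA1 (filled by helper12): the subgroup `U'` is a `p`-group. -/

namespace Cfsg.Agent.Lib.Helper91.SuO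

open Matrix Cfsg.Agent.Lib.Helper91.SpU Cfsg.Agent.Lib.Helper91.SuU

/-- powers of a matrix that is strictly upper triangular for a rank function -/
theorem oa1_pow_rank {ι : Type*} [Fintype ι] [DecidableEq ι] {K : Type*} [Field K]
    (N : Matrix ι ι K) (ρ : ι → ℕ) (hN : ∀ r c, N r c ≠ 0 → ρ r < ρ c) :
    ∀ k r c, (N ^ k) r c ≠ 0 → ρ r + k ≤ ρ c := by
  intro k
  induction k with
  | zero =>
    intro r c h
    rw [pow_zero] at h
    by_cases hrc : r = c
    · rw [hrc]
      omega
    · exact absurd (Matrix.one_apply_ne hrc) h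
  | succ k ih =>
    intro r c h
    rw [pow_succ, Matrix.mul_apply] at h
    obtain ⟨m, -, hm⟩ := Finset.exists_ne_zero_of_sum_ne_zero h
    have h1 := ih r m (left_ne_zero_of_mul hm)
    have h2 := hN m c (right_ne_zero_of_mul hm)
    omega

/-- a matrix that is strictly upper triangular for a bounded rank function is nilpotent -/
theorem oa1_pow_zero {ι : Type*} [Fintype ι] [DecidableEq ι] {K : Type*} [Field K]
    (N : Matrix ι ι K) (ρ : ι → ℕ) (hN : ∀ r c, N r c ≠ 0 → ρ r < ρ c) (R : ℕ)
    (hR : ∀ r, ρ r ≤ R) : N ^ (R + 1) = 0 := by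
  ext r c
  rw [Matrix.zero_apply]
  by_contra h
  have h1 := oa1_pow_rank N ρ hN (R + 1) r c h
  have h2 := hR c
  omega

/-- `Aᵀ * D^σ = 1` with `A` upper unitriangular forces `D` to be lower unitriangular -/
theorem oa1_lower (l : ℕ) (K : Type*) [Field K] (σ : K →+* K) (hσ : ∀ x, σ (σ x) = x)
    (A D : Matrix (Fin l) (Fin l) K) (hA : IsUT l K A) (hAD : Aᵀ * D.map σ = 1) :
    ∀ i j : Fin l, i ≤ j → D i j = if i = j then 1 else 0 := by
  have hinj : ∀ x, σ x = 0 → x = 0 := fun x hx => by rw [← hσ x, hx, map_zero]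
  have key : ∀ n : ℕ, ∀ i : Fin l, i.val = n → ∀ j : Fin l, i ≤ j →
      D i j = if i = j then 1 else 0 := by
    intro n
    induction n using Nat.strong_induction_on with
    | _ n ih =>
      intro i hi j hij
      have h := congrFun (congrFun hAD i) j
      rw [Matrix.mul_apply] at h
      have hsum : ∑ k, Aᵀ i k * (D.map σ) k j = σ (D i j) := by
        rw [Finset.sum_eq_single i]
        · rw [Matrix.transpose_apply, hA.2 i, one_mul, Matrix.map_apply]
        · intro k _ hki
          rw [Matrix.transpose_apply, Matrix.map_apply]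
          rcases lt_or_gt_of_ne hki with hlt | hgt
          · have hkj : k < j := lt_of_lt_of_le hlt hij
            have h1 := ih k.val (by rw [← hi]; exact hlt) k rfl j (le_of_lt hkj)
            rw [h1, if_neg (ne_of_lt hkj), map_zero, mul_zero]
          · rw [hA.1 k i hgt, zero_mul]
        · intro h'
          exact absurd (Finset.mem_univ i) h'
      rw [hsum, Matrix.one_apply] at h
      by_cases hij' : i = j
      · rw [if_pos hij'] at h ⊢
        rw [← hσ (D i j), h, map_one]
      · rw [if_neg hij'] at h ⊢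
        exact hinj _ h
  intro i j hij
  exact key i.val i rfl j hij

/-- the rank function `e_1 < .. < e_l < o < f_l < .. < f_1` -/
def oa1_rank (l : ℕ) : Io l → ℕ
  | Sum.inl (Sum.inl i) => i.val
  | Sum.inl (Sum.inr i) => 2 * l - i.val
  | Sum.inr _ => l

theorem Uo_isPGroup (l : ℕ) (K : Type*) [Field K] (σ : K →+* K) (hσ : ∀ x, σ (σ x) = x) (p : ℕ) [Fact p.Prime] [CharP K p]
    (U : Subgroup (GUo l K σ)) (hU : ∀ g, g ∈ U ↔ InUo l K σ g) : IsPGroup p U := by
  intro g
  obtain ⟨h21, hA, hoe, hfo, hoo⟩ := (hU g.1).mp g.2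
  have hstab : StabE l K σ g.1 := ⟨h21, hoe⟩
  obtain ⟨-, hAD⟩ := stabE_shape l K σ g.1 hstab
  have hD := oa1_lower l K σ hσ _ _ hA hAD
  have hρ : ∀ r, oa1_rank l r ≤ 2 * l := by
    rintro ((i | i) | u)
    · show i.val ≤ 2 * l
      have := i.2
      omega
    · show 2 * l - i.val ≤ 2 * l
      omega
    · show l ≤ 2 * l
      omega
  have hN : ∀ r c, (mato l K σ g.1 - 1) r c ≠ 0 → oa1_rank l r < oa1_rank l c := by
    rintro ((i | i) | ⟨⟩) ((j | j) | ⟨⟩) h
    · -- (e_i, e_j)
      show i.val < j.val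
      by_contra hcon
      apply h
      rw [Matrix.sub_apply]
      rcases Nat.lt_or_ge j.val i.val with hlt | hge
      · have h1 : mato l K σ g.1 (Sum.inl (Sum.inl i)) (Sum.inl (Sum.inl j)) = 0 :=
          hA.1 i j hlt
        have hne : (Sum.inl (Sum.inl i) : Io l) ≠ Sum.inl (Sum.inl j) := by
          intro he
          have : i = j := Sum.inl_injective (Sum.inl_injective he)
          rw [this] at hlt
          exact lt_irrefl _ hlt
        rw [h1, Matrix.one_apply_ne hne, sub_zero]
      · have hij : i = j := Fin.ext (by omega)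
        subst hij
        have h1 : mato l K σ g.1 (Sum.inl (Sum.inl i)) (Sum.inl (Sum.inl i)) = 1 := hA.2 i
        rw [h1, Matrix.one_apply_eq, sub_self]
    · -- (e_i, f_j)
      show i.val < 2 * l - j.val
      have := i.2
      have := j.2
      omega
    · -- (e_i, o)
      show i.val < l
      exact i.2
    · -- (f_i, e_j)
      exfalso
      apply h
      have h1 : mato l K σ g.1 (Sum.inl (Sum.inr i)) (Sum.inl (Sum.inl j)) = 0 :=
        congrFun (congrFun h21 i) j
      rw [Matrix.sub_apply, h1, Matrix.one_apply_ne (by simp), sub_zero]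
    · -- (f_i, f_j)
      show 2 * l - i.val < 2 * l - j.val
      by_contra hcon
      apply h
      have hij : i ≤ j := by
        have := i.2
        have := j.2
        exact Fin.le_def.mpr (by omega)
      have hd : mato l K σ g.1 (Sum.inl (Sum.inr i)) (Sum.inl (Sum.inr j)) =
          if i = j then 1 else 0 := hD i j hij
      rw [Matrix.sub_apply, hd, Matrix.one_apply]
      by_cases hij' : i = j
      · simp [hij']
      · simp [hij']
    · -- (f_i, o)
      exfalso
      apply h
      rw [Matrix.sub_apply, hfo i, Matrix.one_apply_ne (by simp), sub_zero]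
    · -- (o, e_j)
      exfalso
      apply h
      rw [Matrix.sub_apply, hoe j, Matrix.one_apply_ne (by simp), sub_zero]
    · -- (o, f_j)
      show l < 2 * l - j.val
      have := j.2
      omega
    · -- (o, o)
      exfalso
      apply h
      rw [Matrix.sub_apply, hoo, Matrix.one_apply_eq, sub_self]
  have hNz : (mato l K σ g.1 - 1) ^ (2 * l + 1) = 0 :=
    oa1_pow_zero _ (oa1_rank l) hN (2 * l) hρ
  have hne : Nonempty (Io l) := ⟨Sum.inr ()⟩
  have key : (mato l K σ g.1) ^ p ^ (2 * l + 1) = 1 := by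
    have hNp : (mato l K σ g.1 - 1) ^ p ^ (2 * l + 1) = 0 :=
      pow_eq_zero_of_le (le_of_lt (Nat.lt_pow_self (Fact.out : p.Prime).one_lt)) hNz
    have hsplit : mato l K σ g.1 = (mato l K σ g.1 - 1) + 1 := by abel
    rw [hsplit, add_pow_char_pow_of_commute p (2 * l + 1) (Commute.one_right _), hNp, one_pow,
      zero_add]
  refine ⟨2 * l + 1, ?_⟩
  apply Subtype.ext
  apply mato_ext
  rw [Subgroup.coe_pow, mato_pow, key]
  rfl

end Cfsg.Agent.Lib.Helper91.SuO
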