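import Mathlib
import Cfsg.Agent.Lib.Helper91.SuO
import Cfsg.Agent.Lib.Helper91.SuOOM1
import Cfsg.Agent.Lib.Helper16.SuEA3

set_option autoImplicit false

/-! S5172 (odd case) piece OA3: the normalizer of the standard Sylow subgroup `U'` of the odd
unitary group lies in the Borel subgroup (flag argument; adapted from `Helper86.SpA3` and
`Helper16.SuEA3`). -/

namespace Cfsg.Agent.Lib.Helper91.SuO

open Matrix Cfsg.Agent.Lib.Helper91.SpU Cfsg.Agent.Lib.Helper91.SuU

section oa3

variable (l : ℕ) (K : Type*) [Field K] (σ : K →+* K)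

/-- the flag `V_k = ⟨e_0, …, e_{k-1}⟩` -/
def oa3_VV (k : ℕ) (v : Io l → K) : Prop :=
  (∀ j, v (Sum.inl (Sum.inr j)) = 0) ∧ v (Sum.inr ()) = 0 ∧
    ∀ j : Fin l, k ≤ (j : ℕ) → v (Sum.inl (Sum.inl j)) = 0

theorem oa3_mulVec_sum (M : Matrix (Io l) (Io l) K) (v : Io l → K) (x : Io l) :
    (M *ᵥ v) x = ∑ i, M x (Sum.inl (Sum.inl i)) * v (Sum.inl (Sum.inl i)) +
      ∑ i, M x (Sum.inl (Sum.inr i)) * v (Sum.inl (Sum.inr i)) +
      M x (Sum.inr ()) * v (Sum.inr ()) := by
  simp [Matrix.mulVec, dotProduct, Fintype.sum_sum_type]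

theorem oa3_step (k : ℕ) (u : GUo l K σ) (hu : InUo l K σ u)
    (v : Io l → K) (hv : oa3_VV l K (k + 1) v) :
    oa3_VV l K k (mato l K σ u *ᵥ v - v) := by
  obtain ⟨hC, ⟨hA0, hA1⟩, hO, hF, hd⟩ := hu
  obtain ⟨hvf, hvo, hve⟩ := hv
  refine ⟨fun j => ?_, ?_, fun j hj => ?_⟩
  · rw [Pi.sub_apply, oa3_mulVec_sum, hvf j, hvo, sub_zero]
    have h1 : ∀ i, mato l K σ u (Sum.inl (Sum.inr j)) (Sum.inl (Sum.inl i)) = 0 :=
      fun i => congrFun (congrFun hC j) i
    simp [h1, hvf]
  · rw [Pi.sub_apply, oa3_mulVec_sum, hvo, sub_zero]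
    simp [hO, hvf]
  · rw [Pi.sub_apply, oa3_mulVec_sum, hvo, mul_zero, add_zero]
    have h2 : ∑ i, mato l K σ u (Sum.inl (Sum.inl j)) (Sum.inl (Sum.inr i)) *
        v (Sum.inl (Sum.inr i)) = 0 := by
      simp [hvf]
    have h3 : ∑ i, mato l K σ u (Sum.inl (Sum.inl j)) (Sum.inl (Sum.inl i)) *
        v (Sum.inl (Sum.inl i)) = v (Sum.inl (Sum.inl j)) := by
      rw [Finset.sum_eq_single j]
      · have : mato l K σ u (Sum.inl (Sum.inl j)) (Sum.inl (Sum.inl j)) = 1 := hA1 j
        rw [this, one_mul]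
      · intro i _ hij
        rcases lt_or_gt_of_ne hij with h | h
        · have : mato l K σ u (Sum.inl (Sum.inl j)) (Sum.inl (Sum.inl i)) = 0 := hA0 j i h
          rw [this, zero_mul]
        · have hi : k + 1 ≤ (i : ℕ) := by
            have : (j : ℕ) < (i : ℕ) := h
            omega
          rw [hve i hi, mul_zero]
      · intro h
        exact absurd (Finset.mem_univ j) h
    rw [h2, h3, add_zero, sub_self]

/-- the even part of `jemb g` acting on a vector -/
theorem oa3_jemb_sub (g : GU l K σ) (w : Io l → K) (x : Fin l ⊕ Fin l) :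
    (mato l K σ (jemb l K σ g) *ᵥ w - w) (Sum.inl x) =
      (mat l K σ g *ᵥ (fun y => w (Sum.inl y)) - fun y => w (Sum.inl y)) x := by
  rw [Pi.sub_apply, Pi.sub_apply, jemb_mat]
  congr 1
  simp [Matrix.mulVec, dotProduct, Fintype.sum_sum_type]

theorem oa3_urho_sub (hσ : ∀ x, σ (σ x) = x) (a : Matrix (Fin l) Unit K)
    (B : Matrix (Fin l) (Fin l) K) (hB : B.map σ = -Bᵀ - a.map σ * aᵀ) (w : Io l → K)
    (hwf : ∀ j, w (Sum.inl (Sum.inr j)) = 0) (x : Fin l) :
    (mato l K σ (urho l K σ a B) *ᵥ w - w) (Sum.inl (Sum.inl x)) = a x () * w (Sum.inr ()) := by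
  rw [Pi.sub_apply, oa3_mulVec_sum, urho_mat l K σ hσ a B hB]
  unfold urhoM
  simp [hwf, Matrix.one_apply]

theorem oa3_valid (m : Fin l) (t₁ : K) (ht₁ : t₁ + σ t₁ = 1) :
    (Matrix.single m m (-t₁) : Matrix (Fin l) (Fin l) K).map σ =
      -(Matrix.single m m (-t₁) : Matrix (Fin l) (Fin l) K)ᵀ -
        (Matrix.single m () (1 : K) : Matrix (Fin l) Unit K).map σ *
          (Matrix.single m () (1 : K) : Matrix (Fin l) Unit K)ᵀ := by
  ext r s
  simp only [Matrix.map_apply, Matrix.sub_apply, Matrix.neg_apply, Matrix.transpose_apply,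
    Matrix.mul_apply, Matrix.single_apply, Finset.univ_unique, Finset.sum_singleton]
  by_cases hr : m = r
  · subst hr
    by_cases hs : m = s
    · subst hs
      simp
      linear_combination -ht₁
    · simp [hs]
  · simp [hr]

theorem oa3_claim (hσ : ∀ x, σ (σ x) = x) (ε : K) (hε0 : ε ≠ 0) (hε : σ ε = -ε)
    (t₁ : K) (ht₁ : t₁ + σ t₁ = 1)
    (U : Subgroup (GUo l K σ)) (hU : ∀ g, g ∈ U ↔ InUo l K σ g)
    (g : GUo l K σ) (hg : g ∈ Subgroup.normalizer (U : Set (GUo l K σ))) :
    ∀ k, k ≤ l → ∀ v, oa3_VV l K k v → oa3_VV l K k (mato l K σ g *ᵥ v) := by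
  intro k
  induction k with
  | zero =>
    intro _ v hv
    have hv0 : v = 0 := by
      funext x
      rcases x with (j | j) | ⟨⟩
      · exact hv.2.2 j (Nat.zero_le _)
      · exact hv.1 j
      · exact hv.2.1
    subst hv0
    rw [Matrix.mulVec_zero]
    exact ⟨fun _ => rfl, rfl, fun _ _ => rfl⟩
  | succ k ih =>
    intro hk v hv
    have ih' := ih (by omega)
    have hkm : k < l := by omega
    obtain ⟨w, hw⟩ : ∃ w, w = mato l K σ g *ᵥ v := ⟨_, rfl⟩
    rw [← hw]
    have star : ∀ u ∈ U, oa3_VV l K k (mato l K σ u *ᵥ w - w) := by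
      intro u hu
      have hu' : g⁻¹ * u * g ∈ U := by
        have h := (Subgroup.mem_normalizer_iff.mp hg) (g⁻¹ * u * g)
        have e : g * (g⁻¹ * u * g) * g⁻¹ = u := by group
        rw [e] at h
        exact h.mpr hu
      have h1 := oa3_step l K σ k (g⁻¹ * u * g) ((hU _).mp hu') v hv
      have h2 := ih' _ h1
      have e : mato l K σ g *ᵥ (mato l K σ (g⁻¹ * u * g) *ᵥ v - v) =
          mato l K σ u *ᵥ w - w := by
        rw [Matrix.mulVec_sub, Matrix.mulVec_mulVec, hw]
        have e1 : mato l K σ g * mato l K σ (g⁻¹ * u * g) = mato l K σ u * mato l K σ g := by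
          have e2 : g * (g⁻¹ * u * g) = u * g := by group
          exact congrArg (mato l K σ) e2
        rw [e1, ← Matrix.mulVec_mulVec]
      rw [e] at h2
      exact h2
    have ha : ∀ j, w (Sum.inl (Sum.inr j)) = 0 := by
      intro j
      by_contra hne
      by_cases hkj : k ≤ (j : ℕ)
      · have hu : jemb l K σ (uyy l K σ j ε hε) ∈ U :=
          (hU _).mpr ((jemb_inUo_iff l K σ _).mpr (uyy_inU l K σ j ε hε))
        have h := (star _ hu).2.2 j hkj
        rw [oa3_jemb_sub] at h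
        unfold uyy at h
        rw [Cfsg.Agent.Lib.Helper16.SuEA3.usq_sub_inl] at h
        simp [Matrix.single_apply] at h
        rcases h with h | h
        · exact hε0 h
        · exact hne h
      · have hjl : j ≠ (⟨k, hkm⟩ : Fin l) := by
          intro h
          have := congrArg Fin.val h
          simp at this
          omega
        have hB : (Matrix.single j (⟨k, hkm⟩ : Fin l) (1 : K) +
            Matrix.single (⟨k, hkm⟩ : Fin l) j (-1 : K)).map σ =
            -(Matrix.single j (⟨k, hkm⟩ : Fin l) (1 : K) +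
            Matrix.single (⟨k, hkm⟩ : Fin l) j (-1 : K))ᵀ := by
          rw [Matrix.transpose_add, Matrix.transpose_single, Matrix.transpose_single]
          ext r s
          simp only [Matrix.map_apply, Matrix.add_apply, Matrix.single_apply, Matrix.neg_apply]
          split_ifs <;> simp
        have hu : jemb l K σ (usq l K σ _ hB) ∈ U :=
          (hU _).mpr ((jemb_inUo_iff l K σ _).mpr (usq_inU l K σ _ hB))
        have h := (star _ hu).2.2 (⟨k, hkm⟩ : Fin l) (le_refl k)
        rw [oa3_jemb_sub, Cfsg.Agent.Lib.Helper16.SuEA3.usq_sub_inl] at h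
        simp [Matrix.single_apply, Matrix.add_apply, hjl] at h
        exact hne h
    have hc : w (Sum.inr ()) = 0 := by
      have hB := oa3_valid l K σ (⟨k, hkm⟩ : Fin l) t₁ ht₁
      have hu : urho l K σ (Matrix.single (⟨k, hkm⟩ : Fin l) () (1 : K))
          (Matrix.single (⟨k, hkm⟩ : Fin l) (⟨k, hkm⟩ : Fin l) (-t₁)) ∈ U :=
        (hU _).mpr (urho_inUo l K σ hσ _ _ hB)
      have h := (star _ hu).2.2 (⟨k, hkm⟩ : Fin l) (le_refl k)
      rw [oa3_urho_sub l K σ hσ _ _ hB w ha] at h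
      simpa using h
    have hb : ∀ j : Fin l, k + 1 ≤ (j : ℕ) → w (Sum.inl (Sum.inl j)) = 0 := by
      intro j hj
      by_contra hne
      have hij : (⟨k, hkm⟩ : Fin l) ≠ j := by
        intro h
        have := congrArg Fin.val h
        simp at this
        omega
      have hlt : (⟨k, hkm⟩ : Fin l) < j := by
        rw [Fin.lt_def]
        simp
        omega
      obtain ⟨s, hs⟩ : ∃ s : SpecialLinearGroup (Fin l) K,
          (s : Matrix (Fin l) (Fin l) K) = Matrix.transvection (⟨k, hkm⟩ : Fin l) j 1 :=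
        ⟨⟨Matrix.transvection (⟨k, hkm⟩ : Fin l) j 1, Matrix.det_transvection_of_ne _ _ hij 1⟩,
          rfl⟩
      have hsUT : IsUT l K (s : Matrix (Fin l) (Fin l) K) := by
        rw [hs]
        refine ⟨fun a b hba => ?_, fun a => ?_⟩
        · have hab : a ≠ b := ne_of_gt hba
          have h2 : ¬ ((⟨k, hkm⟩ : Fin l) = a ∧ j = b) := by
            rintro ⟨rfl, rfl⟩
            exact absurd hba (not_lt.mpr hlt.le)
          simp [Matrix.transvection, hab, h2]
        · have h2 : ¬ ((⟨k, hkm⟩ : Fin l) = a ∧ j = a) := by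
            rintro ⟨h1, h2⟩
            exact hij (h1.trans h2.symm)
          simp [Matrix.transvection, h2]
      have hu : jemb l K σ (uphi l K σ hσ s) ∈ U :=
        (hU _).mpr ((jemb_inUo_iff l K σ _).mpr (uphi_inU l K σ hσ s hsUT))
      have h := (star _ hu).2.2 (⟨k, hkm⟩ : Fin l) (le_refl k)
      rw [oa3_jemb_sub, Cfsg.Agent.Lib.Helper16.SuEA3.uphi_sub_inl, hs] at h
      simp [Matrix.transvection, Matrix.one_apply, Matrix.single_apply, Matrix.add_apply, add_mul,
        Finset.sum_add_distrib] at h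
      exact hne h
    exact ⟨ha, hc, hb⟩

end oa3

theorem normalizer_Uo_tri (l : ℕ) (K : Type*) [Field K] (σ : K →+* K) (hσ : ∀ x, σ (σ x) = x) (ε : K) (hε0 : ε ≠ 0) (hε : σ ε = -ε)
    (t₁ : K) (ht₁ : t₁ + σ t₁ = 1)
    (U : Subgroup (GUo l K σ)) (hU : ∀ g, g ∈ U ↔ InUo l K σ g)
    (g : GUo l K σ) (hg : g ∈ Subgroup.normalizer (U : Set (GUo l K σ))) : InBo l K σ g := by
  have cl := oa3_claim l K σ hσ ε hε0 hε t₁ ht₁ U hU g hg
  have key : ∀ j : Fin l,
      oa3_VV l K ((j : ℕ) + 1) (mato l K σ g *ᵥ Pi.single (Sum.inl (Sum.inl j)) 1) := by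
    intro j
    apply cl ((j : ℕ) + 1) (by have := j.2; omega)
    refine ⟨fun x => by simp, by simp, fun x hx => ?_⟩
    have hxj : x ≠ j := by
      intro h
      subst h
      omega
    simp [hxj]
  have col : ∀ (j : Fin l) (x : Io l),
      (mato l K σ g *ᵥ Pi.single (Sum.inl (Sum.inl j)) 1) x =
        mato l K σ g x (Sum.inl (Sum.inl j)) := by
    intro j x
    rw [Matrix.mulVec_single_one]
    rfl
  refine ⟨?_, ?_, ?_⟩
  · ext i j
    have h := (key j).1 i
    rw [col] at h
    exact h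
  · intro i j hji
    have hji' : (j : ℕ) + 1 ≤ (i : ℕ) := by
      have : (j : ℕ) < (i : ℕ) := hji
      omega
    have h := (key j).2.2 i hji'
    rw [col] at h
    exact h
  · intro j
    have h := (key j).2.1
    rw [col] at h
    exact h

end Cfsg.Agent.Lib.Helper91.SuO
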