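import Mathlib
import Cfsg.Agent.Lib.Helper91.SuO

set_option autoImplicit false

/-! S5172 (odd case) piece OA4: a `p`-element of the Borel subgroup has unit diagonal on the
`e`-block. -/

namespace Cfsg.Agent.Lib.Helper91.SuO

open Matrix Cfsg.Agent.Lib.Helper91.SpU Cfsg.Agent.Lib.Helper91.SuU

theorem oa4_tri_mul (m : ℕ) (K : Type*) [Field K] {A B : Matrix (Fin m) (Fin m) K}
    (hA : ∀ i j : Fin m, j < i → A i j = 0) (hB : ∀ i j : Fin m, j < i → B i j = 0) :
    (∀ i j : Fin m, j < i → (A * B) i j = 0) ∧ ∀ i : Fin m, (A * B) i i = A i i * B i i := by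
  constructor
  · intro i j hji
    rw [Matrix.mul_apply]
    apply Finset.sum_eq_zero
    intro l _
    by_cases hl : l < i
    · rw [hA i l hl, zero_mul]
    · rw [hB l j (lt_of_lt_of_le hji (not_lt.mp hl)), mul_zero]
  · intro i
    rw [Matrix.mul_apply]
    rw [Finset.sum_eq_single i]
    · intro l _ hl
      rcases lt_or_gt_of_ne hl with h | h
      · rw [hA i l h, zero_mul]
      · rw [hB l i h, mul_zero]
    · intro h
      exact absurd (Finset.mem_univ i) h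

theorem oa4_tri_pow (m : ℕ) (K : Type*) [Field K] {A : Matrix (Fin m) (Fin m) K}
    (hA : ∀ i j : Fin m, j < i → A i j = 0) (n : ℕ) :
    (∀ i j : Fin m, j < i → (A ^ n) i j = 0) ∧ ∀ i : Fin m, (A ^ n) i i = (A i i) ^ n := by
  induction n with
  | zero =>
    constructor
    · intro i j hji
      rw [pow_zero, Matrix.one_apply_ne (ne_of_gt hji)]
    · intro i
      rw [pow_zero, pow_zero, Matrix.one_apply_eq]
  | succ n ih =>
    have h := oa4_tri_mul m K ih.1 hA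
    constructor
    · intro i j hji
      rw [pow_succ]
      exact h.1 i j hji
    · intro i
      rw [pow_succ, pow_succ, h.2 i, ih.2 i]

/-- the `e`-columns of `M` are supported on the `e`-rows -/
def OA4P (l : ℕ) (K : Type*) [Field K] (M : Matrix (Io l) (Io l) K) : Prop :=
  (∀ i j : Fin l, M (Sum.inl (Sum.inr i)) (Sum.inl (Sum.inl j)) = 0) ∧
  (∀ j : Fin l, M (Sum.inr ()) (Sum.inl (Sum.inl j)) = 0)

theorem oa4_mul_ecol (l : ℕ) (K : Type*) [Field K] (M N : Matrix (Io l) (Io l) K)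
    (hN : OA4P l K N) (r : Io l) (j : Fin l) :
    (M * N) r (Sum.inl (Sum.inl j)) =
      ∑ k : Fin l, M r (Sum.inl (Sum.inl k)) * N (Sum.inl (Sum.inl k)) (Sum.inl (Sum.inl j)) := by
  rw [Matrix.mul_apply, Fintype.sum_sum_type, Fintype.sum_sum_type]
  have h1 : ∑ x : Fin l, M r (Sum.inl (Sum.inr x)) * N (Sum.inl (Sum.inr x)) (Sum.inl (Sum.inl j))
      = 0 := by
    apply Finset.sum_eq_zero
    intro x _
    rw [hN.1 x j, mul_zero]
  have h2 : ∑ x : Unit, M r (Sum.inr x) * N (Sum.inr x) (Sum.inl (Sum.inl j)) = 0 := by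
    apply Finset.sum_eq_zero
    intro x _
    rw [hN.2 j, mul_zero]
  rw [h1, h2, add_zero, add_zero]

theorem oa4_mul (l : ℕ) (K : Type*) [Field K] (M N : Matrix (Io l) (Io l) K)
    (hM : OA4P l K M) (hN : OA4P l K N) :
    OA4P l K (M * N) ∧
      (M * N).toBlocks₁₁.toBlocks₁₁ = M.toBlocks₁₁.toBlocks₁₁ * N.toBlocks₁₁.toBlocks₁₁ := by
  refine ⟨⟨?_, ?_⟩, ?_⟩
  · intro i j
    rw [oa4_mul_ecol l K M N hN]
    apply Finset.sum_eq_zero
    intro k _
    rw [hM.1 i k, zero_mul]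
  · intro j
    rw [oa4_mul_ecol l K M N hN]
    apply Finset.sum_eq_zero
    intro k _
    rw [hM.2 k, zero_mul]
  · ext i j
    rw [Matrix.mul_apply]
    exact oa4_mul_ecol l K M N hN (Sum.inl (Sum.inl i)) j

theorem oa4_one (l : ℕ) (K : Type*) [Field K] : OA4P l K (1 : Matrix (Io l) (Io l) K) := by
  constructor
  · intro i j
    rw [Matrix.one_apply_ne]
    simp
  · intro j
    rw [Matrix.one_apply_ne]
    simp

theorem oa4_one_block (l : ℕ) (K : Type*) [Field K] :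
    (1 : Matrix (Io l) (Io l) K).toBlocks₁₁.toBlocks₁₁ = 1 := by
  ext i j
  simp [Matrix.toBlocks₁₁, Matrix.one_apply]

theorem oa4_pow (l : ℕ) (K : Type*) [Field K] (M : Matrix (Io l) (Io l) K)
    (hM : OA4P l K M) (n : ℕ) :
    OA4P l K (M ^ n) ∧ (M ^ n).toBlocks₁₁.toBlocks₁₁ = M.toBlocks₁₁.toBlocks₁₁ ^ n := by
  induction n with
  | zero =>
    rw [pow_zero, pow_zero]
    exact ⟨oa4_one l K, oa4_one_block l K⟩
  | succ n ih =>
    rw [pow_succ, pow_succ]
    have h := oa4_mul l K (M ^ n) M ih.1 hM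
    exact ⟨h.1, by rw [h.2, ih.2]⟩

theorem pelem_tri_diag (l : ℕ) (K : Type*) [Field K] (σ : K →+* K) (p : ℕ) [Fact p.Prime] [CharP K p]
    (g : GUo l K σ) (hg : InBo l K σ g) (k : ℕ) (hk : g ^ p ^ k = 1) :
    ∀ i : Fin l, (mato l K σ g).toBlocks₁₁.toBlocks₁₁ i i = 1 := by
  intro i
  obtain ⟨h1, h2, h3⟩ := hg
  have hP : OA4P l K (mato l K σ g) := by
    refine ⟨fun i j => ?_, h3⟩
    have := congrFun (congrFun h1 i) j
    simpa [Matrix.toBlocks₁₁, Matrix.toBlocks₂₁] using this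
  have hpow := (oa4_pow l K (mato l K σ g) hP (p ^ k)).2
  rw [← mato_pow, hk, mato_one, oa4_one_block] at hpow
  have hd : ((mato l K σ g).toBlocks₁₁.toBlocks₁₁ i i) ^ (p ^ k) = 1 := by
    rw [← (oa4_tri_pow l K h2 (p ^ k)).2 i, ← hpow, Matrix.one_apply_eq]
  have h0 : ((mato l K σ g).toBlocks₁₁.toBlocks₁₁ i i - 1) ^ (p ^ k) = 0 := by
    rw [sub_pow_char_pow, hd, one_pow, sub_self]
  exact sub_eq_zero.mp (pow_eq_zero_iff (pow_ne_zero k (Fact.out : p.Prime).ne_zero) |>.mp h0)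

end Cfsg.Agent.Lib.Helper91.SuO
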