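import Mathlib
import Cfsg.Agent.Lib.Helper91.SuO
import Cfsg.Agent.Lib.Helper91.SuOOM1
import Cfsg.Agent.Lib.Helper91.SuOOM2
import Cfsg.Agent.Lib.Helper91.SuOOM3
import Cfsg.Agent.Lib.Helper91.SuOOM4
import Cfsg.Agent.Lib.Helper91.SuOOINV
import Cfsg.Agent.Lib.Helper91.SuOOJ
import Cfsg.Agent.Lib.Helper91.SuOOSH
import Cfsg.Agent.Lib.Helper91.SuOODET

set_option autoImplicit false

/-! S5172 (odd case) piece ODEC: decomposition of the Sylow subgroup. -/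

namespace Cfsg.Agent.Lib.Helper91.SuO

open Matrix Cfsg.Agent.Lib.Helper91.SpU Cfsg.Agent.Lib.Helper91.SuU

theorem Uo_decomp (l : ℕ) (K : Type*) [Field K] (σ : K →+* K) (hσ : ∀ x, σ (σ x) = x)
    (U : Subgroup (GUo l K σ)) (hU : ∀ g, g ∈ U ↔ InUo l K σ g)
    (u : GUo l K σ) (hu : InUo l K σ u)
    (a : Matrix (Fin l) Unit K)
    (ha : ∀ i : Fin l, a i () = mato l K σ u (Sum.inl (Sum.inl i)) (Sum.inr ()))
    (B : Matrix (Fin l) (Fin l) K) (hB : B.map σ = -Bᵀ - a.map σ * aᵀ) :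
    ∃ g : GU l K σ, InU l K σ g ∧ u = urho l K σ a B * jemb l K σ g := by
  have hr : InUo l K σ (urho l K σ a B) := urho_inUo l K σ hσ a B hB
  have hrU : urho l K σ a B ∈ U := (hU _).2 hr
  have huU : u ∈ U := (hU _).2 hu
  have hvU : (urho l K σ a B)⁻¹ * u ∈ U := U.mul_mem (U.inv_mem hrU) huU
  have hv : InUo l K σ ((urho l K σ a B)⁻¹ * u) := (hU _).1 hvU
  obtain ⟨B', hB', hinv⟩ := urho_inv_ex l K σ hσ a B hB
  have hmatinv : mato l K σ (urho l K σ a B)⁻¹ = urhoM l K σ (-a) B' := by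
    rw [hinv]
    exact urho_mat l K σ hσ (-a) B' hB'
  have hcol : ∀ i : Fin l,
      mato l K σ ((urho l K σ a B)⁻¹ * u) (Sum.inl (Sum.inl i)) (Sum.inr ()) = 0 := by
    intro i
    rw [mato_mul, hmatinv, Matrix.mul_apply, Fintype.sum_sum_type, Fintype.sum_sum_type]
    have e1 : ∀ x : Fin l, urhoM l K σ (-a) B' (Sum.inl (Sum.inl i)) (Sum.inl (Sum.inl x)) =
        (1 : Matrix (Fin l) (Fin l) K) i x := fun x => rfl
    have e2 : ∀ x : Fin l, urhoM l K σ (-a) B' (Sum.inl (Sum.inl i)) (Sum.inl (Sum.inr x)) =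
        B' i x := fun x => rfl
    have e3 : ∀ x : Unit, urhoM l K σ (-a) B' (Sum.inl (Sum.inl i)) (Sum.inr x) =
        -a i () := fun x => rfl
    simp only [e1, e2, e3, hu.2.2.2.1, hu.2.2.2.2, mul_zero, Finset.sum_const_zero, add_zero,
      Finset.univ_unique, Finset.sum_singleton, mul_one, Matrix.one_apply, ite_mul, one_mul,
      zero_mul, Finset.sum_ite_eq, Finset.mem_univ, if_true]
    rw [ha i]
    have : (default : Unit) = () := rfl
    simp
  have h12 : (mato l K σ ((urho l K σ a B)⁻¹ * u)).toBlocks₁₂ = 0 := by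
    ext (i | i) ⟨⟩
    · exact hcol i
    · exact hv.2.2.2.1 i
  have h21 : (mato l K σ ((urho l K σ a B)⁻¹ * u)).toBlocks₂₁ = 0 := by
    ext ⟨⟩ (j | j)
    · exact hv.2.2.1 j
    · have h := inUo_row_o l K σ hσ _ hv j
      simp only [hcol, map_zero, zero_mul, Finset.sum_const_zero, neg_zero] at h
      exact h
  have h22 : (mato l K σ ((urho l K σ a B)⁻¹ * u)).toBlocks₂₂ = 1 := by
    ext ⟨⟩ ⟨⟩
    exact hv.2.2.2.2
  obtain ⟨g, hg⟩ := eq_jemb_of_blocks l K σ _ h12 h21 h22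
  refine ⟨g, (jemb_inUo_iff l K σ g).1 (by rw [← hg]; exact hv), ?_⟩
  rw [← hg]
  group

end Cfsg.Agent.Lib.Helper91.SuO
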