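import Mathlib
import Cfsg.Agent.Lib.Helper91.SuO
import Cfsg.Agent.Lib.Helper91.SuOOM1
import Cfsg.Agent.Lib.Helper91.SuOOM2
import Cfsg.Agent.Lib.Helper91.SuOOM3
import Cfsg.Agent.Lib.Helper91.SuOOM4
import Cfsg.Agent.Lib.Helper91.SuOOINV
import Cfsg.Agent.Lib.Helper91.SuOOJ
import Cfsg.Agent.Lib.Helper91.SuOOSH
import Cfsg.Agent.Lib.Helper91.SuOODET
import Cfsg.Agent.Lib.Helper58.SpFU

set_option autoImplicit false

/-! S5172 (odd case) piece OFU: the subgroup `U'` with membership predicate `InUo`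
(proof by helper85; self-contained: only `SuO` and `Helper58.SpFU` are used). -/

namespace Cfsg.Agent.Lib.Helper91.SuO

open Matrix Cfsg.Agent.Lib.Helper91.SpU Cfsg.Agent.Lib.Helper91.SuU

/-- the entries of a product over the index type `Io l`, split along `e`, `f`, `o` -/
theorem ofu_mul_apply (l : ℕ) (K : Type*) [Field K] (M M' : Matrix (Io l) (Io l) K)
    (r c : Io l) :
    (M * M') r c = ∑ k : Fin l, M r (Sum.inl (Sum.inl k)) * M' (Sum.inl (Sum.inl k)) c +
      ∑ k : Fin l, M r (Sum.inl (Sum.inr k)) * M' (Sum.inl (Sum.inr k)) c +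
      M r (Sum.inr ()) * M' (Sum.inr ()) c := by
  rw [Matrix.mul_apply, Fintype.sum_sum_type, Fintype.sum_sum_type]
  simp

theorem ofu_one (l : ℕ) (K : Type*) [Field K] (σ : K →+* K) : InUo l K σ 1 := by
  refine ⟨?_, ?_, ?_, ?_, ?_⟩
  · ext i j
    show (1 : Matrix (Io l) (Io l) K) (Sum.inl (Sum.inr i)) (Sum.inl (Sum.inl j)) = 0
    exact Matrix.one_apply_ne (by simp)
  · have e : (mato l K σ (1 : GUo l K σ)).toBlocks₁₁.toBlocks₁₁ = 1 := by
      ext i j
      show (1 : Matrix (Io l) (Io l) K) (Sum.inl (Sum.inl i)) (Sum.inl (Sum.inl j)) =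
        (1 : Matrix (Fin l) (Fin l) K) i j
      simp [Matrix.one_apply]
    rw [e]
    exact Cfsg.Agent.Lib.Helper58.SpFU.isUT_one l K
  · intro j
    show (1 : Matrix (Io l) (Io l) K) (Sum.inr ()) (Sum.inl (Sum.inl j)) = 0
    exact Matrix.one_apply_ne (by simp)
  · intro i
    show (1 : Matrix (Io l) (Io l) K) (Sum.inl (Sum.inr i)) (Sum.inr ()) = 0
    exact Matrix.one_apply_ne (by simp)
  · show (1 : Matrix (Io l) (Io l) K) (Sum.inr ()) (Sum.inr ()) = 1
    exact Matrix.one_apply_eq _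

theorem ofu_mul (l : ℕ) (K : Type*) [Field K] (σ : K →+* K) {g h : GUo l K σ}
    (hg : InUo l K σ g) (hh : InUo l K σ h) : InUo l K σ (g * h) := by
  obtain ⟨g1, g2, g3, g4, g5⟩ := hg
  obtain ⟨h1, h2, h3, h4, h5⟩ := hh
  have g1' : ∀ i j : Fin l, mato l K σ g (Sum.inl (Sum.inr i)) (Sum.inl (Sum.inl j)) = 0 :=
    fun i j => congrFun (congrFun g1 i) j
  have h1' : ∀ i j : Fin l, mato l K σ h (Sum.inl (Sum.inr i)) (Sum.inl (Sum.inl j)) = 0 :=
    fun i j => congrFun (congrFun h1 i) j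
  refine ⟨?_, ?_, ?_, ?_, ?_⟩
  · ext i j
    show mato l K σ (g * h) (Sum.inl (Sum.inr i)) (Sum.inl (Sum.inl j)) = 0
    rw [mato_mul, ofu_mul_apply]
    simp only [g1', h1', h3, g4, zero_mul, mul_zero, Finset.sum_const_zero, add_zero]
  · have e : (mato l K σ (g * h)).toBlocks₁₁.toBlocks₁₁ =
        (mato l K σ g).toBlocks₁₁.toBlocks₁₁ * (mato l K σ h).toBlocks₁₁.toBlocks₁₁ := by
      ext i j
      show mato l K σ (g * h) (Sum.inl (Sum.inl i)) (Sum.inl (Sum.inl j)) = _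
      rw [mato_mul, ofu_mul_apply, Matrix.mul_apply]
      simp only [h1', h3, mul_zero, Finset.sum_const_zero, add_zero]
      rfl
    rw [e]
    exact Cfsg.Agent.Lib.Helper58.SpFU.isUT_mul l K g2 h2
  · intro j
    rw [mato_mul, ofu_mul_apply]
    simp only [g3, h1', h3, zero_mul, mul_zero, Finset.sum_const_zero, add_zero]
  · intro i
    rw [mato_mul, ofu_mul_apply]
    simp only [g1', h4, g4, zero_mul, mul_zero, Finset.sum_const_zero, add_zero]
  · rw [mato_mul, ofu_mul_apply]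
    simp only [g3, h4, g5, h5, zero_mul, mul_zero, Finset.sum_const_zero, zero_add, mul_one]

theorem ofu_inv (l : ℕ) (K : Type*) [Field K] (σ : K →+* K) {g : GUo l K σ}
    (hg : InUo l K σ g) : InUo l K σ g⁻¹ := by
  obtain ⟨M, hM⟩ : ∃ M, M = mato l K σ g := ⟨_, rfl⟩
  obtain ⟨N, hN⟩ : ∃ N, N = mato l K σ g⁻¹ := ⟨_, rfl⟩
  have hNM : N * M = 1 := by rw [hN, hM]; exact mato_inv_mul l K σ g
  unfold InUo at hg ⊢
  rw [← hM] at hg
  rw [← hN]
  obtain ⟨g1, g2, g3, g4, g5⟩ := hg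
  have g1' : ∀ i j : Fin l, M (Sum.inl (Sum.inr i)) (Sum.inl (Sum.inl j)) = 0 :=
    fun i j => congrFun (congrFun g1 i) j
  obtain ⟨A, hA⟩ : ∃ A, A = M.toBlocks₁₁.toBlocks₁₁ := ⟨_, rfl⟩
  rw [← hA] at g2
  have hdet : A.det = 1 := by
    have hbt : A.BlockTriangular id := fun i j hji => g2.1 i j hji
    rw [Matrix.det_of_isUpperTriangular hbt]
    exact Finset.prod_eq_one (fun i _ => g2.2 i)
  have hAinv : A⁻¹ * A = 1 := Matrix.nonsing_inv_mul A (by rw [hdet]; exact isUnit_one)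
  have hAinv' : A * A⁻¹ = 1 := Matrix.mul_nonsing_inv A (by rw [hdet]; exact isUnit_one)
  have hUT : IsUT l K A⁻¹ := Cfsg.Agent.Lib.Helper58.SpFU.isUT_of_mul_eq_one l K g2 hAinv
  -- the `e`-columns of `N`
  have hPA : (Matrix.of fun (r : Io l) (k : Fin l) => N r (Sum.inl (Sum.inl k))) * A =
      Matrix.of fun (r : Io l) (k : Fin l) =>
        (1 : Matrix (Io l) (Io l) K) r (Sum.inl (Sum.inl k)) := by
    ext r j
    have h := congrFun (congrFun hNM r) (Sum.inl (Sum.inl j))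
    rw [ofu_mul_apply] at h
    simp only [g1', g3, mul_zero, Finset.sum_const_zero, add_zero] at h
    rw [Matrix.mul_apply, hA]
    exact h
  have hP : (Matrix.of fun (r : Io l) (k : Fin l) => N r (Sum.inl (Sum.inl k))) =
      (Matrix.of fun (r : Io l) (k : Fin l) =>
        (1 : Matrix (Io l) (Io l) K) r (Sum.inl (Sum.inl k))) * A⁻¹ := by
    rw [← hPA, Matrix.mul_assoc, hAinv', Matrix.mul_one]
  have hcol : ∀ (r : Io l) (m : Fin l), N r (Sum.inl (Sum.inl m)) =
      ∑ j : Fin l, (1 : Matrix (Io l) (Io l) K) r (Sum.inl (Sum.inl j)) * A⁻¹ j m := by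
    intro r m
    have h := congrFun (congrFun hP r) m
    rw [Matrix.mul_apply] at h
    exact h
  have n1 : ∀ i j : Fin l, N (Sum.inl (Sum.inr i)) (Sum.inl (Sum.inl j)) = 0 := by
    intro i j
    rw [hcol]
    apply Finset.sum_eq_zero
    intro k _
    rw [Matrix.one_apply_ne (by simp), zero_mul]
  have n3 : ∀ j : Fin l, N (Sum.inr ()) (Sum.inl (Sum.inl j)) = 0 := by
    intro j
    rw [hcol]
    apply Finset.sum_eq_zero
    intro k _
    rw [Matrix.one_apply_ne (by simp), zero_mul]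
  have hcolo : ∀ r : Io l, ∑ k : Fin l, N r (Sum.inl (Sum.inl k)) * M (Sum.inl (Sum.inl k))
      (Sum.inr ()) + N r (Sum.inr ()) = (1 : Matrix (Io l) (Io l) K) r (Sum.inr ()) := by
    intro r
    have h := congrFun (congrFun hNM r) (Sum.inr ())
    rw [ofu_mul_apply] at h
    simp only [g4, g5, mul_zero, Finset.sum_const_zero, add_zero, mul_one] at h
    exact h
  refine ⟨?_, ?_, n3, ?_, ?_⟩
  · ext i j
    exact n1 i j
  · have e : N.toBlocks₁₁.toBlocks₁₁ = A⁻¹ := by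
      ext i m
      show N (Sum.inl (Sum.inl i)) (Sum.inl (Sum.inl m)) = A⁻¹ i m
      rw [hcol]
      simp [Matrix.one_apply]
    rw [e]
    exact hUT
  · intro i
    have h := hcolo (Sum.inl (Sum.inr i))
    simp only [n1, zero_mul, Finset.sum_const_zero, zero_add] at h
    rw [h]
    exact Matrix.one_apply_ne (by simp)
  · have h := hcolo (Sum.inr ())
    simp only [n3, zero_mul, Finset.sum_const_zero, zero_add] at h
    rw [h]
    exact Matrix.one_apply_eq _

theorem exists_Uo (l : ℕ) (K : Type*) [Field K] (σ : K →+* K) (hσ : ∀ x, σ (σ x) = x) :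
    ∃ U : Subgroup (GUo l K σ), ∀ g, g ∈ U ↔ InUo l K σ g :=
  ⟨{ carrier := {g | InUo l K σ g}
     mul_mem' := fun hg hh => ofu_mul l K σ hg hh
     one_mem' := ofu_one l K σ
     inv_mem' := fun hg => ofu_inv l K σ hg }, fun _ => Iff.rfl⟩

end Cfsg.Agent.Lib.Helper91.SuO
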