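import Mathlib
import Cfsg.Agent.Lib.Helper91.SuO
import Cfsg.Agent.Lib.Helper91.SuOOM1
import Cfsg.Agent.Lib.Helper91.SuOOJ

set_option autoImplicit false

/-! S5172 (odd case) piece OH1b (filled by helper18 for helper91): the centre of `U'` lies in the
image of the even group. -/

namespace Cfsg.Agent.Lib.Helper91.SuO

open Matrix Cfsg.Agent.Lib.Helper91.SpU Cfsg.Agent.Lib.Helper91.SuU

/-- the matrix of `jemb (uyy j ε)` -/
theorem oh1b_uyy_mat (l : ℕ) (K : Type*) [Field K] (σ : K →+* K) (j : Fin l) (ε : K)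
    (hε : σ ε = -ε) :
    mato l K σ (jemb l K σ (uyy l K σ j ε hε)) =
      1 + Matrix.single (Sum.inl (Sum.inl j) : Io l) (Sum.inl (Sum.inr j)) ε := by
  rw [jemb_mat, uyy_mat]
  ext r c
  rcases r with (r | r) | r <;> rcases c with (c | c) | c <;>
    simp [Matrix.single_apply, Matrix.one_apply]

/-- a matrix commuting with `1 + ε E_{pq}` -/
theorem oh1b_comm_single {n : Type*} [Fintype n] [DecidableEq n] {K : Type*} [Field K]
    (M : Matrix n n K) (p q : n) (ε : K) (hε0 : ε ≠ 0)
    (h : (1 + Matrix.single p q ε) * M = M * (1 + Matrix.single p q ε)) :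
    (∀ r, r ≠ p → M r p = 0) ∧ (∀ c, c ≠ q → M q c = 0) := by
  have h1 : Matrix.single p q ε * M = M * Matrix.single p q ε := by
    rw [Matrix.add_mul, Matrix.mul_add, Matrix.one_mul, Matrix.mul_one] at h
    exact add_left_cancel h
  refine ⟨fun r hr => ?_, fun c hc => ?_⟩
  · have h2 := congrFun (congrFun h1 r) q
    rw [Matrix.single_mul_apply_of_ne (h := hr), Matrix.mul_single_apply_same] at h2
    exact (mul_eq_zero.mp h2.symm).resolve_right hε0
  · have h2 := congrFun (congrFun h1 p) c
    rw [Matrix.single_mul_apply_same, Matrix.mul_single_apply_of_ne (hbj := hc)] at h2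
    exact (mul_eq_zero.mp h2).resolve_left hε0

/-- the matrix of `ρ(e_k, b E_kk)` -/
theorem oh1b_rho_mat (l : ℕ) (K : Type*) [Field K] (σ : K →+* K) (k : Fin l) (b : K) :
    urhoM l K σ (Matrix.single k () 1) (Matrix.single k k b) =
      1 + (Matrix.single (Sum.inl (Sum.inl k) : Io l) (Sum.inl (Sum.inr k)) b +
        Matrix.single (Sum.inl (Sum.inl k) : Io l) (Sum.inr ()) 1 +
        Matrix.single (Sum.inr () : Io l) (Sum.inl (Sum.inr k)) (-1)) := by
  unfold urhoM
  ext r c
  rcases r with (r | r) | r <;> rcases c with (c | c) | c <;>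
    simp [Matrix.single_apply, Matrix.one_apply]
  split_ifs <;> simp

/-- a matrix commuting with `1 + b E_{pq} + E_{po} - E_{oq}` -/
theorem oh1b_comm_rho {n : Type*} [Fintype n] [DecidableEq n] {K : Type*} [Field K]
    (M : Matrix n n K) (p q o : n) (hpo : p ≠ o) (hqo : q ≠ o) (b : K)
    (h : (1 + (Matrix.single p q b + Matrix.single p o 1 + Matrix.single o q (-1))) * M =
      M * (1 + (Matrix.single p q b + Matrix.single p o 1 + Matrix.single o q (-1)))) :
    (∀ r, r ≠ p → r ≠ o → M r p = 0 → M r o = 0) ∧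
    (∀ c, c ≠ q → c ≠ o → M q c = 0 → M o c = 0) := by
  have h1 : (Matrix.single p q b + Matrix.single p o 1 + Matrix.single o q (-1)) * M =
      M * (Matrix.single p q b + Matrix.single p o 1 + Matrix.single o q (-1)) := by
    rw [Matrix.add_mul, Matrix.mul_add, Matrix.one_mul, Matrix.mul_one] at h
    exact add_left_cancel h
  constructor
  · intro r hrp hro hM
    have h2 := congrFun (congrFun h1 r) q
    rw [Matrix.add_mul, Matrix.add_mul, Matrix.mul_add, Matrix.mul_add] at h2
    simp only [Matrix.add_apply] at h2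
    rw [Matrix.single_mul_apply_of_ne (h := hrp), Matrix.single_mul_apply_of_ne (h := hrp),
      Matrix.single_mul_apply_of_ne (h := hro), Matrix.mul_single_apply_same,
      Matrix.mul_single_apply_of_ne (hbj := hqo), Matrix.mul_single_apply_same, hM] at h2
    linear_combination h2
  · intro c hcq hco hM
    have h2 := congrFun (congrFun h1 p) c
    rw [Matrix.add_mul, Matrix.add_mul, Matrix.mul_add, Matrix.mul_add] at h2
    simp only [Matrix.add_apply] at h2
    rw [Matrix.single_mul_apply_same, Matrix.single_mul_apply_same,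
      Matrix.single_mul_apply_of_ne (h := hpo), Matrix.mul_single_apply_of_ne (hbj := hcq),
      Matrix.mul_single_apply_of_ne (hbj := hco), Matrix.mul_single_apply_of_ne (hbj := hcq),
      hM] at h2
    linear_combination h2

theorem center_Uo (l : ℕ) (K : Type*) [Field K] (σ : K →+* K) (hσ : ∀ x, σ (σ x) = x) (ε : K) (hε0 : ε ≠ 0) (hε : σ ε = -ε)
    (t₁ : K) (ht₁ : t₁ + σ t₁ = 1) (hl : 2 ≤ l)
    (z : GUo l K σ) (hz : InUo l K σ z)
    (hc : ∀ u : GUo l K σ, InUo l K σ u → u * z = z * u) :
    ∃ z' : GU l K σ, z = jemb l K σ z' := by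
  -- step 1: the columns `e_j` and the rows `f_j` of `z` are standard off the diagonal
  have hstd : ∀ j : Fin l,
      (∀ r : Io l, r ≠ Sum.inl (Sum.inl j) → mato l K σ z r (Sum.inl (Sum.inl j)) = 0) ∧
      (∀ c : Io l, c ≠ Sum.inl (Sum.inr j) → mato l K σ z (Sum.inl (Sum.inr j)) c = 0) := by
    intro j
    have hu : InUo l K σ (jemb l K σ (uyy l K σ j ε hε)) :=
      (jemb_inUo_iff l K σ _).2 (uyy_inU l K σ j ε hε)
    have h1 := congrArg (mato l K σ) (hc _ hu)
    rw [mato_mul, mato_mul, oh1b_uyy_mat] at h1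
    exact oh1b_comm_single (mato l K σ z) _ _ ε hε0 h1
  -- step 2: commuting with `ρ(e_k, -t₁ E_kk)`
  have hrho : ∀ k : Fin l,
      (∀ i : Fin l, i ≠ k → mato l K σ z (Sum.inl (Sum.inl i)) (Sum.inr ()) = 0) ∧
      (∀ j : Fin l, j ≠ k → mato l K σ z (Sum.inr ()) (Sum.inl (Sum.inr j)) = 0) := by
    intro k
    have hB : (Matrix.single k k (-t₁)).map σ = -(Matrix.single k k (-t₁))ᵀ -
        (Matrix.single k () (1 : K) : Matrix (Fin l) Unit K).map σ *
          (Matrix.single k () (1 : K) : Matrix (Fin l) Unit K)ᵀ := by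
      ext r s
      rw [Matrix.map_apply, Matrix.sub_apply, Matrix.neg_apply, Matrix.transpose_apply,
        Matrix.mul_apply, Fintype.sum_unique]
      simp only [Matrix.map_apply, Matrix.transpose_apply, Matrix.single_apply]
      by_cases hr : k = r
      · by_cases hs : k = s
        · subst hr
          subst hs
          simp
          linear_combination (-1 : K) * ht₁
        · subst hr
          simp [hs]
      · simp [hr]
    have hu := urho_inUo l K σ hσ _ _ hB
    have h1 := congrArg (mato l K σ) (hc _ hu)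
    rw [mato_mul, mato_mul, urho_mat l K σ hσ _ _ hB, oh1b_rho_mat] at h1
    obtain ⟨ha, hb⟩ := oh1b_comm_rho (mato l K σ z) (Sum.inl (Sum.inl k)) (Sum.inl (Sum.inr k))
      (Sum.inr ()) (by simp) (by simp) (-t₁) h1
    constructor
    · intro i hik
      exact ha _ (by simpa using hik) (by simp) ((hstd k).1 _ (by simpa using hik))
    · intro j hjk
      exact hb _ (by simpa using hjk) (by simp) ((hstd k).2 _ (by simpa using hjk))
  -- two different indices
  obtain ⟨k₁, k₂, hk⟩ : ∃ k₁ k₂ : Fin l, k₁ ≠ k₂ :=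
    ⟨⟨0, by omega⟩, ⟨1, by omega⟩, by simp [Fin.ext_iff]⟩
  have ha0 : ∀ i : Fin l, mato l K σ z (Sum.inl (Sum.inl i)) (Sum.inr ()) = 0 := by
    intro i
    by_cases h : i = k₁
    · exact (hrho k₂).1 i (by rw [h]; exact hk)
    · exact (hrho k₁).1 i h
  have hb0 : ∀ j : Fin l, mato l K σ z (Sum.inr ()) (Sum.inl (Sum.inr j)) = 0 := by
    intro j
    by_cases h : j = k₁
    · exact (hrho k₂).2 j (by rw [h]; exact hk)
    · exact (hrho k₁).2 j h
  obtain ⟨-, -, hz3, hz4, hz5⟩ := hz
  apply eq_jemb_of_blocks l K σ z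
  · ext r c
    rcases r with r | r
    · exact ha0 r
    · exact hz4 r
  · ext r c
    rcases c with c | c
    · exact hz3 c
    · exact hb0 c
  · ext r c
    rcases r with ⟨⟩
    rcases c with ⟨⟩
    show mato l K σ z (Sum.inr ()) (Sum.inr ()) = (1 : Matrix Unit Unit K) () ()
    rw [Matrix.one_apply_eq]
    exact hz5

end Cfsg.Agent.Lib.Helper91.SuO
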