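import Mathlib
import Cfsg.Agent.Lib.Helper91.SuO
import Cfsg.Agent.Lib.Helper91.SuOOM1
import Cfsg.Agent.Lib.Helper91.SuOOM2
import Cfsg.Agent.Lib.Helper91.SuOOM3
import Cfsg.Agent.Lib.Helper91.SuOOM4
import Cfsg.Agent.Lib.Helper91.SuOOINV
import Cfsg.Agent.Lib.Helper91.SuOOJ
import Cfsg.Agent.Lib.Helper91.SuOOSH
import Cfsg.Agent.Lib.Helper91.SuOODET

set_option autoImplicit false

/-! S5172 (odd case) piece OH2a: the Borel subgroup lies in the closure of `U'`, the diagonal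
`SL`-torus of the Levi factor and the rank-one torus `h3`.  (proof by helper57, job 1290) -/

namespace Cfsg.Agent.Lib.Helper91.SuO

open Matrix Cfsg.Agent.Lib.Helper91.SpU Cfsg.Agent.Lib.Helper91.SuU

/-- left multiplication by a block diagonal matrix, on the three blocks relevant for `StabE` -/
theorem h2a_blockdiag_mul (l : ℕ) (K : Type*) [Field K] (P Q : Matrix (Fin l) (Fin l) K)
    (R : Matrix Unit Unit K) (M : Matrix (Io l) (Io l) K) :
    ((fromBlocks (fromBlocks P 0 0 Q) 0 0 R : Matrix (Io l) (Io l) K) * M).toBlocks₁₁.toBlocks₂₁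
        = Q * M.toBlocks₁₁.toBlocks₂₁ ∧
    ((fromBlocks (fromBlocks P 0 0 Q) 0 0 R : Matrix (Io l) (Io l) K) * M).toBlocks₁₁.toBlocks₁₁
        = P * M.toBlocks₁₁.toBlocks₁₁ ∧
    ∀ j : Fin l, ((fromBlocks (fromBlocks P 0 0 Q) 0 0 R : Matrix (Io l) (Io l) K) * M)
        (Sum.inr ()) (Sum.inl (Sum.inl j)) = R () () * M (Sum.inr ()) (Sum.inl (Sum.inl j)) := by
  obtain ⟨G, x, y, d, rfl⟩ : ∃ G x y d, M = fromBlocks G x y d :=
    ⟨_, _, _, _, (Matrix.fromBlocks_toBlocks M).symm⟩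
  obtain ⟨A, B, C, D, rfl⟩ : ∃ A B C D, G = fromBlocks A B C D :=
    ⟨_, _, _, _, (Matrix.fromBlocks_toBlocks G).symm⟩
  simp only [Matrix.fromBlocks_multiply, Matrix.toBlocks_fromBlocks₁₁,
    Matrix.toBlocks_fromBlocks₂₁, Matrix.zero_mul, add_zero, zero_add]
  refine ⟨trivial, trivial, ?_⟩
  intro j
  rw [Matrix.fromBlocks_apply₂₁, Matrix.fromBlocks_apply₂₁, Matrix.mul_apply]
  simp

theorem tri_mem_closure_suo (l : ℕ) (K : Type*) [Field K] (σ : K →+* K) (hσ : ∀ x, σ (σ x) = x)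
    (g : GUo l K σ) (hg : InBo l K σ g) (i₀ : Fin l) :
    g ∈ Subgroup.closure
      ({x : GUo l K σ | InUo l K σ x} ∪
        {x | ∃ s : SpecialLinearGroup (Fin l) K,
          (∀ i j : Fin l, i ≠ j → (s : Matrix (Fin l) (Fin l) K) i j = 0) ∧
            x = jemb l K σ (uphi l K σ hσ s)} ∪
        {x | ∃ t : K, t ≠ 0 ∧ mato l K σ x = h3M l K σ i₀ t}) := by
  classical
  obtain ⟨h21, htri0, hrow⟩ := hg
  obtain ⟨A, hA⟩ : ∃ A, A = (mato l K σ g).toBlocks₁₁.toBlocks₁₁ := ⟨_, rfl⟩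
  obtain ⟨D, hD⟩ : ∃ D, D = (mato l K σ g).toBlocks₁₁.toBlocks₂₂ := ⟨_, rfl⟩
  have hAD : Aᵀ * D.map σ = 1 := by
    rw [hA, hD]
    exact (stabE_shape l K σ g ⟨h21, hrow⟩).2
  have hdet2 : A.det * σ D.det = 1 := by
    have h4 := congrArg Matrix.det hAD
    rw [Matrix.det_mul, Matrix.det_transpose, Matrix.det_one] at h4
    have h5 : (D.map σ).det = σ D.det := by
      rw [← RingHom.mapMatrix_apply, ← RingHom.map_det]
    rw [h5] at h4
    exact h4
  have hdet : A.det ≠ 0 := by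
    intro h0
    rw [h0, zero_mul] at hdet2
    exact zero_ne_one hdet2
  have htri : A.BlockTriangular id := by
    intro i j hij
    rw [hA]; exact htri0 i j hij
  have hdet' : A.det = ∏ i, A i i := Matrix.det_of_isUpperTriangular htri
  obtain ⟨τ, hτdef⟩ : ∃ τ : K, τ = ∏ i, A i i := ⟨_, rfl⟩
  have hτA : A.det = τ := by rw [hτdef, hdet']
  have hτ : τ ≠ 0 := by rw [← hτA]; exact hdet
  have hστ : σ τ ≠ 0 := (map_ne_zero σ).mpr hτ
  have ht : ∀ i, A i i ≠ 0 := by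
    intro i
    rw [hτdef] at hτ
    exact (Finset.prod_ne_zero_iff.mp hτ) i (Finset.mem_univ i)
  -- the `SL` part and its inverse
  have hd1 : (Matrix.diagonal (fun k => if k = i₀ then A k k * τ⁻¹ else A k k)).det = 1 := by
    rw [Matrix.det_diagonal]
    have h5 : ∀ k : Fin l, (if k = i₀ then A k k * τ⁻¹ else A k k)
        = A k k * (if k = i₀ then τ⁻¹ else 1) := by
      intro k
      split_ifs <;> simp
    rw [Finset.prod_congr rfl (fun k _ => h5 k), Finset.prod_mul_distrib,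
      Finset.prod_ite_eq' Finset.univ i₀ (fun _ => τ⁻¹), if_pos (Finset.mem_univ _), ← hτdef]
    exact mul_inv_cancel₀ hτ
  have hd1' : (Matrix.diagonal (fun k => if k = i₀ then (A k k)⁻¹ * τ else (A k k)⁻¹)).det
      = 1 := by
    rw [Matrix.det_diagonal]
    have h5 : ∀ k : Fin l, (if k = i₀ then (A k k)⁻¹ * τ else (A k k)⁻¹)
        = (A k k)⁻¹ * (if k = i₀ then τ else 1) := by
      intro k
      split_ifs <;> simp
    rw [Finset.prod_congr rfl (fun k _ => h5 k), Finset.prod_mul_distrib,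
      Finset.prod_ite_eq' Finset.univ i₀ (fun _ => τ), if_pos (Finset.mem_univ _),
      Finset.prod_inv_distrib, ← hτdef]
    exact inv_mul_cancel₀ hτ
  obtain ⟨d₁, hd1def⟩ : ∃ d₁ : SpecialLinearGroup (Fin l) K,
      d₁.1 = Matrix.diagonal (fun k => if k = i₀ then A k k * τ⁻¹ else A k k) :=
    ⟨⟨_, hd1⟩, rfl⟩
  obtain ⟨d₂, hd2def⟩ : ∃ d₂ : SpecialLinearGroup (Fin l) K,
      d₂.1 = Matrix.diagonal (fun k => if k = i₀ then (A k k)⁻¹ * τ else (A k k)⁻¹) :=
    ⟨⟨_, hd1'⟩, rfl⟩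
  have hd12 : d₁ * d₂ = 1 := by
    apply Subtype.ext
    change d₁.1 * d₂.1 = 1
    rw [hd1def, hd2def, Matrix.diagonal_mul_diagonal, ← Matrix.diagonal_one]
    congr 1; funext k
    split_ifs
    · field_simp [ht k]
    · exact mul_inv_cancel₀ (ht k)
  -- the rank-one torus parts
  obtain ⟨x₂, hx2def⟩ : ∃ x₂ : GUo l K σ, x₂ = ofMat l K σ (h3M l K σ i₀ τ) := ⟨_, rfl⟩
  obtain ⟨x₃, hx3def⟩ : ∃ x₃ : GUo l K σ, x₃ = ofMat l K σ (h3M l K σ i₀ τ⁻¹) := ⟨_, rfl⟩
  have hx2 : mato l K σ x₂ = h3M l K σ i₀ τ := by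
    rw [hx2def]; exact h3_mat l K σ hσ i₀ τ hτ
  have hx3 : mato l K σ x₃ = h3M l K σ i₀ τ⁻¹ := by
    rw [hx3def]; exact h3_mat l K σ hσ i₀ τ⁻¹ (inv_ne_zero hτ)
  have hx23 : x₂ * x₃ = 1 := by
    apply mato_ext
    rw [mato_mul, hx2, hx3, mato_one]
    unfold h3M
    simp only [Matrix.fromBlocks_multiply, Matrix.mul_zero, Matrix.zero_mul, add_zero, zero_add,
      Matrix.diagonal_mul_diagonal]
    have e1 : (fun i : Fin l => (if i = i₀ then τ else 1) * (if i = i₀ then τ⁻¹ else 1)) =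
        fun _ => 1 := by
      funext k
      split_ifs
      · exact mul_inv_cancel₀ hτ
      · exact mul_one 1
    have e2 : (fun i : Fin l => (if i = i₀ then (σ τ)⁻¹ else 1) *
        (if i = i₀ then (σ τ⁻¹)⁻¹ else 1)) = fun _ => 1 := by
      funext k
      split_ifs
      · rw [map_inv₀, inv_inv, inv_mul_cancel₀ hστ]
      · exact mul_one 1
    have e3 : (fun _ : Unit => σ τ * τ⁻¹ * (σ τ⁻¹ * τ⁻¹⁻¹)) = fun _ => 1 := by
      funext _
      rw [map_inv₀, inv_inv]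
      field_simp
    rw [e1, e2, e3]
    simp only [Matrix.diagonal_one, Matrix.fromBlocks_one]
  -- the unipotent part
  have hg' : InUo l K σ (x₃ * (jemb l K σ (uphi l K σ hσ d₂) * g)) := by
    obtain ⟨N, hN⟩ : ∃ N, N = mato l K σ (jemb l K σ (uphi l K σ hσ d₂) * g) := ⟨_, rfl⟩
    have hN' : N = fromBlocks (fromBlocks (d₂ : Matrix (Fin l) (Fin l) K) 0 0
        (((d₂⁻¹ : SpecialLinearGroup (Fin l) K) : Matrix (Fin l) (Fin l) K).map σ)ᵀ) 0 0 1 *
        mato l K σ g := by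
      rw [hN, mato_mul, jemb_mat, uphi_mat]
    obtain ⟨n1, n2, n3⟩ := h2a_blockdiag_mul l K (d₂ : Matrix (Fin l) (Fin l) K)
      (((d₂⁻¹ : SpecialLinearGroup (Fin l) K) : Matrix (Fin l) (Fin l) K).map σ)ᵀ 1 (mato l K σ g)
    rw [← hN'] at n1 n2 n3
    have hcoe : mato l K σ (x₃ * (jemb l K σ (uphi l K σ hσ d₂) * g)) =
        h3M l K σ i₀ τ⁻¹ * N := by
      rw [mato_mul, hx3, hN]
    obtain ⟨m1, m2, m3⟩ := h2a_blockdiag_mul l K
      (Matrix.diagonal (fun k => if k = i₀ then τ⁻¹ else 1))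
      (Matrix.diagonal (fun k => if k = i₀ then (σ τ⁻¹)⁻¹ else 1))
      (Matrix.diagonal (fun _ => σ τ⁻¹ * τ⁻¹⁻¹)) N
    have hh3 : h3M l K σ i₀ τ⁻¹ = fromBlocks (fromBlocks
        (Matrix.diagonal (fun k => if k = i₀ then τ⁻¹ else 1)) 0 0
        (Matrix.diagonal (fun k => if k = i₀ then (σ τ⁻¹)⁻¹ else 1))) 0 0
        (Matrix.diagonal (fun _ => σ τ⁻¹ * τ⁻¹⁻¹)) := rfl
    rw [← hh3, ← hcoe] at m1 m2 m3
    apply inUo_of_stabE
    · constructor
      · rw [m1, n1, h21, Matrix.mul_zero, Matrix.mul_zero]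
      · intro j
        rw [m3, n3, hrow j, mul_zero, mul_zero]
    · rw [m2, n2, ← hA, ← Matrix.mul_assoc, hd2def, Matrix.diagonal_mul_diagonal]
      have e1 : (fun i : Fin l => (if i = i₀ then τ⁻¹ else 1) *
          (if i = i₀ then (A i i)⁻¹ * τ else (A i i)⁻¹)) = fun k => (A k k)⁻¹ := by
        funext k
        split_ifs
        · field_simp
        · exact one_mul _
      rw [e1]
      constructor
      · intro i j hji
        rw [Matrix.diagonal_mul, htri hji, mul_zero]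
      · intro i
        rw [Matrix.diagonal_mul, inv_mul_cancel₀ (ht i)]
  have hgeq : g = jemb l K σ (uphi l K σ hσ d₁) * x₂ *
      (x₃ * (jemb l K σ (uphi l K σ hσ d₂) * g)) := by
    have h7 : jemb l K σ (uphi l K σ hσ d₁) * x₂ * (x₃ * (jemb l K σ (uphi l K σ hσ d₂) * g)) =
        jemb l K σ (uphi l K σ hσ d₁) * (x₂ * x₃) * jemb l K σ (uphi l K σ hσ d₂) * g := by
      group
    rw [h7, hx23, mul_one, ← map_mul, ← map_mul, hd12, map_one, map_one, one_mul]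
  rw [hgeq]
  refine mul_mem (mul_mem ?_ ?_) ?_
  · apply Subgroup.subset_closure
    refine Or.inl (Or.inr ⟨d₁, ?_, rfl⟩)
    intro i j hij
    rw [hd1def, Matrix.diagonal_apply_ne _ hij]
  · apply Subgroup.subset_closure
    exact Or.inr ⟨τ, hτ, hx2⟩
  · apply Subgroup.subset_closure
    exact Or.inl (Or.inl hg')

end Cfsg.Agent.Lib.Helper91.SuO
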