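import Mathlib
import Cfsg.Agent.Lib.Helper91.SuO
import Cfsg.Agent.Lib.Helper91.SuOOM1
import Cfsg.Agent.Lib.Helper91.SuOOM2
import Cfsg.Agent.Lib.Helper91.SuOOM3
import Cfsg.Agent.Lib.Helper91.SuOOM4
import Cfsg.Agent.Lib.Helper91.SuOOINV
import Cfsg.Agent.Lib.Helper91.SuOOJ
import Cfsg.Agent.Lib.Helper91.SuOOSH
import Cfsg.Agent.Lib.Helper91.SuOODET

set_option autoImplicit false

/-! S5172 (odd case) piece OQ: the radical `Q` (elements fixing every `e_j`) is a subgroup and
lies in the standard Sylow subgroup. -/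

namespace Cfsg.Agent.Lib.Helper91.SuO

open Matrix Cfsg.Agent.Lib.Helper91.SpU Cfsg.Agent.Lib.Helper91.SuU

theorem exists_Qo (l : ℕ) (K : Type*) [Field K] (σ : K →+* K) :
    ∃ Q : Subgroup (GUo l K σ), ∀ g, g ∈ Q ↔ InQ l K σ g := by
  classical
  have hmul : ∀ a b : GUo l K σ, InQ l K σ a → InQ l K σ b → InQ l K σ (a * b) := by
    intro a b ha hb r j
    rw [mato_mul, Matrix.mul_apply]
    have h1 : ∀ c : Io l, mato l K σ a r c * mato l K σ b c (Sum.inl (Sum.inl j)) =
        mato l K σ a r c * (1 : Matrix (Io l) (Io l) K) c (Sum.inl (Sum.inl j)) := by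
      intro c
      rw [hb c j]
    rw [Finset.sum_congr rfl (fun c _ => h1 c), ← Matrix.mul_apply, Matrix.mul_one]
    exact ha r j
  have hinv : ∀ a : GUo l K σ, InQ l K σ a → InQ l K σ a⁻¹ := by
    intro a ha r j
    have h0 : mato l K σ a⁻¹ r (Sum.inl (Sum.inl j)) =
        (mato l K σ a⁻¹ * (1 : Matrix (Io l) (Io l) K)) r (Sum.inl (Sum.inl j)) := by
      rw [Matrix.mul_one]
    rw [h0, Matrix.mul_apply]
    have h1 : ∀ c : Io l, mato l K σ a⁻¹ r c * (1 : Matrix (Io l) (Io l) K) c (Sum.inl (Sum.inl j)) =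
        mato l K σ a⁻¹ r c * mato l K σ a c (Sum.inl (Sum.inl j)) := by
      intro c
      rw [ha c j]
    rw [Finset.sum_congr rfl (fun c _ => h1 c), ← Matrix.mul_apply, mato_inv_mul]
  refine ⟨{ carrier := {g | InQ l K σ g}
            mul_mem' := fun {a b} ha hb => hmul a b ha hb
            one_mem' := ?_
            inv_mem' := fun {a} ha => hinv a ha }, fun g => Iff.rfl⟩
  intro r j
  rw [mato_one]

theorem inQ_inUo (l : ℕ) (K : Type*) [Field K] (σ : K →+* K) (g : GUo l K σ) (hg : InQ l K σ g) :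
    InUo l K σ g := by
  classical
  refine inUo_of_stabE l K σ g ⟨?_, ?_⟩ ⟨?_, ?_⟩
  · ext i j
    have h := hg (Sum.inl (Sum.inr i)) j
    simp only [Matrix.toBlocks₁₁, Matrix.toBlocks₂₁, Matrix.of_apply, Matrix.zero_apply]
    rw [h]
    simp
  · intro j
    rw [hg (Sum.inr ()) j]
    simp
  · intro i j hji
    have h := hg (Sum.inl (Sum.inl i)) j
    simp only [Matrix.toBlocks₁₁, Matrix.of_apply]
    rw [h, Matrix.one_apply_ne]
    intro e
    have : i = j := Sum.inl_injective (Sum.inl_injective e)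
    exact (ne_of_gt hji) this
  · intro i
    have h := hg (Sum.inl (Sum.inl i)) i
    simp only [Matrix.toBlocks₁₁, Matrix.of_apply]
    rw [h, Matrix.one_apply_eq]

end Cfsg.Agent.Lib.Helper91.SuO
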