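import Mathlib
import Cfsg.Agent.Lib.Helper91.SuO
import Cfsg.Agent.Lib.Helper91.SuOOM1
import Cfsg.Agent.Lib.Helper91.SuOOM2
import Cfsg.Agent.Lib.Helper91.SuOOM3
import Cfsg.Agent.Lib.Helper91.SuOOM4
import Cfsg.Agent.Lib.Helper91.SuOOINV
import Cfsg.Agent.Lib.Helper91.SuOOJ
import Cfsg.Agent.Lib.Helper91.SuOOSH
import Cfsg.Agent.Lib.Helper91.SuOODET

set_option autoImplicit false

/-! S5172 (odd case) piece OQ2: the radical `Q` is self-centralizing in `U'`. -/

namespace Cfsg.Agent.Lib.Helper91.SuO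

open Matrix Cfsg.Agent.Lib.Helper91.SpU Cfsg.Agent.Lib.Helper91.SuU

/-- the matrix of the test element `jemb (uyy j ε)` -/
private theorem oq2_test_mat (l : ℕ) (K : Type*) [Field K] (σ : K →+* K) (j : Fin l) (ε : K)
    (hε : σ ε = -ε) :
    mato l K σ (jemb l K σ (uyy l K σ j ε hε)) =
      fromBlocks (fromBlocks 1 (Matrix.single j j ε) 0 1) 0 0 1 := by
  rw [jemb_mat, uyy_mat]

/-- the test element lies in `Q` -/
private theorem oq2_test_inQ (l : ℕ) (K : Type*) [Field K] (σ : K →+* K) (j : Fin l) (ε : K)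
    (hε : σ ε = -ε) : InQ l K σ (jemb l K σ (uyy l K σ j ε hε)) := by
  intro r k
  rw [oq2_test_mat]
  have h1 : (1 : Matrix (Io l) (Io l) K) =
      fromBlocks (fromBlocks (1 : Matrix (Fin l) (Fin l) K) 0 0 1) 0 0 1 := by
    rw [Matrix.fromBlocks_one, Matrix.fromBlocks_one]
  rw [h1]
  rcases r with (r | r) | r
  · simp [Matrix.fromBlocks]
  · simp [Matrix.fromBlocks]
  · simp [Matrix.fromBlocks]

theorem Qo_selfcent (l : ℕ) (K : Type*) [Field K] (σ : K →+* K) (hσ : ∀ x, σ (σ x) = x) (ε : K) (hε0 : ε ≠ 0) (hε : σ ε = -ε)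
    (c : GUo l K σ) (hc : InUo l K σ c)
    (hcomm : ∀ x : GUo l K σ, InQ l K σ x → c * x = x * c) : InQ l K σ c := by
  obtain ⟨h21, hUT, ho, _, _⟩ := hc
  -- off-diagonal entries of the `A`-block vanish
  have hA : ∀ r j : Fin l, r ≠ j →
      mato l K σ c (Sum.inl (Sum.inl r)) (Sum.inl (Sum.inl j)) = 0 := by
    intro r j hrj
    have h := congrArg (mato l K σ) (hcomm _ (oq2_test_inQ l K σ j ε hε))
    rw [mato_mul, mato_mul, oq2_test_mat] at h
    have h' := congrFun (congrFun h (Sum.inl (Sum.inl r))) (Sum.inl (Sum.inr j))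
    rw [Matrix.mul_apply, Matrix.mul_apply, Fintype.sum_sum_type, Fintype.sum_sum_type,
      Fintype.sum_sum_type, Fintype.sum_sum_type] at h'
    simp only [Matrix.fromBlocks_apply₁₁, Matrix.fromBlocks_apply₁₂, Matrix.fromBlocks_apply₂₁,
      Matrix.fromBlocks_apply₂₂, Matrix.one_apply, Matrix.zero_apply, Matrix.single_apply,
      mul_ite, mul_one, mul_zero, ite_mul, one_mul, zero_mul, Finset.sum_ite_eq,
      Finset.sum_ite_eq', Finset.mem_univ, if_true, Finset.sum_const_zero, add_zero,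
      Finset.univ_unique, Finset.sum_singleton] at h'
    have h'' : mato l K σ c (Sum.inl (Sum.inl r)) (Sum.inl (Sum.inl j)) * ε = 0 := by
      simpa [hrj, Ne.symm hrj] using h'
    rcases mul_eq_zero.mp h'' with h1 | h1
    · exact h1
    · exact absurd h1 hε0
  intro r k
  rcases r with (r | r) | r
  · by_cases hrk : r = k
    · subst hrk
      rw [Matrix.one_apply_eq]
      exact hUT.2 r
    · rw [Matrix.one_apply_ne (by simpa using hrk)]
      exact hA r k hrk
  · rw [Matrix.one_apply_ne (by simp)]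
    exact congrFun (congrFun h21 r) k
  · rw [Matrix.one_apply_ne (by simp)]
    exact ho k

end Cfsg.Agent.Lib.Helper91.SuO
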