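import Mathlib
import Cfsg.Agent.Lib.Helper91.SuO
import Cfsg.Agent.Lib.Helper91.SuOOM1
import Cfsg.Agent.Lib.Helper91.SuOOM2
import Cfsg.Agent.Lib.Helper91.SuOOM3
import Cfsg.Agent.Lib.Helper91.SuOOM4
import Cfsg.Agent.Lib.Helper91.SuOOINV
import Cfsg.Agent.Lib.Helper91.SuOOJ
import Cfsg.Agent.Lib.Helper91.SuOOSH
import Cfsg.Agent.Lib.Helper91.SuOODET

set_option autoImplicit false

/-! S5172 (odd case) piece OQC: `Q` is normalized by every element stabilizing `E`. -/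

namespace Cfsg.Agent.Lib.Helper91.SuO

open Matrix Cfsg.Agent.Lib.Helper91.SpU Cfsg.Agent.Lib.Helper91.SuU

theorem Qo_conj (l : ℕ) (K : Type*) [Field K] (σ : K →+* K) (g : GUo l K σ) (hg : StabE l K σ g)
    (hg' : StabE l K σ g⁻¹) (x : GUo l K σ) (hx : InQ l K σ x) : InQ l K σ (g * x * g⁻¹) := by
  intro r j
  have hN'f : ∀ (i j : Fin l),
      mato l K σ g⁻¹ (Sum.inl (Sum.inr i)) (Sum.inl (Sum.inl j)) = 0 := by
    intro i j
    have h := congrFun (congrFun hg'.1 i) j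
    exact h
  have key : ∀ (c : Io l) (j : Fin l),
      (mato l K σ x * mato l K σ g⁻¹) c (Sum.inl (Sum.inl j)) =
        mato l K σ g⁻¹ c (Sum.inl (Sum.inl j)) := by
    intro c j
    have h1 : mato l K σ g⁻¹ c (Sum.inl (Sum.inl j)) =
        ((1 : Matrix (Io l) (Io l) K) * mato l K σ g⁻¹) c (Sum.inl (Sum.inl j)) := by
      rw [Matrix.one_mul]
    rw [h1, Matrix.mul_apply, Matrix.mul_apply]
    apply Finset.sum_congr rfl
    rintro ((i | i) | ⟨⟩) _
    · rw [hx c i]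
    · rw [hN'f i j, mul_zero, mul_zero]
    · rw [hg'.2 j, mul_zero, mul_zero]
  rw [mato_mul, mato_mul, Matrix.mul_assoc, Matrix.mul_apply]
  rw [Finset.sum_congr rfl (fun c _ => by rw [key c j])]
  rw [← Matrix.mul_apply, mato_mul_inv]

end Cfsg.Agent.Lib.Helper91.SuO
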