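import Mathlib
import Cfsg.Agent.Lib.Helper91.SuO
import Cfsg.Agent.Lib.Helper91.SuOOM1
import Cfsg.Agent.Lib.Helper91.SuOOM2
import Cfsg.Agent.Lib.Helper91.SuOOM3
import Cfsg.Agent.Lib.Helper91.SuOOM4
import Cfsg.Agent.Lib.Helper91.SuOOINV
import Cfsg.Agent.Lib.Helper91.SuOOJ
import Cfsg.Agent.Lib.Helper91.SuOOSH
import Cfsg.Agent.Lib.Helper91.SuOODET

set_option autoImplicit false

/-! S5172 (odd case) piece OR: the radical `R` of the stabilizer of `e_{i₁}` is a subgroup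
contained in `U'`. (proof by helper6, job 1295) -/

namespace Cfsg.Agent.Lib.Helper91.SuO

open Matrix Cfsg.Agent.Lib.Helper91.SpU Cfsg.Agent.Lib.Helper91.SuU

theorem or_ostar_ostar (l : ℕ) (x : Io l) : ostar l (ostar l x) = x := by
  rcases x with ((i | i) | u) <;> rfl

theorem or_ostar_eq_e (l : ℕ) (x : Io l) (i : Fin l) :
    ostar l x = Sum.inl (Sum.inl i) ↔ x = Sum.inl (Sum.inr i) := by
  rcases x with ((j | j) | u) <;> simp [ostar]

theorem or_ostar_eq_f (l : ℕ) (x : Io l) (i : Fin l) :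
    ostar l x = Sum.inl (Sum.inr i) ↔ x = Sum.inl (Sum.inl i) := by
  rcases x with ((j | j) | u) <;> simp [ostar]

theorem or_ostar_inj (l : ℕ) {x y : Io l} (h : ostar l x = ostar l y) : x = y := by
  rw [← or_ostar_ostar l x, h, or_ostar_ostar]

/-- column `e_{i₁}` of an element of `R` is standard -/
theorem or_colE (l : ℕ) (K : Type*) [Field K] (σ : K →+* K) (i₁ : Fin l) (g : GUo l K σ)
    (hg : InR l K σ i₁ g) (r : Io l) :
    mato l K σ g r (Sum.inl (Sum.inl i₁)) = (1 : Matrix (Io l) (Io l) K) r (Sum.inl (Sum.inl i₁)) :=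
  hg r _ (fun h => h.2 rfl) (fun h => by simp at h)

/-- row `f_{i₁}` of an element of `R` is standard -/
theorem or_rowF (l : ℕ) (K : Type*) [Field K] (σ : K →+* K) (i₁ : Fin l) (g : GUo l K σ)
    (hg : InR l K σ i₁ g) (c : Io l) :
    mato l K σ g (Sum.inl (Sum.inr i₁)) c = (1 : Matrix (Io l) (Io l) K) (Sum.inl (Sum.inr i₁)) c :=
  hg _ c (fun h => by simp at h) (fun h => h.2 rfl)

theorem or_mul (l : ℕ) (K : Type*) [Field K] (σ : K →+* K) (i₁ : Fin l) (g h : GUo l K σ)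
    (hg : InR l K σ i₁ g) (hh : InR l K σ i₁ h) : InR l K σ i₁ (g * h) := by
  intro r c hrc1 hrc2
  rw [mato_mul, Matrix.mul_apply]
  have h1 : (1 : Matrix (Io l) (Io l) K) r c =
      ∑ k, (1 : Matrix (Io l) (Io l) K) r k * (1 : Matrix (Io l) (Io l) K) k c := by
    rw [← Matrix.mul_apply, Matrix.one_mul]
  rw [h1]
  refine Finset.sum_congr rfl fun k _ => ?_
  by_cases hS1 : r = Sum.inl (Sum.inl i₁) ∧ k ≠ Sum.inl (Sum.inl i₁)
  · -- then `c = e₁` and both sides vanish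
    have hc : c = Sum.inl (Sum.inl i₁) := by
      by_contra hc
      exact hrc1 ⟨hS1.1, hc⟩
    rw [hc, or_colE l K σ i₁ h hh k, Matrix.one_apply_ne hS1.2, mul_zero, mul_zero]
  · by_cases hS2 : k = Sum.inl (Sum.inr i₁) ∧ r ≠ Sum.inl (Sum.inr i₁)
    · have hc : c ≠ Sum.inl (Sum.inr i₁) := fun hc => hrc2 ⟨hc, hS2.2⟩
      rw [hS2.1, or_rowF l K σ i₁ h hh c, Matrix.one_apply_ne (Ne.symm hc), mul_zero, mul_zero]
    · rw [hg r k hS1 hS2]
      by_cases hS3 : k = Sum.inl (Sum.inl i₁) ∧ c ≠ Sum.inl (Sum.inl i₁)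
      · have hr : r ≠ Sum.inl (Sum.inl i₁) := fun hr => hrc1 ⟨hr, hS3.2⟩
        rw [hS3.1, Matrix.one_apply_ne hr, zero_mul, zero_mul]
      · by_cases hS4 : c = Sum.inl (Sum.inr i₁) ∧ k ≠ Sum.inl (Sum.inr i₁)
        · have hr : r = Sum.inl (Sum.inr i₁) := by
            by_contra hr
            exact hrc2 ⟨hS4.1, hr⟩
          rw [hr, Matrix.one_apply_ne (Ne.symm hS4.2), zero_mul, zero_mul]
        · rw [hh k c hS3 hS4]

theorem or_inv (l : ℕ) (K : Type*) [Field K] (σ : K →+* K) (hσ : ∀ x, σ (σ x) = x) (i₁ : Fin l)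
    (g : GUo l K σ) (hg : InR l K σ i₁ g) : InR l K σ i₁ g⁻¹ := by
  intro r c hrc1 hrc2
  rw [mato_inv_apply l K σ hσ g r c]
  have h1 : mato l K σ g (ostar l c) (ostar l r) =
      (1 : Matrix (Io l) (Io l) K) (ostar l c) (ostar l r) := by
    apply hg
    · rintro ⟨ha, hb⟩
      apply hrc2
      refine ⟨(or_ostar_eq_e l c i₁).mp ha, fun hr => hb ?_⟩
      rw [hr]
      rfl
    · rintro ⟨ha, hb⟩
      apply hrc1
      refine ⟨(or_ostar_eq_f l r i₁).mp ha, fun hc => hb ?_⟩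
      rw [hc]
      rfl
  rw [h1]
  by_cases hrc : r = c
  · subst hrc
    rw [Matrix.one_apply_eq, Matrix.one_apply_eq, map_one]
  · have hne : ostar l c ≠ ostar l r := fun h => hrc (or_ostar_inj l h).symm
    rw [Matrix.one_apply_ne hrc, Matrix.one_apply_ne hne, map_zero]

theorem exists_Ro (l : ℕ) (K : Type*) [Field K] (σ : K →+* K) (hσ : ∀ x, σ (σ x) = x) (i₁ : Fin l) :
    ∃ R : Subgroup (GUo l K σ), ∀ g, g ∈ R ↔ InR l K σ i₁ g := by
  refine ⟨{ carrier := {g | InR l K σ i₁ g}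
            mul_mem' := fun {a b} ha hb => or_mul l K σ i₁ a b ha hb
            one_mem' := fun r c _ _ => by rw [mato_one]
            inv_mem' := fun {a} ha => or_inv l K σ hσ i₁ a ha }, fun g => Iff.rfl⟩

theorem inR_inUo (l : ℕ) (K : Type*) [Field K] (σ : K →+* K) (i₁ : Fin l) (h1 : (i₁ : ℕ) = 0)
    (g : GUo l K σ) (hg : InR l K σ i₁ g) : InUo l K σ g := by
  refine ⟨?_, ⟨?_, ?_⟩, ?_, ?_, ?_⟩
  · ext i j
    show mato l K σ g (Sum.inl (Sum.inr i)) (Sum.inl (Sum.inl j)) = 0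
    rw [hg _ _ (fun h => by simp at h) (fun h => by simp at h)]
    exact Matrix.one_apply_ne (by simp)
  · intro i j hji
    show mato l K σ g (Sum.inl (Sum.inl i)) (Sum.inl (Sum.inl j)) = 0
    have hi : i ≠ i₁ := by
      intro hi
      rw [hi] at hji
      have : (j : ℕ) < (i₁ : ℕ) := hji
      omega
    rw [hg _ _ (fun h => hi (Sum.inl.inj (Sum.inl.inj h.1))) (fun h => by simp at h)]
    exact Matrix.one_apply_ne (fun h => (ne_of_gt hji) (Sum.inl.inj (Sum.inl.inj h)))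
  · intro i
    show mato l K σ g (Sum.inl (Sum.inl i)) (Sum.inl (Sum.inl i)) = 1
    rw [hg _ _ (fun h => h.2 h.1) (fun h => by simp at h)]
    exact Matrix.one_apply_eq _
  · intro j
    rw [hg _ _ (fun h => by simp at h) (fun h => by simp at h)]
    exact Matrix.one_apply_ne (by simp)
  · intro i
    rw [hg _ _ (fun h => by simp at h) (fun h => by simp at h)]
    exact Matrix.one_apply_ne (by simp)
  · rw [hg _ _ (fun h => by simp at h) (fun h => by simp at h)]
    exact Matrix.one_apply_eq _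

end Cfsg.Agent.Lib.Helper91.SuO
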