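import Mathlib
import Cfsg.Agent.Lib.Helper91.SuO
import Cfsg.Agent.Lib.Helper91.SuOOM1
import Cfsg.Agent.Lib.Helper91.SuOOM2
import Cfsg.Agent.Lib.Helper91.SuOOM3
import Cfsg.Agent.Lib.Helper91.SuOOM4
import Cfsg.Agent.Lib.Helper91.SuOOINV
import Cfsg.Agent.Lib.Helper91.SuOOJ
import Cfsg.Agent.Lib.Helper91.SuOOSH
import Cfsg.Agent.Lib.Helper91.SuOODET

set_option autoImplicit false

/-! S5172 (odd case) piece OR3: `R` is self-centralizing in `U'`. -/

namespace Cfsg.Agent.Lib.Helper91.SuO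

open Matrix Cfsg.Agent.Lib.Helper91.SpU Cfsg.Agent.Lib.Helper91.SuU

private theorem or3_mul_single {n : Type*} [Fintype n] [DecidableEq n] {K : Type*} [Field K]
    (M : Matrix n n K) (i j a b : n) :
    (M * Matrix.single i j (1 : K)) a b = if b = j then M a i else 0 := by
  by_cases h : b = j
  · subst h
    simp
  · simp [h]

private theorem or3_single_mul {n : Type*} [Fintype n] [DecidableEq n] {K : Type*} [Field K]
    (M : Matrix n n K) (i j a b : n) :
    (Matrix.single i j (1 : K) * M) a b = if a = i then M j b else 0 := by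
  by_cases h : a = i
  · subst h
    simp
  · simp [h]

/-- the test element -/
private theorem or3_test (l : ℕ) (K : Type*) [Field K] (σ : K →+* K) (hσ : ∀ x, σ (σ x) = x)
    (i₁ k : Fin l) (hk : k ≠ i₁) :
    ∃ x : GUo l K σ, mato l K σ x = 1 + Matrix.single (Sum.inl (Sum.inl i₁)) (Sum.inl (Sum.inl k)) 1
      - Matrix.single (Sum.inl (Sum.inr k)) (Sum.inl (Sum.inr i₁)) 1 := by
  classical
  have hne : i₁ ≠ k := fun h => hk h.symm
  obtain ⟨s, hs⟩ : ∃ s : SpecialLinearGroup (Fin l) K,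
      (s : Matrix (Fin l) (Fin l) K) = Matrix.transvection i₁ k (1 : K) :=
    ⟨⟨_, Matrix.det_transvection_of_ne _ _ hne 1⟩, rfl⟩
  have hinv : ((s⁻¹ : SpecialLinearGroup (Fin l) K) : Matrix (Fin l) (Fin l) K) =
      Matrix.transvection i₁ k (-1 : K) := by
    have h1 : s * ⟨Matrix.transvection i₁ k (-1 : K),
        Matrix.det_transvection_of_ne _ _ hne (-1)⟩ = 1 := by
      apply Subtype.ext
      change (s : Matrix (Fin l) (Fin l) K) * Matrix.transvection i₁ k (-1 : K) = 1
      rw [hs, Matrix.transvection_mul_transvection_same _ _ hne, add_neg_cancel,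
        Matrix.transvection_zero]
    rw [inv_eq_of_mul_eq_one_right h1]
  refine ⟨jemb l K σ (uphi l K σ hσ s), ?_⟩
  rw [jemb_mat, uphi_mat, hinv, hs]
  ext ((i | i) | ⟨⟩) ((j | j) | ⟨⟩)
  · simp [Matrix.transvection, Matrix.single_apply, Matrix.one_apply]
  · simp [Matrix.transvection]
  · simp [Matrix.transvection]
  · simp [Matrix.transvection]
  · simp [Matrix.transvection, Matrix.single_apply, Matrix.one_apply]
    have e1 : (if j = i then (1 : K) else 0) = if i = j then 1 else 0 := by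
      simp only [eq_comm]
    rw [e1]
    by_cases h : i₁ = j ∧ k = i
    · have h' : k = i ∧ i₁ = j := ⟨h.2, h.1⟩
      rw [if_pos h, if_pos h', map_neg, map_one]
      ring
    · have h' : ¬ (k = i ∧ i₁ = j) := fun hh => h ⟨hh.2, hh.1⟩
      rw [if_neg h, if_neg h', map_zero]
      ring
  · simp [Matrix.transvection]
  · simp [Matrix.transvection]
  · simp [Matrix.transvection]
  · simp [Matrix.transvection]

/-- the test element lies in `R` -/
private theorem or3_test_inR (l : ℕ) (K : Type*) [Field K] (σ : K →+* K)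
    (i₁ k : Fin l) (hk : k ≠ i₁) (x : GUo l K σ)
    (hx : mato l K σ x = 1 + Matrix.single (Sum.inl (Sum.inl i₁)) (Sum.inl (Sum.inl k)) 1
      - Matrix.single (Sum.inl (Sum.inr k)) (Sum.inl (Sum.inr i₁)) 1) :
    InR l K σ i₁ x := by
  intro r c h1 h2
  rw [hx]
  simp only [Matrix.sub_apply, Matrix.add_apply, Matrix.single_apply]
  have e1 : ¬ (Sum.inl (Sum.inl i₁) = r ∧ Sum.inl (Sum.inl k) = c) := by
    rintro ⟨hr, hc⟩
    apply h1
    refine ⟨hr.symm, ?_⟩
    rw [← hc]
    intro h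
    exact hk (Sum.inl.inj (Sum.inl.inj h))
  have e2 : ¬ (Sum.inl (Sum.inr k) = r ∧ Sum.inl (Sum.inr i₁) = c) := by
    rintro ⟨hr, hc⟩
    apply h2
    refine ⟨hc.symm, ?_⟩
    rw [← hr]
    intro h
    exact hk (Sum.inr.inj (Sum.inl.inj h))
  rw [if_neg e1, if_neg e2, add_zero, sub_zero]

theorem Ro_selfcent (l : ℕ) (K : Type*) [Field K] (σ : K →+* K) (hσ : ∀ x, σ (σ x) = x) (hl : 2 ≤ l) (i₁ : Fin l)
    (h1 : (i₁ : ℕ) = 0) (c : GUo l K σ) (hc : InUo l K σ c)
    (hcomm : ∀ x : GUo l K σ, InR l K σ i₁ x → c * x = x * c) : InR l K σ i₁ c := by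
  classical
  have hStab : StabE l K σ c := ⟨hc.1, hc.2.2.1⟩
  obtain ⟨hU1, hU2, hU3, hU4, hU5⟩ := hc
  have hstar : ∀ k : Fin l, k ≠ i₁ → ∀ r s : Io l,
      (if s = Sum.inl (Sum.inl k) then mato l K σ c r (Sum.inl (Sum.inl i₁)) else 0) -
        (if s = Sum.inl (Sum.inr i₁) then mato l K σ c r (Sum.inl (Sum.inr k)) else 0) =
      (if r = Sum.inl (Sum.inl i₁) then mato l K σ c (Sum.inl (Sum.inl k)) s else 0) -
        (if r = Sum.inl (Sum.inr k) then mato l K σ c (Sum.inl (Sum.inr i₁)) s else 0) := by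
    intro k hk r s
    obtain ⟨x, hx⟩ := or3_test l K σ hσ i₁ k hk
    have h := congrArg (mato l K σ) (hcomm x (or3_test_inR l K σ i₁ k hk x hx))
    rw [mato_mul, mato_mul, hx] at h
    have h' : mato l K σ c * Matrix.single (Sum.inl (Sum.inl i₁)) (Sum.inl (Sum.inl k)) (1 : K) -
        mato l K σ c * Matrix.single (Sum.inl (Sum.inr k)) (Sum.inl (Sum.inr i₁)) (1 : K) =
        Matrix.single (Sum.inl (Sum.inl i₁)) (Sum.inl (Sum.inl k)) (1 : K) * mato l K σ c -
        Matrix.single (Sum.inl (Sum.inr k)) (Sum.inl (Sum.inr i₁)) (1 : K) * mato l K σ c := by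
      have h2 : mato l K σ c * (1 + Matrix.single (Sum.inl (Sum.inl i₁)) (Sum.inl (Sum.inl k)) 1
          - Matrix.single (Sum.inl (Sum.inr k)) (Sum.inl (Sum.inr i₁)) 1) =
          mato l K σ c + (mato l K σ c *
            Matrix.single (Sum.inl (Sum.inl i₁)) (Sum.inl (Sum.inl k)) (1 : K) -
          mato l K σ c * Matrix.single (Sum.inl (Sum.inr k)) (Sum.inl (Sum.inr i₁)) (1 : K)) := by
        rw [Matrix.mul_sub, Matrix.mul_add, Matrix.mul_one, add_sub_assoc]
      have h3 : (1 + Matrix.single (Sum.inl (Sum.inl i₁)) (Sum.inl (Sum.inl k)) 1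
          - Matrix.single (Sum.inl (Sum.inr k)) (Sum.inl (Sum.inr i₁)) 1) * mato l K σ c =
          mato l K σ c + (Matrix.single (Sum.inl (Sum.inl i₁)) (Sum.inl (Sum.inl k)) (1 : K) *
            mato l K σ c -
          Matrix.single (Sum.inl (Sum.inr k)) (Sum.inl (Sum.inr i₁)) (1 : K) * mato l K σ c) := by
        rw [Matrix.sub_mul, Matrix.add_mul, Matrix.one_mul, add_sub_assoc]
      rw [h2, h3] at h
      exact add_left_cancel h
    have h4 := congrFun (congrFun h' r) s
    simp only [Matrix.sub_apply, or3_mul_single, or3_single_mul] at h4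
    exact h4
  -- rows of `A` different from `i₁`
  have c1 : ∀ i j : Fin l, i ≠ i₁ →
      mato l K σ c (Sum.inl (Sum.inl i)) (Sum.inl (Sum.inl j)) = if i = j then 1 else 0 := by
    intro i j hi
    have h := hstar i hi (Sum.inl (Sum.inl i₁)) (Sum.inl (Sum.inl j))
    have hAii : mato l K σ c (Sum.inl (Sum.inl i₁)) (Sum.inl (Sum.inl i₁)) = 1 := hU2.2 i₁
    simp only [hAii, reduceCtorEq, if_false, sub_zero, if_true, Sum.inl.injEq] at h
    rw [← h]
    simp only [eq_comm]
  have c2 : ∀ i j : Fin l, i ≠ i₁ → j ≠ i₁ →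
      mato l K σ c (Sum.inl (Sum.inl i)) (Sum.inl (Sum.inr j)) = 0 := by
    intro i j hi hj
    have h := hstar j hj (Sum.inl (Sum.inl i)) (Sum.inl (Sum.inr i₁))
    simp only [reduceCtorEq, if_false, sub_zero, if_true, Sum.inl.injEq, hi, zero_sub,
      neg_eq_zero] at h
    exact h
  have c3 : ∀ i : Fin l, i ≠ i₁ → mato l K σ c (Sum.inl (Sum.inl i)) (Sum.inr ()) = 0 := by
    intro i hi
    have h := hstar i hi (Sum.inl (Sum.inl i₁)) (Sum.inr ())
    simp only [reduceCtorEq, if_false, sub_zero, if_true, Sum.inl.injEq] at h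
    exact h.symm
  -- `D i₁ i₁ = 1`
  have hD : mato l K σ c (Sum.inl (Sum.inr i₁)) (Sum.inl (Sum.inr i₁)) = 1 := by
    have h := (stabE_shape l K σ c hStab).2
    have h2 := congrFun (congrFun h i₁) i₁
    rw [Matrix.mul_apply, Matrix.one_apply_eq] at h2
    rw [Finset.sum_eq_single i₁] at h2
    · have hAii : mato l K σ c (Sum.inl (Sum.inl i₁)) (Sum.inl (Sum.inl i₁)) = 1 := hU2.2 i₁
      have h3 : σ (mato l K σ c (Sum.inl (Sum.inr i₁)) (Sum.inl (Sum.inr i₁))) = 1 := by
        have : (mato l K σ c).toBlocks₁₁.toBlocks₁₁ᵀ i₁ i₁ *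
            ((mato l K σ c).toBlocks₁₁.toBlocks₂₂.map σ) i₁ i₁ =
            mato l K σ c (Sum.inl (Sum.inl i₁)) (Sum.inl (Sum.inl i₁)) *
              σ (mato l K σ c (Sum.inl (Sum.inr i₁)) (Sum.inl (Sum.inr i₁))) := rfl
        rw [this, hAii, one_mul] at h2
        exact h2
      have h4 := congrArg σ h3
      rw [hσ, map_one] at h4
      exact h4
    · intro t _ ht
      have : (mato l K σ c).toBlocks₁₁.toBlocks₁₁ᵀ i₁ t =
          mato l K σ c (Sum.inl (Sum.inl t)) (Sum.inl (Sum.inl i₁)) := rfl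
      rw [this, c1 t i₁ ht, if_neg ht, zero_mul]
    · intro h
      exact absurd (Finset.mem_univ i₁) h
  have c5 : ∀ i j : Fin l, j ≠ i₁ →
      mato l K σ c (Sum.inl (Sum.inr i)) (Sum.inl (Sum.inr j)) = if i = j then 1 else 0 := by
    intro i j hj
    have h := hstar j hj (Sum.inl (Sum.inr i)) (Sum.inl (Sum.inr i₁))
    simp only [reduceCtorEq, if_false, if_true, Sum.inl.injEq, Sum.inr.injEq, zero_sub,
      neg_inj, hD] at h
    exact h
  have c8 : ∀ j : Fin l, j ≠ i₁ → mato l K σ c (Sum.inr ()) (Sum.inl (Sum.inr j)) = 0 := by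
    intro j hj
    have h := hstar j hj (Sum.inr ()) (Sum.inl (Sum.inr i₁))
    simp only [reduceCtorEq, if_false, sub_zero, if_true, zero_sub, neg_eq_zero,
      Sum.inl.injEq] at h
    exact h
  -- conclusion
  intro r s hr hs
  rcases r with ((i | i) | ⟨⟩) <;> rcases s with ((j | j) | ⟨⟩)
  · -- e, e
    by_cases hi : i = i₁
    · subst hi
      by_cases hj : j = i
      · subst hj
        rw [Matrix.one_apply_eq]
        exact hU2.2 j
      · exact absurd ⟨rfl, fun h => hj (Sum.inl.inj (Sum.inl.inj h))⟩ hr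
    · rw [c1 i j hi, Matrix.one_apply]
      simp only [Sum.inl.injEq]
  · -- e, f
    have hi : i ≠ i₁ := by
      intro hi
      subst hi
      exact hr ⟨rfl, by simp⟩
    have hj : j ≠ i₁ := by
      intro hj
      subst hj
      exact hs ⟨rfl, by simp⟩
    rw [c2 i j hi hj, Matrix.one_apply_ne (by simp)]
  · -- e, o
    have hi : i ≠ i₁ := by
      intro hi
      subst hi
      exact hr ⟨rfl, by simp⟩
    rw [c3 i hi, Matrix.one_apply_ne (by simp)]
  · -- f, e
    have h := congrFun (congrFun hU1 i) j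
    rw [Matrix.one_apply_ne (by simp)]
    exact h
  · -- f, f
    by_cases hj : j = i₁
    · subst hj
      by_cases hi : i = j
      · subst hi
        rw [Matrix.one_apply_eq]
        exact hD
      · exact absurd ⟨rfl, fun h => hi (Sum.inr.inj (Sum.inl.inj h))⟩ hs
    · rw [c5 i j hj, Matrix.one_apply]
      simp only [Sum.inl.injEq, Sum.inr.injEq]
  · -- f, o
    rw [Matrix.one_apply_ne (by simp)]
    exact hU4 i
  · -- o, e
    rw [Matrix.one_apply_ne (by simp)]
    exact hU3 j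
  · -- o, f
    have hj : j ≠ i₁ := by
      intro hj
      subst hj
      exact hs ⟨rfl, by simp⟩
    rw [c8 j hj, Matrix.one_apply_ne (by simp)]
  · -- o, o
    rw [Matrix.one_apply_eq]
    exact hU5

end Cfsg.Agent.Lib.Helper91.SuO
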