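import Mathlib
import Cfsg.Agent.Lib.Helper91.SuO

set_option autoImplicit false

/-! S5172 (odd case) piece ORB (proof by helper89): existence of a valid `B` for every column
`a`. -/

namespace Cfsg.Agent.Lib.Helper91.SuO

open Matrix Cfsg.Agent.Lib.Helper91.SpU Cfsg.Agent.Lib.Helper91.SuU

theorem exists_rhoB (l : ℕ) (K : Type*) [Field K] (σ : K →+* K) (hσ : ∀ x, σ (σ x) = x)
    (htr : ∀ s : K, σ s = s → ∃ t : K, s = t + σ t) (a : Matrix (Fin l) Unit K) :
    ∃ B : Matrix (Fin l) (Fin l) K, B.map σ = -Bᵀ - a.map σ * aᵀ := by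
  have hfix : ∀ i, σ (a i () * σ (a i ())) = a i () * σ (a i ()) := by
    intro i
    rw [map_mul, hσ, mul_comm]
  choose t ht using fun i => htr _ (hfix i)
  refine ⟨Matrix.of fun j k => if j < k then -(a j () * σ (a k ())) else
    if j = k then -t j else 0, ?_⟩
  ext j k
  have hmul : (a.map σ * aᵀ) j k = σ (a j ()) * a k () := by
    rw [Matrix.mul_apply]
    simp
  rw [Matrix.sub_apply, hmul, Matrix.neg_apply, Matrix.transpose_apply, Matrix.map_apply,
    Matrix.of_apply, Matrix.of_apply]
  rcases lt_trichotomy j k with h | h | h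
  · rw [if_pos h, if_neg (not_lt.2 h.le), if_neg h.ne']
    rw [map_neg, map_mul, hσ]
    ring
  · subst h
    rw [if_neg (lt_irrefl j), if_pos rfl, map_neg]
    linear_combination ht j
  · rw [if_neg (not_lt.2 h.le), if_neg h.ne', if_pos h, map_zero]
    ring

end Cfsg.Agent.Lib.Helper91.SuO
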