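import Mathlib
import Cfsg.Agent.Lib.Helper91.SuO
import Cfsg.Agent.Lib.Helper91.SuOOM1
import Cfsg.Agent.Lib.Helper91.SuOOM2
import Cfsg.Agent.Lib.Helper91.SuOOM3
import Cfsg.Agent.Lib.Helper91.SuOOM4
import Cfsg.Agent.Lib.Helper91.SuOOINV
import Cfsg.Agent.Lib.Helper91.SuOOJ
import Cfsg.Agent.Lib.Helper91.SuOOSH
import Cfsg.Agent.Lib.Helper91.SuOODET

set_option autoImplicit false
set_option linter.unusedVariables false

/-! S5172 (odd case) piece ORC: `R` is normalized by every element fixing `e_{i₁}` and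
preserving its orthogonal; `FixE` is inverse-closed. -/

namespace Cfsg.Agent.Lib.Helper91.SuO

open Matrix Cfsg.Agent.Lib.Helper91.SpU Cfsg.Agent.Lib.Helper91.SuU

theorem ORCaux.fixE_inv' (l : ℕ) (K : Type*) [Field K] (σ : K →+* K) (i₁ : Fin l)
    (g : GUo l K σ) (hg : FixE l K σ i₁ g) : FixE l K σ i₁ g⁻¹ := by
  refine ⟨fun r => ?_, fun c => ?_⟩
  · calc mato l K σ g⁻¹ r (Sum.inl (Sum.inl i₁))
        = (mato l K σ g⁻¹ * (1 : Matrix (Io l) (Io l) K)) r (Sum.inl (Sum.inl i₁)) := by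
          rw [Matrix.mul_one]
      _ = ∑ c, mato l K σ g⁻¹ r c * (1 : Matrix (Io l) (Io l) K) c (Sum.inl (Sum.inl i₁)) :=
          Matrix.mul_apply
      _ = ∑ c, mato l K σ g⁻¹ r c * mato l K σ g c (Sum.inl (Sum.inl i₁)) :=
          Finset.sum_congr rfl (fun c _ => by rw [hg.1 c])
      _ = (mato l K σ g⁻¹ * mato l K σ g) r (Sum.inl (Sum.inl i₁)) := Matrix.mul_apply.symm
      _ = (1 : Matrix (Io l) (Io l) K) r (Sum.inl (Sum.inl i₁)) := by rw [mato_inv_mul]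
  · calc mato l K σ g⁻¹ (Sum.inl (Sum.inr i₁)) c
        = ((1 : Matrix (Io l) (Io l) K) * mato l K σ g⁻¹) (Sum.inl (Sum.inr i₁)) c := by
          rw [Matrix.one_mul]
      _ = ∑ r, (1 : Matrix (Io l) (Io l) K) (Sum.inl (Sum.inr i₁)) r * mato l K σ g⁻¹ r c :=
          Matrix.mul_apply
      _ = ∑ r, mato l K σ g (Sum.inl (Sum.inr i₁)) r * mato l K σ g⁻¹ r c :=
          Finset.sum_congr rfl (fun r _ => by rw [hg.2 r])
      _ = (mato l K σ g * mato l K σ g⁻¹) (Sum.inl (Sum.inr i₁)) c := Matrix.mul_apply.symm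
      _ = (1 : Matrix (Io l) (Io l) K) (Sum.inl (Sum.inr i₁)) c := by rw [mato_mul_inv]

theorem Ro_conj (l : ℕ) (K : Type*) [Field K] (σ : K →+* K) (hσ : ∀ x, σ (σ x) = x) (i₁ : Fin l) (g : GUo l K σ)
    (hg : FixE l K σ i₁ g) (x : GUo l K σ) (hx : InR l K σ i₁ x) :
    InR l K σ i₁ (g * x * g⁻¹) := by
  intro r c h1 h2
  have hg' := ORCaux.fixE_inv' l K σ i₁ g hg
  have hNN' : mato l K σ g * mato l K σ g⁻¹ = 1 := mato_mul_inv l K σ g
  have hY : ∀ k m : Io l, ¬ (k = Sum.inl (Sum.inl i₁) ∧ m ≠ Sum.inl (Sum.inl i₁)) →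
      ¬ (m = Sum.inl (Sum.inr i₁) ∧ k ≠ Sum.inl (Sum.inr i₁)) →
      (mato l K σ x - 1) k m = 0 := by
    intro k m hk hm
    rw [Matrix.sub_apply, hx k m hk hm, sub_self]
  have hdec : mato l K σ (g * x * g⁻¹)
      = 1 + mato l K σ g * (mato l K σ x - 1) * mato l K σ g⁻¹ := by
    rw [mato_mul, mato_mul, Matrix.mul_sub, Matrix.sub_mul, Matrix.mul_one, hNN']
    abel
  have hz : (mato l K σ g * (mato l K σ x - 1) * mato l K σ g⁻¹) r c = 0 := by
    rw [Matrix.mul_apply]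
    refine Finset.sum_eq_zero (fun m _ => ?_)
    rw [Matrix.mul_apply, Finset.sum_mul]
    refine Finset.sum_eq_zero (fun k _ => ?_)
    by_cases hk : k = Sum.inl (Sum.inl i₁) ∧ m ≠ Sum.inl (Sum.inl i₁)
    · obtain ⟨rfl, hm⟩ := hk
      by_cases hr : r = Sum.inl (Sum.inl i₁)
      · have hc : c = Sum.inl (Sum.inl i₁) := by
          by_contra hc
          exact h1 ⟨hr, hc⟩
        rw [hc, hg'.1 m, Matrix.one_apply_ne hm, mul_zero]
      · rw [hg.1 r, Matrix.one_apply_ne hr, zero_mul, zero_mul]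
    · by_cases hm : m = Sum.inl (Sum.inr i₁) ∧ k ≠ Sum.inl (Sum.inr i₁)
      · obtain ⟨rfl, hk'⟩ := hm
        by_cases hc : c = Sum.inl (Sum.inr i₁)
        · have hr : r = Sum.inl (Sum.inr i₁) := by
            by_contra hr
            exact h2 ⟨hc, hr⟩
          rw [hr, hg.2 k, Matrix.one_apply_ne (Ne.symm hk'), zero_mul, zero_mul]
        · rw [hg'.2 c, Matrix.one_apply_ne (Ne.symm hc), mul_zero]
      · rw [hY k m hk hm, mul_zero, zero_mul]
  rw [hdec, Matrix.add_apply, hz, add_zero]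

theorem fixE_inv (l : ℕ) (K : Type*) [Field K] (σ : K →+* K) (i₁ : Fin l) (g : GUo l K σ)
    (hg : FixE l K σ i₁ g) : FixE l K σ i₁ g⁻¹ :=
  ORCaux.fixE_inv' l K σ i₁ g hg

end Cfsg.Agent.Lib.Helper91.SuO
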