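import Mathlib
import Cfsg.Agent.Lib.Helper91.SuO
import Cfsg.Agent.Lib.Helper91.SuOOM1
import Cfsg.Agent.Lib.Helper91.SuOOM2
import Cfsg.Agent.Lib.Helper91.SuOOM3
import Cfsg.Agent.Lib.Helper91.SuOOM4
import Cfsg.Agent.Lib.Helper91.SuOOINV
import Cfsg.Agent.Lib.Helper91.SuOOJ
import Cfsg.Agent.Lib.Helper91.SuOOSH
import Cfsg.Agent.Lib.Helper91.SuOODET

set_option autoImplicit false
set_option linter.unusedSimpArgs false
set_option linter.unusedSectionVars false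

/-! S5172 (odd case) piece OTL (proof by helper89): the `SU₃` torus identity. -/

namespace Cfsg.Agent.Lib.Helper91.SuO

open Matrix Cfsg.Agent.Lib.Helper91.SpU Cfsg.Agent.Lib.Helper91.SuU

section otl

variable (l : ℕ) (K : Type*) [Field K]

/-- the three indices `e_{i₀}`, `o`, `f_{i₀}` -/
def otlκ (i₀ : Fin l) : Fin 3 → Io l :=
  ![Sum.inl (Sum.inl i₀), Sum.inr (), Sum.inl (Sum.inr i₀)]

theorem otlκ_inj (i₀ : Fin l) : Function.Injective (otlκ l i₀) := by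
  intro i j h
  fin_cases i <;> fin_cases j <;> simp [otlκ] at h ⊢

open Classical in
/-- the decomposition of the index set into the three indices and the rest -/
noncomputable def otlE (i₀ : Fin l) : Fin 3 ⊕ ↥(Set.range (otlκ l i₀))ᶜ ≃ Io l :=
  (Equiv.sumCongr (Equiv.ofInjective _ (otlκ_inj l i₀)) (Equiv.refl _)).trans
    (Equiv.Set.sumCompl (Set.range (otlκ l i₀)))

theorem otlE_inl (i₀ : Fin l) (i : Fin 3) : otlE l i₀ (Sum.inl i) = otlκ l i₀ i := rfl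

theorem otlE_inr (i₀ : Fin l) (s : ↥(Set.range (otlκ l i₀))ᶜ) : otlE l i₀ (Sum.inr s) = s.1 := rfl

theorem otl_notin (i₀ : Fin l) (r : Io l) (hr : r ∉ Set.range (otlκ l i₀)) :
    (∃ k, k ≠ i₀ ∧ r = Sum.inl (Sum.inl k)) ∨ (∃ k, k ≠ i₀ ∧ r = Sum.inl (Sum.inr k)) := by
  rcases r with (k | k) | ⟨⟩
  · left
    refine ⟨k, ?_, rfl⟩
    rintro rfl
    exact hr ⟨0, rfl⟩
  · right
    refine ⟨k, ?_, rfl⟩
    rintro rfl
    exact hr ⟨2, rfl⟩
  · exact absurd ⟨1, rfl⟩ hr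

variable {l K}

theorem otl_sub (i₀ : Fin l) (M : Matrix (Io l) (Io l) K) (X : Matrix (Fin 3) (Fin 3) K)
    (h₁ : ∀ i j, M (otlκ l i₀ i) (otlκ l i₀ j) = X i j)
    (h₂ : ∀ r c, r ∉ Set.range (otlκ l i₀) → M r c = (1 : Matrix (Io l) (Io l) K) r c)
    (h₃ : ∀ r c, c ∉ Set.range (otlκ l i₀) → M r c = (1 : Matrix (Io l) (Io l) K) r c) :
    M.submatrix (otlE l i₀) (otlE l i₀) = fromBlocks X 0 0 1 := by
  ext (i | s) (j | s')
  · rw [Matrix.submatrix_apply, otlE_inl, otlE_inl, Matrix.fromBlocks_apply₁₁]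
    exact h₁ i j
  · rw [Matrix.submatrix_apply, otlE_inl, otlE_inr, Matrix.fromBlocks_apply₁₂, h₃ _ _ s'.2,
      Matrix.one_apply_ne]
    · rfl
    · intro h
      exact s'.2 ⟨i, h⟩
  · rw [Matrix.submatrix_apply, otlE_inl, otlE_inr, Matrix.fromBlocks_apply₂₁, h₂ _ _ s.2,
      Matrix.one_apply_ne]
    · rfl
    · intro h
      exact s.2 ⟨j, h.symm⟩
  · rw [Matrix.submatrix_apply, otlE_inr, otlE_inr, Matrix.fromBlocks_apply₂₂, h₂ _ _ s.2,
      Matrix.one_apply, Matrix.one_apply]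
    by_cases h : s = s'
    · rw [if_pos h, if_pos (congrArg Subtype.val h)]
    · rw [if_neg h, if_neg (fun h' => h (Subtype.ext h'))]

theorem otl_sub_inj (i₀ : Fin l) (M N : Matrix (Io l) (Io l) K)
    (h : M.submatrix (otlE l i₀) (otlE l i₀) = N.submatrix (otlE l i₀) (otlE l i₀)) : M = N := by
  ext r c
  have h' := congrFun (congrFun h ((otlE l i₀).symm r)) ((otlE l i₀).symm c)
  simpa using h'

theorem otl_urhoM (σ : K →+* K) (a : Matrix (Fin l) Unit K) (B : Matrix (Fin l) (Fin l) K) :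
    urhoM l K σ a B =
      fromBlocks (fromBlocks 1 B 0 1) (fromRows a 0) (fromCols 0 (-(a.map σ)ᵀ)) 1 := rfl

theorem otl_urhoLM (σ : K →+* K) (a : Matrix (Fin l) Unit K) (C : Matrix (Fin l) (Fin l) K) :
    urhoLM l K σ a C =
      fromBlocks (fromBlocks 1 0 C 1) (fromRows 0 a) (fromCols (-(a.map σ)ᵀ) 0) 1 := rfl

theorem otl_h3M (σ : K →+* K) (i₀ : Fin l) (t : K) :
    h3M l K σ i₀ t = fromBlocks
      (fromBlocks (Matrix.diagonal (fun k => if k = i₀ then t else 1)) 0 0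
        (Matrix.diagonal (fun k => if k = i₀ then (σ t)⁻¹ else 1)))
      0 0 (Matrix.diagonal (fun _ => σ t * t⁻¹)) := rfl

/-- the matrix of `zu` in terms of the three indices -/
theorem otl_zu (σ : K →+* K) (i₀ : Fin l) (a b : K) :
    (urhoM l K σ (Matrix.single i₀ () a) (Matrix.single i₀ i₀ b)).submatrix (otlE l i₀)
      (otlE l i₀) = fromBlocks !![1, a, b; 0, 1, -σ a; 0, 0, 1] 0 0 1 := by
  apply otl_sub
  · intro i j
    fin_cases i <;> fin_cases j <;> simp [otlκ, otl_urhoM, Matrix.single_apply]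
  · intro r c hr
    rcases otl_notin l i₀ r hr with ⟨k, hk, rfl⟩ | ⟨k, hk, rfl⟩ <;>
      rcases c with (j | j) | ⟨⟩ <;>
      simp [otl_urhoM, Matrix.single_apply, Matrix.one_apply, hk, hk.symm]
  · intro r c hc
    rcases otl_notin l i₀ c hc with ⟨k, hk, rfl⟩ | ⟨k, hk, rfl⟩ <;>
      rcases r with (j | j) | ⟨⟩ <;>
      simp [otl_urhoM, Matrix.single_apply, Matrix.one_apply, hk, hk.symm]

/-- the matrix of `zl` in terms of the three indices -/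
theorem otl_zl (σ : K →+* K) (i₀ : Fin l) (a b : K) :
    (urhoLM l K σ (Matrix.single i₀ () a) (Matrix.single i₀ i₀ b)).submatrix (otlE l i₀)
      (otlE l i₀) = fromBlocks !![1, 0, 0; -σ a, 1, 0; b, a, 1] 0 0 1 := by
  apply otl_sub
  · intro i j
    fin_cases i <;> fin_cases j <;> simp [otlκ, otl_urhoLM, Matrix.single_apply]
  · intro r c hr
    rcases otl_notin l i₀ r hr with ⟨k, hk, rfl⟩ | ⟨k, hk, rfl⟩ <;>
      rcases c with (j | j) | ⟨⟩ <;>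
      simp [otl_urhoLM, Matrix.single_apply, Matrix.one_apply, hk, hk.symm]
  · intro r c hc
    rcases otl_notin l i₀ c hc with ⟨k, hk, rfl⟩ | ⟨k, hk, rfl⟩ <;>
      rcases r with (j | j) | ⟨⟩ <;>
      simp [otl_urhoLM, Matrix.single_apply, Matrix.one_apply, hk, hk.symm]

/-- the torus element in terms of the three indices -/
theorem otl_h3 (σ : K →+* K) (i₀ : Fin l) (t : K) :
    (h3M l K σ i₀ t).submatrix (otlE l i₀) (otlE l i₀) =
      fromBlocks !![t, 0, 0; 0, σ t * t⁻¹, 0; 0, 0, (σ t)⁻¹] 0 0 1 := by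
  apply otl_sub
  · intro i j
    fin_cases i <;> fin_cases j <;> simp [otlκ, otl_h3M, Matrix.diagonal_apply]
  · intro r c hr
    rcases otl_notin l i₀ r hr with ⟨k, hk, rfl⟩ | ⟨k, hk, rfl⟩ <;>
      rcases c with (j | j) | ⟨⟩ <;>
      simp [otl_h3M, Matrix.diagonal_apply, Matrix.one_apply, hk, hk.symm]
  · intro r c hc
    rcases otl_notin l i₀ c hc with ⟨k, hk, rfl⟩ | ⟨k, hk, rfl⟩ <;>
      rcases r with (j | j) | ⟨⟩ <;>
      simp [otl_h3M, Matrix.diagonal_apply, Matrix.one_apply, hk, hk.symm] <;>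
      split_ifs <;> simp_all

theorem otl_sub_mul (i₀ : Fin l) (M N : Matrix (Io l) (Io l) K) :
    (M * N).submatrix (otlE l i₀) (otlE l i₀) =
      M.submatrix (otlE l i₀) (otlE l i₀) * N.submatrix (otlE l i₀) (otlE l i₀) :=
  (Matrix.submatrix_mul_equiv M N _ (otlE l i₀) _).symm

theorem otl_N (a a' b s : K) (hb : b ≠ 0) (hs : s ≠ 0) (h : b + s + a * a' = 0) :
    (!![1, 0, 0; -(-a' / b), 1, 0; 1 / s, -a / s, 1] : Matrix (Fin 3) (Fin 3) K) *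
      !![1, a, b; 0, 1, -a'; 0, 0, 1] * !![1, 0, 0; -(-a' / s), 1, 0; 1 / s, -a / b, 1] =
      !![0, 0, b; 0, -s / b, 0; 1 / s, 0, 0] := by
  ext i j
  fin_cases i <;> fin_cases j <;>
    simp [Matrix.mul_apply, Fin.sum_univ_three] <;> field_simp <;>
    first
      | ring1
      | linear_combination h
      | linear_combination a' * h
      | linear_combination (-a) * h

theorem otl_W (ε : K) (hε0 : ε ≠ 0) :
    (!![1, 0, 0; -0, 1, 0; 1 / ε, 0, 1] : Matrix (Fin 3) (Fin 3) K) *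
      (!![1, 0, -ε; 0, 1, -0; 0, 0, 1] * !![1, 0, 0; -0, 1, 0; 1 / ε, 0, 1]) =
      !![0, 0, -ε; 0, 1, 0; 1 / ε, 0, 0] := by
  ext i j
  fin_cases i <;> fin_cases j <;>
    simp [Matrix.mul_apply, Fin.sum_univ_three, hε0]

theorem otl_fin (b s t st ε : K) (hb : b = t * ε) (hs : s = -(st * ε)) (ht : t ≠ 0)
    (hst : st ≠ 0) (hε0 : ε ≠ 0) :
    (!![0, 0, b; 0, -s / b, 0; 1 / s, 0, 0] : Matrix (Fin 3) (Fin 3) K) *
      !![0, 0, -ε; 0, 1, 0; 1 / ε, 0, 0] = !![t, 0, 0; 0, st * t⁻¹, 0; 0, 0, st⁻¹] := by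
  subst hb hs
  ext i j
  fin_cases i <;> fin_cases j <;>
    simp [Matrix.mul_apply, Fin.sum_univ_three, hε0, ht, hst] <;> field_simp

end otl

theorem torus_su3 (l : ℕ) (K : Type*) [Field K] (σ : K →+* K) (hσ : ∀ x, σ (σ x) = x) (ε : K) (hε0 : ε ≠ 0) (hε : σ ε = -ε)
    (hN : ∀ s : K, σ s = s → ∃ a : K, a * σ a = s) (i₀ : Fin l) (t : K) (ht : t ≠ 0)
    (x : GUo l K σ) (hx : mato l K σ x = h3M l K σ i₀ t) :
    ∃ a₁ b₁ a₂ b₂ a₃ b₃ a₄ b₄ a₅ b₅ a₆ b₆ : K,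
      b₁ + σ b₁ + a₁ * σ a₁ = 0 ∧ b₂ + σ b₂ + a₂ * σ a₂ = 0 ∧ b₃ + σ b₃ + a₃ * σ a₃ = 0 ∧
      b₄ + σ b₄ + a₄ * σ a₄ = 0 ∧ b₅ + σ b₅ + a₅ * σ a₅ = 0 ∧ b₆ + σ b₆ + a₆ * σ a₆ = 0 ∧
      x = zl l K σ i₀ a₁ b₁ * zu l K σ i₀ a₂ b₂ * zl l K σ i₀ a₃ b₃ * zl l K σ i₀ a₄ b₄ *
        zu l K σ i₀ a₅ b₅ * zl l K σ i₀ a₆ b₆ := by
  obtain ⟨b, hb⟩ : ∃ b : K, b = t * ε := ⟨_, rfl⟩
  have hσt0 : σ t ≠ 0 := by
    intro h
    apply ht
    have h' := congrArg σ h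
    rwa [hσ, map_zero] at h'
  have hσb : σ b = -(σ t * ε) := by
    rw [hb, map_mul, hε]
    ring
  have hb0 : b ≠ 0 := by
    rw [hb]
    exact mul_ne_zero ht hε0
  have hσb0 : σ b ≠ 0 := by
    rw [hσb]
    exact neg_ne_zero.2 (mul_ne_zero hσt0 hε0)
  have hfix : σ (-(b + σ b)) = -(b + σ b) := by
    rw [map_neg, map_add, hσ]
    ring
  obtain ⟨a, ha⟩ := hN _ hfix
  have hab : b + σ b + a * σ a = 0 := by
    rw [ha]
    ring
  have hσε : σ (1 / ε) = -(1 / ε) := by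
    rw [map_div₀, map_one, hε, div_neg]
  have h1 : σ (-a / σ b) = -σ a / b := by
    rw [map_div₀, map_neg, hσ]
  have h3 : σ (-a / b) = -σ a / σ b := by
    rw [map_div₀, map_neg]
  have h1b : σ (1 / σ b) = 1 / b := by
    rw [map_div₀, map_one, hσ]
  have v1 : 1 / σ b + σ (1 / σ b) + -a / σ b * σ (-a / σ b) = 0 := by
    rw [h1b, h1]
    field_simp
    linear_combination hab
  have v3 : 1 / σ b + σ (1 / σ b) + -a / b * σ (-a / b) = 0 := by
    rw [h1b, h3]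
    field_simp
    linear_combination hab
  have v4 : 1 / ε + σ (1 / ε) + 0 * σ 0 = 0 := by
    rw [hσε]
    ring
  have v5 : -ε + σ (-ε) + 0 * σ 0 = 0 := by
    rw [map_neg, hε]
    ring
  refine ⟨-a / σ b, 1 / σ b, a, b, -a / b, 1 / σ b, 0, 1 / ε, 0, -ε, 0, 1 / ε, v1, hab, v3, v4,
    v5, v4, ?_⟩
  apply mato_ext
  rw [hx, mato_mul, mato_mul, mato_mul, mato_mul, mato_mul, zl_mat l K σ hσ i₀ _ _ v1,
    zu_mat l K σ hσ i₀ _ _ hab, zl_mat l K σ hσ i₀ _ _ v3, zl_mat l K σ hσ i₀ _ _ v4,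
    zu_mat l K σ hσ i₀ _ _ v5]
  apply otl_sub_inj i₀
  simp only [otl_sub_mul, otl_zl, otl_zu, otl_h3, Matrix.fromBlocks_multiply, Matrix.mul_zero,
    Matrix.zero_mul, add_zero, zero_add, Matrix.mul_one]
  congr 1
  rw [h1, h3, map_zero, Matrix.mul_assoc, Matrix.mul_assoc,
    otl_N a (σ a) b (σ b) hb0 hσb0 hab, otl_W ε hε0,
    otl_fin b (σ b) t (σ t) ε hb hσb ht hσt0 hε0]

end Cfsg.Agent.Lib.Helper91.SuO
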