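import Mathlib
import Cfsg.Agent.Lib.Helper91.SuO
import Cfsg.Agent.Lib.Helper91.SuOOM1
import Cfsg.Agent.Lib.Helper91.SuOOM2
import Cfsg.Agent.Lib.Helper91.SuOOM3
import Cfsg.Agent.Lib.Helper91.SuOOM4
import Cfsg.Agent.Lib.Helper91.SuOOINV
import Cfsg.Agent.Lib.Helper91.SuOOJ
import Cfsg.Agent.Lib.Helper91.SuOOSH
import Cfsg.Agent.Lib.Helper91.SuOODET

set_option autoImplicit false

/-! S5172 (odd case) piece OTN: diagonal elements of `GUo` normalize `U'` (filled by helper21). -/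

namespace Cfsg.Agent.Lib.Helper91.SuO

open Matrix Cfsg.Agent.Lib.Helper91.SpU Cfsg.Agent.Lib.Helper91.SuU

/-- the inverse of a diagonal element: `(x⁻¹) r c * x c c = δ_{rc}` -/
theorem otn_inv_entry (l : ℕ) (K : Type*) [Field K] (σ : K →+* K)
    (x : GUo l K σ) (hx : ∀ a b : Io l, a ≠ b → mato l K σ x a b = 0) (r c : Io l) :
    mato l K σ x⁻¹ r c * mato l K σ x c c = (1 : Matrix (Io l) (Io l) K) r c := by
  have h1 := congrFun (congrFun (mato_inv_mul l K σ x) r) c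
  rw [Matrix.mul_apply] at h1
  rw [← h1]
  symm
  apply Finset.sum_eq_single c
  · intro k _ hk
    rw [hx k c hk, mul_zero]
  · intro h
    exact absurd (Finset.mem_univ c) h

theorem otn_diag_ne_zero (l : ℕ) (K : Type*) [Field K] (σ : K →+* K)
    (x : GUo l K σ) (hx : ∀ a b : Io l, a ≠ b → mato l K σ x a b = 0) (c : Io l) :
    mato l K σ x c c ≠ 0 := by
  have h1 := otn_inv_entry l K σ x hx c c
  rw [Matrix.one_apply_eq] at h1
  exact right_ne_zero_of_mul_eq_one h1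

theorem otn_inv_diag (l : ℕ) (K : Type*) [Field K] (σ : K →+* K)
    (x : GUo l K σ) (hx : ∀ a b : Io l, a ≠ b → mato l K σ x a b = 0) :
    ∀ a b : Io l, a ≠ b → mato l K σ x⁻¹ a b = 0 := by
  intro a b hab
  have h1 := otn_inv_entry l K σ x hx a b
  rw [Matrix.one_apply_ne hab] at h1
  rcases mul_eq_zero.mp h1 with h | h
  · exact h
  · exact absurd h (otn_diag_ne_zero l K σ x hx b)

theorem otn_diag_mul_inv (l : ℕ) (K : Type*) [Field K] (σ : K →+* K)
    (x : GUo l K σ) (hx : ∀ a b : Io l, a ≠ b → mato l K σ x a b = 0) (c : Io l) :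
    mato l K σ x c c * mato l K σ x⁻¹ c c = 1 := by
  have h1 := otn_inv_entry l K σ x hx c c
  rw [Matrix.one_apply_eq] at h1
  rw [mul_comm]
  exact h1

/-- entries of a conjugate by a diagonal element -/
theorem otn_conj_entry (l : ℕ) (K : Type*) [Field K] (σ : K →+* K)
    (x : GUo l K σ) (hx : ∀ a b : Io l, a ≠ b → mato l K σ x a b = 0) (u : GUo l K σ)
    (r c : Io l) :
    mato l K σ (x * u * x⁻¹) r c = mato l K σ x r r * mato l K σ u r c * mato l K σ x⁻¹ c c := by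
  rw [mato_mul, mato_mul, Matrix.mul_apply]
  have h1 : ∑ k, (mato l K σ x * mato l K σ u) r k * mato l K σ x⁻¹ k c
      = (mato l K σ x * mato l K σ u) r c * mato l K σ x⁻¹ c c := by
    apply Finset.sum_eq_single c
    · intro k _ hk
      rw [otn_inv_diag l K σ x hx k c hk, mul_zero]
    · intro h
      exact absurd (Finset.mem_univ c) h
  rw [h1, Matrix.mul_apply]
  have h2 : ∑ k, mato l K σ x r k * mato l K σ u k c = mato l K σ x r r * mato l K σ u r c := by
    apply Finset.sum_eq_single r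
    · intro k _ hk
      rw [hx r k (Ne.symm hk), zero_mul]
    · intro h
      exact absurd (Finset.mem_univ r) h
  rw [h2]

theorem otn_conj_inUo (l : ℕ) (K : Type*) [Field K] (σ : K →+* K)
    (x : GUo l K σ) (hx : ∀ a b : Io l, a ≠ b → mato l K σ x a b = 0) (u : GUo l K σ)
    (hu : InUo l K σ u) : InUo l K σ (x * u * x⁻¹) := by
  obtain ⟨h1, h2, h3, h4, h5⟩ := hu
  have e := otn_conj_entry l K σ x hx u
  refine ⟨?_, ⟨?_, ?_⟩, ?_, ?_, ?_⟩
  · ext i j
    show mato l K σ (x * u * x⁻¹) (Sum.inl (Sum.inr i)) (Sum.inl (Sum.inl j)) = 0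
    have h6 : mato l K σ u (Sum.inl (Sum.inr i)) (Sum.inl (Sum.inl j)) = 0 :=
      congrFun (congrFun h1 i) j
    rw [e, h6, mul_zero, zero_mul]
  · intro i j hji
    show mato l K σ (x * u * x⁻¹) (Sum.inl (Sum.inl i)) (Sum.inl (Sum.inl j)) = 0
    have h6 : mato l K σ u (Sum.inl (Sum.inl i)) (Sum.inl (Sum.inl j)) = 0 := h2.1 i j hji
    rw [e, h6, mul_zero, zero_mul]
  · intro i
    show mato l K σ (x * u * x⁻¹) (Sum.inl (Sum.inl i)) (Sum.inl (Sum.inl i)) = 1
    have h6 : mato l K σ u (Sum.inl (Sum.inl i)) (Sum.inl (Sum.inl i)) = 1 := h2.2 i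
    rw [e, h6, mul_one]
    exact otn_diag_mul_inv l K σ x hx _
  · intro j
    rw [e, h3 j, mul_zero, zero_mul]
  · intro i
    rw [e, h4 i, mul_zero, zero_mul]
  · rw [e, h5, mul_one]
    exact otn_diag_mul_inv l K σ x hx _

theorem diag_normalizes_Uo (l : ℕ) (K : Type*) [Field K] (σ : K →+* K) (hσ : ∀ x, σ (σ x) = x)
    (U : Subgroup (GUo l K σ)) (hU : ∀ g, g ∈ U ↔ InUo l K σ g)
    (x : GUo l K σ) (hx : ∀ a b : Io l, a ≠ b → mato l K σ x a b = 0) :
    x ∈ Subgroup.normalizer (U : Set (GUo l K σ)) := by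
  rw [Subgroup.mem_normalizer_iff]
  intro h
  constructor
  · intro hh
    have hh' : h ∈ U := hh
    show x * h * x⁻¹ ∈ U
    rw [hU] at hh' ⊢
    exact otn_conj_inUo l K σ x hx h hh'
  · intro hh
    have hh' : x * h * x⁻¹ ∈ U := hh
    show h ∈ U
    rw [hU] at hh' ⊢
    have h1 := otn_conj_inUo l K σ x⁻¹ (otn_inv_diag l K σ x hx) _ hh'
    rw [inv_inv] at h1
    have e : x⁻¹ * (x * h * x⁻¹) * x = h := by group
    rw [e] at h1
    exact h1

end Cfsg.Agent.Lib.Helper91.SuO
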