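import Mathlib
import Cfsg.Agent.Lib.Helper91.SuO
import Cfsg.Agent.Lib.Helper91.SuOOM1
import Cfsg.Agent.Lib.Helper91.SuOOM2
import Cfsg.Agent.Lib.Helper91.SuOOM3
import Cfsg.Agent.Lib.Helper91.SuOOM4
import Cfsg.Agent.Lib.Helper91.SuOOINV
import Cfsg.Agent.Lib.Helper91.SuOOJ
import Cfsg.Agent.Lib.Helper91.SuOOSH
import Cfsg.Agent.Lib.Helper91.SuOODET

set_option autoImplicit false

/-! S5172 (odd case) piece OUR: elements of `U'` fix the first `e` and preserve its orthogonal.
(proof by helper30, job 1297) -/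

namespace Cfsg.Agent.Lib.Helper91.SuO

open Matrix Cfsg.Agent.Lib.Helper91.SpU Cfsg.Agent.Lib.Helper91.SuU

theorem inUo_fixE (l : ℕ) (K : Type*) [Field K] (σ : K →+* K) (i₁ : Fin l) (h1 : (i₁ : ℕ) = 0)
    (u : GUo l K σ) (hu : InUo l K σ u) : FixE l K σ i₁ u := by
  obtain ⟨hC, hUT, hy, hx, hd⟩ := hu
  have hC' : ∀ i j : Fin l, mato l K σ u (Sum.inl (Sum.inr i)) (Sum.inl (Sum.inl j)) = 0 :=
    fun i j => congrFun (congrFun hC i) j
  have hA : ∀ i : Fin l, mato l K σ u (Sum.inl (Sum.inl i)) (Sum.inl (Sum.inl i₁)) =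
      if i = i₁ then 1 else 0 := by
    intro i
    by_cases h : i = i₁
    · subst h
      rw [if_pos rfl]
      exact hUT.2 i
    · rw [if_neg h]
      apply hUT.1 i i₁
      rw [Fin.lt_def, h1]
      have : (i : ℕ) ≠ 0 := fun h0 => h (Fin.ext (h0.trans h1.symm))
      omega
  obtain ⟨-, hAD⟩ := stabE_shape l K σ u ⟨hC, hy⟩
  constructor
  · rintro ((i | i) | ⟨⟩)
    · rw [hA i]
      simp [Matrix.one_apply]
    · rw [hC']
      simp [Matrix.one_apply]
    · rw [hy]
      simp
  · rintro ((j | j) | ⟨⟩)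
    · rw [hC']
      simp
    · have h := congrFun (congrFun hAD i₁) j
      rw [Matrix.mul_apply] at h
      simp only [Matrix.transpose_apply, Matrix.map_apply, Matrix.toBlocks₁₁, Matrix.toBlocks₂₂,
        Matrix.of_apply] at h
      simp only [hA, ite_mul, one_mul, zero_mul, Finset.sum_ite_eq', Finset.mem_univ,
        if_true] at h
      rw [Matrix.one_apply] at h
      rw [Matrix.one_apply]
      by_cases hij : i₁ = j
      · rw [if_pos hij] at h
        rw [if_pos (by rw [hij])]
        exact RingHom.injective σ (h.trans (map_one σ).symm)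
      · rw [if_neg hij] at h
        rw [if_neg (by simpa using hij)]
        exact RingHom.injective σ (h.trans (map_zero σ).symm)
    · rw [hx]
      simp

end Cfsg.Agent.Lib.Helper91.SuO
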