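import Mathlib
import Cfsg.Agent.Lib.Helper91.SuO

set_option autoImplicit false

/-! S5172 (odd case) piece OVEC (proved by helper68). -/

namespace Cfsg.Agent.Lib.Helper91.SuO

open Matrix Cfsg.Agent.Lib.Helper91.SpU Cfsg.Agent.Lib.Helper91.SuU

theorem vec_all (l : ℕ) (K : Type*) [Field K] (hl : 2 ≤ l)
    (𝒜 : AddSubgroup (Matrix (Fin l) Unit K))
    (hinv : ∀ a ∈ 𝒜, ∀ s : SpecialLinearGroup (Fin l) K,
      (s : Matrix (Fin l) (Fin l) K) * a ∈ 𝒜)
    (a₀ : Matrix (Fin l) Unit K) (ha₀ : a₀ ≠ 0) (h0 : a₀ ∈ 𝒜) :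
    ∀ a : Matrix (Fin l) Unit K, a ∈ 𝒜 := by
  obtain ⟨i, hi⟩ : ∃ i, a₀ i () ≠ 0 := by
    by_contra h
    push Not at h
    apply ha₀
    ext r u
    exact h r
  have htv : ∀ (k j : Fin l), k ≠ j → ∀ c : K, ∀ a ∈ 𝒜, Matrix.single k j c * a ∈ 𝒜 := by
    intro k j hkj c a ha
    have hdet : (1 + Matrix.single k j c : Matrix (Fin l) (Fin l) K).det = 1 :=
      Matrix.det_transvection_of_ne k j hkj c
    have h3 : (1 + Matrix.single k j c) * a ∈ 𝒜 :=
      hinv a ha ⟨1 + Matrix.single k j c, hdet⟩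
    rw [Matrix.add_mul, Matrix.one_mul] at h3
    have := 𝒜.sub_mem h3 ha
    rwa [add_sub_cancel_left] at this
  have hent : ∀ (k j : Fin l) (c : K) (a : Matrix (Fin l) Unit K),
      Matrix.single k j c * a = Matrix.single k () (c * a j ()) := by
    intro k j c a
    ext r u
    by_cases hr : r = k
    · subst hr
      rw [Matrix.single_mul_apply_same, Matrix.single_apply_same]
    · rw [Matrix.single_mul_apply_of_ne _ _ _ _ _ hr, Matrix.single_apply_of_row_ne (Ne.symm hr)]
  have h1 : ∀ k, k ≠ i → ∀ c : K, Matrix.single k () c ∈ 𝒜 := by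
    intro k hk c
    have := htv k i hk (c / a₀ i ()) a₀ h0
    rwa [hent, div_mul_cancel₀ c hi] at this
  have h2 : ∀ k, ∀ c : K, Matrix.single k () c ∈ 𝒜 := by
    intro k c
    by_cases hk : k = i
    · subst hk
      obtain ⟨j, hj⟩ : ∃ j : Fin l, j ≠ k := by
        by_cases h0 : (k : ℕ) = 0
        · exact ⟨⟨1, by omega⟩, fun h => by have := congrArg Fin.val h; simp at this; omega⟩
        · exact ⟨⟨0, by omega⟩, fun h => by have := congrArg Fin.val h; simp at this; omega⟩
      have := htv k j (Ne.symm hj) c _ (h1 j hj 1)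
      rwa [hent, Matrix.single_apply_same, mul_one] at this
    · exact h1 k hk c
  intro a
  have e : a = ∑ k : Fin l, Matrix.single k () (a k ()) := by
    ext r u
    rw [Matrix.sum_apply, Finset.sum_eq_single r]
    · rw [Matrix.single_apply_same]
    · intro b _ hb
      exact Matrix.single_apply_of_row_ne hb _ _ _
    · intro h; exact absurd (Finset.mem_univ r) h
  rw [e]
  exact 𝒜.sum_mem (fun k _ => h2 k _)

end Cfsg.Agent.Lib.Helper91.SuO
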