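import Mathlib
import Cfsg.Agent.Lib.Helper91.SuO
import Cfsg.Agent.Lib.Helper91.SuOOM1
import Cfsg.Agent.Lib.Helper91.SuOOM2
import Cfsg.Agent.Lib.Helper91.SuOOM3
import Cfsg.Agent.Lib.Helper91.SuOOM4
import Cfsg.Agent.Lib.Helper91.SuOOINV
import Cfsg.Agent.Lib.Helper91.SuOOJ
import Cfsg.Agent.Lib.Helper91.SuOOSH
import Cfsg.Agent.Lib.Helper91.SuOODET

set_option autoImplicit false

/-! S5172 (odd case) piece OZP: the opposite root element is a `p`-element (helper58). -/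

namespace Cfsg.Agent.Lib.Helper91.SuO

open Matrix Cfsg.Agent.Lib.Helper91.SpU Cfsg.Agent.Lib.Helper91.SuU

/-- the nilpotent part of `urhoLM a C` has cube zero -/
theorem ozp_cube (l : ℕ) (K : Type*) [Field K] (a : Matrix (Fin l) Unit K)
    (a' : Matrix Unit (Fin l) K) (C : Matrix (Fin l) (Fin l) K) :
    (fromBlocks (fromBlocks 0 0 C 0) (fromRows 0 a) (fromCols a' 0) 0 :
      Matrix (Io l) (Io l) K) ^ 3 = 0 := by
  rw [pow_succ, pow_two]
  simp [Matrix.fromBlocks_multiply, Matrix.fromBlocks_mul_fromRows,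
    Matrix.fromCols_mul_fromBlocks, Matrix.fromCols_mul_fromRows]

/-- `urhoLM a C = 1 + N` -/
theorem ozp_split (l : ℕ) (K : Type*) [Field K] (σ : K →+* K) (a : Matrix (Fin l) Unit K)
    (C : Matrix (Fin l) (Fin l) K) :
    urhoLM l K σ a C = 1 + (fromBlocks (fromBlocks 0 0 C 0) (fromRows 0 a)
      (fromCols (-(a.map σ)ᵀ) 0) 0 : Matrix (Io l) (Io l) K) := by
  unfold urhoLM
  rw [← Matrix.fromBlocks_one, Matrix.fromBlocks_add]
  congr 1
  · rw [← Matrix.fromBlocks_one, Matrix.fromBlocks_add]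
    simp
  · simp
  · simp
  · simp

/-- `urhoLM a C ^ p ^ 2 = 1` in characteristic `p` -/
theorem ozp_pow (l : ℕ) (K : Type*) [Field K] (σ : K →+* K) (p : ℕ) [Fact p.Prime] [CharP K p]
    (a : Matrix (Fin l) Unit K) (C : Matrix (Fin l) (Fin l) K) :
    urhoLM l K σ a C ^ p ^ 2 = 1 := by
  have hp : p.Prime := Fact.out
  rw [ozp_split]
  have h3 := ozp_cube l K a (-(a.map σ)ᵀ) C
  have hN : (fromBlocks (fromBlocks 0 0 C 0) (fromRows 0 a)
      (fromCols (-(a.map σ)ᵀ) 0) 0 : Matrix (Io l) (Io l) K) ^ p ^ 2 = 0 := by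
    have hge : 3 ≤ p ^ 2 := by
      have := hp.two_le
      nlinarith
    obtain ⟨k, hk⟩ := Nat.exists_eq_add_of_le hge
    rw [hk, pow_add, h3, zero_mul]
  have : Nonempty (Io l) := ⟨Sum.inr ()⟩
  have : CharP (Matrix (Io l) (Io l) K) p := Matrix.charP p
  rw [add_pow_char_pow_of_commute p 2 (Commute.one_left _), one_pow, hN, add_zero]

theorem zl_pelem (l : ℕ) (K : Type*) [Field K] (σ : K →+* K) (hσ : ∀ x, σ (σ x) = x) (p : ℕ) [Fact p.Prime] [CharP K p]
    (i₀ : Fin l) (a b : K) (h : b + σ b + a * σ a = 0) : zl l K σ i₀ a b ^ p ^ 2 = 1 := by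
  apply mato_ext
  rw [mato_pow, mato_one, zl_mat l K σ hσ i₀ a b h]
  exact ozp_pow l K σ p _ _

end Cfsg.Agent.Lib.Helper91.SuO
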