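import Mathlib
import Cfsg.Agent.Lib.Helper91.SuO
import Cfsg.Agent.Lib.Helper91.SuOOM1
import Cfsg.Agent.Lib.Helper91.SuOOM2
import Cfsg.Agent.Lib.Helper91.SuOOM3
import Cfsg.Agent.Lib.Helper91.SuOOM4
import Cfsg.Agent.Lib.Helper91.SuOOINV
import Cfsg.Agent.Lib.Helper91.SuOOJ
import Cfsg.Agent.Lib.Helper91.SuOOSH
import Cfsg.Agent.Lib.Helper91.SuOODET

set_option autoImplicit false

/-! S5172 (odd case) piece OZR: the root elements `zu`, `zl` at `i₀ ≠ i₁` satisfy `FixE i₁` (filled by helper29). -/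

namespace Cfsg.Agent.Lib.Helper91.SuO

open Matrix Cfsg.Agent.Lib.Helper91.SpU Cfsg.Agent.Lib.Helper91.SuU

theorem zu_fixE (l : ℕ) (K : Type*) [Field K] (σ : K →+* K) (hσ : ∀ x, σ (σ x) = x) (i₀ i₁ : Fin l) (hne : i₀ ≠ i₁)
    (a b : K) (h : b + σ b + a * σ a = 0) : FixE l K σ i₁ (zu l K σ i₀ a b) := by
  unfold FixE
  rw [zu_mat l K σ hσ i₀ a b h]
  constructor
  · rintro ((i | i) | ⟨⟩)
    · simp [urhoM, Matrix.one_apply]
    · simp [urhoM, Matrix.one_apply]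
    · simp [urhoM, Matrix.one_apply]
  · rintro ((j | j) | ⟨⟩)
    · simp [urhoM, Matrix.one_apply]
    · simp [urhoM, Matrix.one_apply]
    · simp [urhoM, Matrix.one_apply]

theorem zl_fixE (l : ℕ) (K : Type*) [Field K] (σ : K →+* K) (hσ : ∀ x, σ (σ x) = x) (i₀ i₁ : Fin l) (hne : i₀ ≠ i₁)
    (a b : K) (h : b + σ b + a * σ a = 0) : FixE l K σ i₁ (zl l K σ i₀ a b) := by
  unfold FixE
  rw [zl_mat l K σ hσ i₀ a b h]
  have hne' : i₁ ≠ i₀ := fun h' => hne h'.symm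
  constructor
  · rintro ((i | i) | ⟨⟩)
    · simp [urhoLM, Matrix.one_apply]
    · simp [urhoLM, Matrix.one_apply, Matrix.single_apply, hne, hne']
    · simp [urhoLM, Matrix.one_apply, Matrix.single_apply, hne, hne']
  · rintro ((j | j) | ⟨⟩)
    · simp [urhoLM, Matrix.one_apply, Matrix.single_apply, hne, hne']
    · simp [urhoLM, Matrix.one_apply]
    · simp [urhoLM, Matrix.one_apply, Matrix.single_apply, hne, hne']

end Cfsg.Agent.Lib.Helper91.SuO
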