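import Mathlib
import Cfsg.Agent.Lib.Helper91.SuO
import Cfsg.Agent.Lib.Helper57.SURegFRAME

set_option autoImplicit false

/-! S5172 (odd case) piece WO: hyperbolic basis matrix for the standard hermitian form in odd
dimension (from the Witt frame `su_frame`). -/

namespace Cfsg.Agent.Lib.Helper91.SuO

open Matrix Cfsg.Agent.Lib.Helper91.SpU Cfsg.Agent.Lib.Helper91.SuU

theorem wo_JJo_apply (l : ℕ) (K : Type*) [Field K] (x y : Io l) :
    JJo l K x y = match x, y with
      | Sum.inl (Sum.inl _), Sum.inl (Sum.inl _) => 0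
      | Sum.inl (Sum.inl i), Sum.inl (Sum.inr j) => if i = j then 1 else 0
      | Sum.inl (Sum.inr i), Sum.inl (Sum.inl j) => if i = j then 1 else 0
      | Sum.inl (Sum.inr _), Sum.inl (Sum.inr _) => 0
      | Sum.inl _, Sum.inr _ => 0
      | Sum.inr _, Sum.inl _ => 0
      | Sum.inr _, Sum.inr _ => 1 := by
  rcases x with (i | i) | u <;> rcases y with (j | j) | v <;>
    simp [JJo, JJ, Matrix.one_apply]

theorem wo_JJo_transpose (l : ℕ) (K : Type*) [Field K] : (JJo l K)ᵀ = JJo l K := by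
  ext x y
  rw [Matrix.transpose_apply, wo_JJo_apply, wo_JJo_apply]
  rcases x with (i | i) | u <;> rcases y with (j | j) | v <;> simp [eq_comm]

theorem wo_JJo_mul_self (l : ℕ) (K : Type*) [Field K] : JJo l K * JJo l K = 1 := by
  unfold JJo JJ
  rw [Matrix.fromBlocks_multiply, Matrix.fromBlocks_multiply]
  simp only [Matrix.mul_zero, Matrix.zero_mul, Matrix.mul_one, add_zero, zero_add]
  rw [Matrix.fromBlocks_one, Matrix.fromBlocks_one]

/-- the columns of the hyperbolic basis matrix -/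
def woCol {K : Type*} [Field K] (l : ℕ) (e f : ℕ → Fin (2 * l + 1) → K) (d : Fin (2 * l + 1) → K) :
    Io l → Fin (2 * l + 1) → K
  | Sum.inl (Sum.inl i) => e i.val
  | Sum.inl (Sum.inr i) => f i.val
  | Sum.inr _ => d

theorem witt_odd {K : Type*} [Field K] [Fintype K] (q : ℕ) (hK : Fintype.card K = q ^ 2)
    (σ : K →+* K) (hσq : ∀ x, σ x = x ^ q) (l : ℕ) :
    ∃ (c : Matrix (Fin (2 * l + 1)) (Io l) K) (c' : Matrix (Io l) (Fin (2 * l + 1)) K),
      c * c' = 1 ∧ c' * c = 1 ∧ cᵀ * c.map σ = JJo l K := by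
  classical
  obtain ⟨e, f, d, fr⟩ := Cfsg.Agent.Lib.Helper57.SUReg.su_frame (F := K) (q := q) hK l
  obtain ⟨c, hc⟩ : ∃ c : Matrix (Fin (2 * l + 1)) (Io l) K, c = Matrix.of fun k x => woCol l e f d x k :=
    ⟨_, rfl⟩
  have hH : ∀ x y : Io l, (cᵀ * c.map σ) x y =
      Cfsg.hermForm (2 * l + 1) K q (woCol l e f d x) (woCol l e f d y) := by
    intro x y
    rw [Matrix.mul_apply]
    unfold Cfsg.hermForm
    apply Finset.sum_congr rfl
    intro k _
    rw [Matrix.transpose_apply, Matrix.map_apply, hc, Matrix.of_apply, Matrix.of_apply, hσq]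
  have hJ : cᵀ * c.map σ = JJo l K := by
    ext x y
    rw [hH, wo_JJo_apply]
    rcases x with (i | i) | u <;> rcases y with (j | j) | v
    · exact fr.ee i.val j.val i.isLt j.isLt
    · show Cfsg.hermForm (2 * l + 1) K q (e i.val) (f j.val) = _
      rw [fr.ef i.val j.val i.isLt j.isLt]
      simp [Fin.ext_iff]
    · exact Cfsg.Agent.Lib.Helper44.SUReg.WFr.ed hK fr i.val i.isLt
    · show Cfsg.hermForm (2 * l + 1) K q (f i.val) (e j.val) = _
      rw [Cfsg.Agent.Lib.Helper44.SUReg.WFr.fe hK fr i.val j.val i.isLt j.isLt]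
      simp [Fin.ext_iff]
    · exact fr.ff i.val j.val i.isLt j.isLt
    · exact Cfsg.Agent.Lib.Helper44.SUReg.WFr.fd hK fr i.val i.isLt
    · exact fr.de j.val j.isLt
    · exact fr.df j.val j.isLt
    · exact fr.dd
  have hJ' : (c.map σ)ᵀ * c = JJo l K := by
    have h := congrArg Matrix.transpose hJ
    rw [Matrix.transpose_mul, Matrix.transpose_transpose, wo_JJo_transpose] at h
    exact h
  have h1 : (JJo l K * (c.map σ)ᵀ) * c = 1 := by
    rw [Matrix.mul_assoc, hJ', wo_JJo_mul_self]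
  refine ⟨c, JJo l K * (c.map σ)ᵀ, ?_, h1, hJ⟩
  have hcard : Fintype.card (Io l) = Fintype.card (Fin (2 * l + 1)) := by
    simp [Io]
    omega
  exact (Matrix.mul_eq_one_comm_of_card_eq (Io l) (Fin (2 * l + 1)) K hcard).mp h1

end Cfsg.Agent.Lib.Helper91.SuO
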