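import Mathlib
import Cfsg.Agent.S0249
import Cfsg.Agent.Lib.Helper91.SuO
import Cfsg.Agent.Lib.Helper91.SuOOM1
import Cfsg.Agent.Lib.Helper91.SuOOM2
import Cfsg.Agent.Lib.Helper91.SuOOM3
import Cfsg.Agent.Lib.Helper91.SuOOM4
import Cfsg.Agent.Lib.Helper91.SuOOINV
import Cfsg.Agent.Lib.Helper91.SuOOJ
import Cfsg.Agent.Lib.Helper91.SuOOSH
import Cfsg.Agent.Lib.Helper91.SuOODET
import Cfsg.Agent.Lib.Helper91.SuOOFU
import Cfsg.Agent.Lib.Helper91.SuOOA1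
import Cfsg.Agent.Lib.Helper91.SuOOA3
import Cfsg.Agent.Lib.Helper91.SuOOA4
import Cfsg.Agent.Lib.Helper91.SuOOH1b
import Cfsg.Agent.Lib.Helper91.SuOOVEC
import Cfsg.Agent.Lib.Helper91.SuOODEC
import Cfsg.Agent.Lib.Helper91.SuOORB
import Cfsg.Agent.Lib.Helper91.SuOOH2a
import Cfsg.Agent.Lib.Helper91.SuOOTN
import Cfsg.Agent.Lib.Helper91.SuOOQ
import Cfsg.Agent.Lib.Helper91.SuOOQC
import Cfsg.Agent.Lib.Helper91.SuOOQ2
import Cfsg.Agent.Lib.Helper91.SuOOR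
import Cfsg.Agent.Lib.Helper91.SuOORC
import Cfsg.Agent.Lib.Helper91.SuOOUR
import Cfsg.Agent.Lib.Helper91.SuOOZR
import Cfsg.Agent.Lib.Helper91.SuOOR3
import Cfsg.Agent.Lib.Helper91.SuOOTL
import Cfsg.Agent.Lib.Helper91.SuOOZP
import Cfsg.Agent.Lib.Helper91.SuEven

set_option autoImplicit false

/-! S5172, odd case: the standard Sylow `p`-subgroup `U'` of `GUo l K σ` (`SU_{2l+1}` in a
hyperbolic basis) is a `GoodSyl`.  Assembly by helper91 from the job-board pieces. -/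

namespace Cfsg.Agent.Lib.Helper91.SuOdd

open Matrix Cfsg.Agent.Lib.Helper91.SpU Cfsg.Agent.Lib.Helper91.SuU Cfsg.Agent.Lib.Helper91.SuO
  Cfsg.Agent.Lib.Helper91.SimpleGen Cfsg.Agent.Lib.Helper91.PslU Cfsg.Agent.Lib.Helper91.SuEven

section assembly

variable (l : ℕ) (K : Type*) [Field K] (σ : K →+* K) (hσ : ∀ x, σ (σ x) = x)

/-- the additive group of columns `a` such that some `urho a B` lies in `T` -/
def AA (T : Subgroup (GUo l K σ)) : AddSubgroup (Matrix (Fin l) Unit K) where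
  carrier := {a | ∃ B : Matrix (Fin l) (Fin l) K,
    B.map σ = -Bᵀ - a.map σ * aᵀ ∧ urho l K σ a B ∈ T}
  add_mem' := by
    rintro a c ⟨B, hB, h⟩ ⟨C, hC, h'⟩
    obtain ⟨B', hB', he⟩ := urho_mul_ex l K σ hσ a B hB c C hC
    exact ⟨B', hB', he ▸ mul_mem h h'⟩
  zero_mem' := ⟨0, by simp, by rw [urho_zero l K σ hσ]; exact one_mem _⟩
  neg_mem' := by
    rintro a ⟨B, hB, h⟩
    obtain ⟨B', hB', he⟩ := urho_inv_ex l K σ hσ a B hB
    exact ⟨B', hB', he ▸ inv_mem h⟩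

theorem inUo_stabE (u : GUo l K σ) (hu : InUo l K σ u) : StabE l K σ u := ⟨hu.1, hu.2.2.1⟩

theorem jemb_stabE (g : GU l K σ) (hg : (mat l K σ g).toBlocks₂₁ = 0) :
    StabE l K σ (jemb l K σ g) := by
  refine ⟨?_, ?_⟩
  · rw [jemb_mat, Matrix.toBlocks_fromBlocks₁₁]
    exact hg
  · intro j
    rfl

theorem h3M_offdiag (i₀ : Fin l) (t : K) (a b : Io l) (hab : a ≠ b) : h3M l K σ i₀ t a b = 0 := by
  unfold h3M
  rw [Matrix.fromBlocks_diagonal, Matrix.fromBlocks_diagonal, Matrix.diagonal_apply_ne _ hab]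

include hσ

theorem jemb_uphi_stabE (s : SpecialLinearGroup (Fin l) K) :
    StabE l K σ (jemb l K σ (uphi l K σ hσ s)) := by
  apply jemb_stabE
  rw [uphi_mat, Matrix.toBlocks_fromBlocks₂₁]

theorem jemb_uphi_diag (s : SpecialLinearGroup (Fin l) K)
    (hs : ∀ i j : Fin l, i ≠ j → (s : Matrix (Fin l) (Fin l) K) i j = 0) (a b : Io l)
    (hab : a ≠ b) : mato l K σ (jemb l K σ (uphi l K σ hσ s)) a b = 0 := by
  rw [jemb_mat]
  rcases a with a | ⟨⟩ <;> rcases b with b | ⟨⟩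
  · rw [Matrix.fromBlocks_apply₁₁]
    exact Cfsg.Agent.Lib.Helper55.SuETD.uphi_diag l K σ hσ s hs a b (fun h => hab (by rw [h]))
  · rfl
  · rfl
  · exact absurd rfl hab

theorem jemb_uphi_normalizes (Q : Subgroup (GUo l K σ)) (hQ : ∀ g, g ∈ Q ↔ InQ l K σ g)
    (s : SpecialLinearGroup (Fin l) K) :
    jemb l K σ (uphi l K σ hσ s) ∈ Subgroup.normalizer (Q : Set (GUo l K σ)) := by
  have key : ∀ s : SpecialLinearGroup (Fin l) K, ∀ x ∈ Q,
      jemb l K σ (uphi l K σ hσ s) * x * (jemb l K σ (uphi l K σ hσ s))⁻¹ ∈ Q := by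
    intro s x hx
    refine (hQ _).mpr (Qo_conj l K σ _ (jemb_uphi_stabE l K σ hσ s) ?_ x ((hQ x).mp hx))
    rw [← map_inv, ← map_inv]
    exact jemb_uphi_stabE l K σ hσ s⁻¹
  apply Cfsg.Agent.Lib.Helper91.PslSimple.mem_normalizer_of_conj'
  · exact key s
  · intro x hx
    rw [← map_inv, ← map_inv]
    exact key s⁻¹ x hx

open Cfsg.Agent.Lib.Helper5.SpH1a in
theorem suo_H1 (hl : 2 ≤ l) [Finite (GU l K σ)] [Finite (GUo l K σ)] (p : ℕ) [Fact p.Prime]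
    [CharP K p] (ε : K) (hε0 : ε ≠ 0) (hε : σ ε = -ε) (θ : K) (hθ : σ θ ≠ θ)
    (htr : ∀ s : K, σ s = s → ∃ t : K, s = t + σ t)
    (U : Subgroup (GUo l K σ)) (hU : ∀ g, g ∈ U ↔ InUo l K σ g)
    (T : Subgroup (GUo l K σ)) (hT : T ≤ U)
    (hc : ∀ x ∈ T, ∀ g : GUo l K σ, g * x * g⁻¹ ∈ U → g * x * g⁻¹ ∈ T) :
    T = ⊥ ∨ T = U := by
  classical
  by_cases hT1 : T = ⊥
  · exact Or.inl hT1
  right
  have hUp : IsPGroup p U := Uo_isPGroup l K σ hσ p U hU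
  have hTn : ∀ u ∈ U, ∀ x ∈ T, u * x * u⁻¹ ∈ T :=
    fun u hu x hx => hc x hx u (mul_mem (mul_mem hu (hT hx)) (inv_mem hu))
  obtain ⟨z, hzT, hz1, hzc⟩ := exists_central p U T hUp hT hT1 hTn
  obtain ⟨t₁, ht₁⟩ := htr 1 (map_one σ)
  obtain ⟨z', rfl⟩ := center_Uo l K σ hσ ε hε0 hε t₁ ht₁.symm hl z ((hU z).mp (hT hzT))
    (fun u hu => hzc u ((hU u).mpr hu))
  obtain ⟨Ue, hUe⟩ := Cfsg.Agent.Lib.Helper77.SuEFU.exists_UU l K σ hσ
  have hTe_le : T.comap (jemb l K σ) ≤ Ue := by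
    intro g hg
    rw [hUe]
    exact (jemb_inUo_iff l K σ g).mp ((hU _).mp (hT hg))
  have hTe_sc : ∀ x ∈ T.comap (jemb l K σ), ∀ g : GU l K σ, g * x * g⁻¹ ∈ Ue →
      g * x * g⁻¹ ∈ T.comap (jemb l K σ) := by
    intro x hx g hgx
    rw [Subgroup.mem_comap, map_mul, map_mul, map_inv]
    apply hc _ (Subgroup.mem_comap.mp hx)
    rw [← map_inv, ← map_mul, ← map_mul]
    exact (hU _).mpr ((jemb_inUo_iff l K σ _).mpr ((hUe _).mp hgx))
  have hTe := su_H1 l K σ hσ hl p ε hε0 hε θ hθ htr Ue hUe (T.comap (jemb l K σ)) hTe_le hTe_sc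
  have hTe' : T.comap (jemb l K σ) = Ue := by
    rcases hTe with h | h
    · exfalso
      have hz' : z' ∈ T.comap (jemb l K σ) := Subgroup.mem_comap.mpr hzT
      rw [h, Subgroup.mem_bot] at hz'
      apply hz1
      rw [hz', map_one]
    · exact h
  have hjT : ∀ g : GU l K σ, InU l K σ g → jemb l K σ g ∈ T := by
    intro g hg
    have hg' : g ∈ T.comap (jemb l K σ) := by rw [hTe']; exact (hUe g).mpr hg
    exact Subgroup.mem_comap.mp hg'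
  obtain ⟨i₀, hi₀⟩ : ∃ i₀ : Fin l, (i₀ : ℕ) = 0 := ⟨⟨0, by omega⟩, rfl⟩
  obtain ⟨i₁, hi₁⟩ : ∃ i₁ : Fin l, (i₁ : ℕ) = 1 := ⟨⟨1, by omega⟩, rfl⟩
  have h01 : i₀ < i₁ := by
    rw [Fin.lt_def, hi₀, hi₁]
    exact Nat.zero_lt_one
  have hne : i₀ ≠ i₁ := ne_of_lt h01
  obtain ⟨S₀, hS₀⟩ : ∃ S₀ : SpecialLinearGroup (Fin l) K,
      S₀ = SpecialLinearGroup.transvection hne 1 := ⟨_, rfl⟩
  obtain ⟨a₀, ha₀⟩ : ∃ a₀ : Matrix (Fin l) Unit K, a₀ = Matrix.single i₁ () 1 := ⟨_, rfl⟩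
  have hc₀ : jemb l K σ (uphi l K σ hσ S₀) ∈ T := by
    rw [hS₀]
    exact hjT _ (uphi_transv_inU l K σ hσ i₀ i₁ hne h01 1)
  obtain ⟨B₀, hB₀⟩ := exists_rhoB l K σ hσ htr a₀
  have hx₀U : urho l K σ a₀ B₀ ∈ U := (hU _).mpr (urho_inUo l K σ hσ _ _ hB₀)
  obtain ⟨B₁, hB₁, he₁⟩ := urho_inv_ex l K σ hσ a₀ B₀ hB₀
  obtain ⟨B₂, hB₂, he₂⟩ := jemb_conj_urho_ex l K σ hσ S₀ (-a₀) B₁ hB₁
  obtain ⟨B₃, hB₃, he₃⟩ := urho_mul_ex l K σ hσ a₀ B₀ hB₀ _ B₂ hB₂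
  have hmem : urho l K σ (a₀ + (S₀ : Matrix (Fin l) (Fin l) K) * (-a₀)) B₃ ∈ T := by
    rw [← he₃, ← he₂, ← he₁]
    have h1 := hTn _ hx₀U _ hc₀
    have h2 := mul_mem h1 (inv_mem hc₀)
    convert h2 using 1
    group
  have hAA : ∀ a, a ∈ AA l K σ hσ T := by
    apply vec_all l K hl (AA l K σ hσ T) ?_ _ ?_ ⟨B₃, hB₃, hmem⟩
    · rintro a ⟨B, hB, h⟩ s
      obtain ⟨B', hB', he⟩ := jemb_conj_urho_ex l K σ hσ s a B hB
      refine ⟨B', hB', ?_⟩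
      rw [← he]
      apply hc _ h
      rw [he]
      exact (hU _).mpr (urho_inUo l K σ hσ _ _ hB')
    · intro h0
      have hS : (S₀ : Matrix (Fin l) (Fin l) K) = 1 + Matrix.single i₀ i₁ 1 := by
        rw [hS₀]
        rfl
      rw [hS, ha₀, Matrix.add_mul, Matrix.one_mul, Matrix.mul_neg,
        Matrix.single_mul_single_same] at h0
      have h1 := congrFun (congrFun h0 i₀) ()
      simp [hne] at h1
  apply le_antisymm hT
  intro u hu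
  obtain ⟨B, hB, hBT⟩ :=
    hAA (Matrix.of fun i _ => mato l K σ u (Sum.inl (Sum.inl i)) (Sum.inr ()))
  obtain ⟨g, hg, hug⟩ := Uo_decomp l K σ hσ U hU u ((hU u).mp hu) _ (fun i => rfl) B hB
  rw [hug]
  exact mul_mem hBT (hjT g hg)

theorem suo_H2 (hl : 2 ≤ l) (p : ℕ) [Fact p.Prime] [CharP K p]
    (ε : K) (hε0 : ε ≠ 0) (hε : σ ε = -ε) (t₁ : K) (ht₁ : t₁ + σ t₁ = 1)
    (hN : ∀ s : K, σ s = s → ∃ a : K, a * σ a = s)
    (U : Subgroup (GUo l K σ)) (hU : ∀ g, g ∈ U ↔ InUo l K σ g) :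
    Subgroup.normalizer (U : Set (GUo l K σ)) ≤
      Subgroup.closure ((U : Set (GUo l K σ)) ∪
        (Subgroup.centralizer (U : Set (GUo l K σ)) : Set (GUo l K σ)) ∪
        {h : GUo l K σ | h ∈ Subgroup.normalizer (U : Set (GUo l K σ)) ∧
          ∃ P : Subgroup (GUo l K σ), P ≤ U ∧ (∀ s ∈ U, ∀ x ∈ P, s * x * s⁻¹ ∈ P) ∧
            (∀ c ∈ U, (∀ x ∈ P, c * x = x * c) → c ∈ P) ∧
            h ∈ Subgroup.closure
              {x : GUo l K σ | x ∈ Subgroup.normalizer (P : Set (GUo l K σ)) ∧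
                ∃ k : ℕ, x ^ p ^ k = 1}}) := by
  classical
  intro g hg
  have hB := normalizer_Uo_tri l K σ hσ ε hε0 hε t₁ ht₁ U hU g hg
  obtain ⟨i₀, hi₀⟩ : ∃ i₀ : Fin l, (i₀ : ℕ) + 1 = l := ⟨⟨l - 1, by omega⟩, by simp; omega⟩
  obtain ⟨i₁, hi₁⟩ : ∃ i₁ : Fin l, (i₁ : ℕ) = 0 := ⟨⟨0, by omega⟩, rfl⟩
  have hne : i₀ ≠ i₁ := by
    intro h
    rw [h] at hi₀
    omega
  have hUp : IsPGroup p U := Uo_isPGroup l K σ hσ p U hU
  have h3 := tri_mem_closure_suo l K σ hσ g hB i₀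
  refine (Subgroup.closure_le _).mpr ?_ h3
  rintro x ((hx | ⟨s, hs, rfl⟩) | ⟨t, ht0, hx⟩)
  · exact Subgroup.subset_closure (Or.inl (Or.inl ((hU x).mpr hx)))
  · apply Subgroup.subset_closure
    right
    obtain ⟨Q, hQ⟩ := exists_Qo l K σ
    refine ⟨diag_normalizes_Uo l K σ hσ U hU _ (jemb_uphi_diag l K σ hσ s hs), Q, ?_, ?_, ?_, ?_⟩
    · intro x hx
      exact (hU _).mpr (inQ_inUo l K σ x ((hQ x).mp hx))
    · intro u hu x hx
      exact (hQ _).mpr (Qo_conj l K σ u (inUo_stabE l K σ u ((hU u).mp hu))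
        (inUo_stabE l K σ u⁻¹ ((hU _).mp (inv_mem hu))) x ((hQ x).mp hx))
    · intro c hc hcomm
      exact (hQ c).mpr (Qo_selfcent l K σ hσ ε hε0 hε c ((hU c).mp hc)
        (fun x hx => hcomm x ((hQ x).mpr hx)))
    · have : Nontrivial (Fin l) := Fin.nontrivial_iff_two_le.mpr hl
      refine Cfsg.Agent.S0249.transvection_induction
        (fun s => jemb l K σ (uphi l K σ hσ s) ∈ Subgroup.closure
          {x : GUo l K σ |
            x ∈ Subgroup.normalizer ((Q : Subgroup (GUo l K σ)) : Set (GUo l K σ)) ∧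
              ∃ k : ℕ, x ^ p ^ k = 1}) ?_ ?_ s
      · intro i j hij c
        apply Subgroup.subset_closure
        refine ⟨jemb_uphi_normalizes l K σ hσ Q hQ _, 1, ?_⟩
        rw [← map_pow, ← map_pow, Cfsg.Agent.Lib.Helper91.PslSimple.transv_pow_p, map_one, map_one]
      · intro A B hA hB
        rw [map_mul, map_mul]
        exact mul_mem hA hB
  · apply Subgroup.subset_closure
    right
    obtain ⟨R, hR⟩ := exists_Ro l K σ hσ i₁
    refine ⟨diag_normalizes_Uo l K σ hσ U hU x (by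
      intro a b hab
      rw [hx]
      exact h3M_offdiag l K σ i₀ t a b hab), R, ?_, ?_, ?_, ?_⟩
    · intro x hx
      exact (hU _).mpr (inR_inUo l K σ i₁ hi₁ x ((hR x).mp hx))
    · intro u hu x hx
      exact (hR _).mpr (Ro_conj l K σ hσ i₁ u (inUo_fixE l K σ i₁ hi₁ u ((hU u).mp hu)) x
        ((hR x).mp hx))
    · intro c hc hcomm
      exact (hR c).mpr (Ro_selfcent l K σ hσ hl i₁ hi₁ c ((hU c).mp hc)
        (fun x hx => hcomm x ((hR x).mpr hx)))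
    · obtain ⟨a₁, b₁, a₂, b₂, a₃, b₃, a₄, b₄, a₅, b₅, a₆, b₆, h₁, h₂, h₃, h₄, h₅, h₆, hxe⟩ :=
        torus_su3 l K σ hσ ε hε0 hε hN i₀ t ht0 x hx
      have hnorm : ∀ g : GUo l K σ, FixE l K σ i₁ g →
          g ∈ Subgroup.normalizer (R : Set (GUo l K σ)) := by
        intro g hg
        apply Cfsg.Agent.Lib.Helper91.PslSimple.mem_normalizer_of_conj'
        · exact fun x hx => (hR _).mpr (Ro_conj l K σ hσ i₁ g hg x ((hR x).mp hx))
        · exact fun x hx => (hR _).mpr (Ro_conj l K σ hσ i₁ g⁻¹ (fixE_inv l K σ i₁ g hg) x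
            ((hR x).mp hx))
      have hzu : ∀ a b : K, b + σ b + a * σ a = 0 → zu l K σ i₀ a b ∈ Subgroup.closure
          {x : GUo l K σ | x ∈ Subgroup.normalizer (R : Set (GUo l K σ)) ∧
            ∃ k : ℕ, x ^ p ^ k = 1} := by
        intro a b h
        apply Subgroup.subset_closure
        refine ⟨hnorm _ (zu_fixE l K σ hσ i₀ i₁ hne a b h), ?_⟩
        have hmem : zu l K σ i₀ a b ∈ U := (hU _).mpr (zu_inUo l K σ hσ i₀ a b h)
        obtain ⟨k, hk⟩ := hUp ⟨_, hmem⟩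
        exact ⟨k, by simpa using congrArg Subtype.val hk⟩
      have hzl : ∀ a b : K, b + σ b + a * σ a = 0 → zl l K σ i₀ a b ∈ Subgroup.closure
          {x : GUo l K σ | x ∈ Subgroup.normalizer (R : Set (GUo l K σ)) ∧
            ∃ k : ℕ, x ^ p ^ k = 1} := by
        intro a b h
        apply Subgroup.subset_closure
        exact ⟨hnorm _ (zl_fixE l K σ hσ i₀ i₁ hne a b h), 2, zl_pelem l K σ hσ p i₀ a b h⟩
      rw [hxe]
      exact mul_mem (mul_mem (mul_mem (mul_mem (mul_mem (hzl _ _ h₁) (hzu _ _ h₂)) (hzl _ _ h₃))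
        (hzl _ _ h₄)) (hzu _ _ h₅)) (hzl _ _ h₆)

open Cfsg.Agent.Lib.Helper5.SpA2 in
/-- the odd case: a subgroup `U` of `GUo l K σ` which is a Sylow `p`-subgroup and a `GoodSyl` -/
theorem suo_good (hl : 2 ≤ l) [Finite (GU l K σ)] [Finite (GUo l K σ)] (p : ℕ) [Fact p.Prime]
    [CharP K p] (ε : K) (hε0 : ε ≠ 0) (hε : σ ε = -ε) (θ : K) (hθ : σ θ ≠ θ)
    (htr : ∀ s : K, σ s = s → ∃ t : K, s = t + σ t)
    (hN : ∀ s : K, σ s = s → ∃ a : K, a * σ a = s) :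
    ∃ U : Subgroup (GUo l K σ), IsPGroup p U ∧
      (∃ S₀ : Sylow p (GUo l K σ), (S₀ : Subgroup _) = U) ∧ GoodSyl p U := by
  obtain ⟨t₁, ht₁⟩ := htr 1 (map_one σ)
  obtain ⟨U, hU⟩ := exists_Uo l K σ hσ
  have hUp := Uo_isPGroup l K σ hσ p U hU
  refine ⟨U, hUp, ?_, ?_, fun T hT hc => suo_H1 l K σ hσ hl p ε hε0 hε θ hθ htr U hU T hT hc,
    suo_H2 l K σ hσ hl p ε hε0 hε t₁ ht₁.symm hN U hU⟩
  · exact sylow_of_normalizer p U hUp (fun x hx hk => by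
      obtain ⟨k, hk⟩ := hk
      have hB := normalizer_Uo_tri l K σ hσ ε hε0 hε t₁ ht₁.symm U hU x hx
      have hd := pelem_tri_diag l K σ p x hB k hk
      exact (hU x).mpr (inUo_of_stabE l K σ x ⟨hB.1, hB.2.2⟩ ⟨hB.2.1, hd⟩))
  · intro h
    have hm' := (hU (jemb l K σ (uyy l K σ ⟨0, by omega⟩ ε hε))).mpr
      ((jemb_inUo_iff l K σ _).mpr (uyy_inU l K σ _ ε hε))
    rw [h, Subgroup.mem_bot] at hm'
    have h1 : uyy l K σ ⟨0, by omega⟩ ε hε = 1 :=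
      jemb_injective l K σ (by rw [hm', map_one])
    have := congrArg (fun g : GU l K σ =>
      mat l K σ g (Sum.inl ⟨0, by omega⟩) (Sum.inr ⟨0, by omega⟩)) h1
    simp [uyy_mat, mat_one] at this
    exact hε0 this

end assembly

end Cfsg.Agent.Lib.Helper91.SuOdd
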