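import Mathlib
import Cfsg.Agent.Lib.Helper91.SuFin
import Cfsg.Agent.Lib.Helper91.SuOdd
import Cfsg.Agent.Lib.Helper91.SuOWO

set_option autoImplicit false

/-! S5172: the `p`-fusion system of `PSU_n(K)`, `|K| = q²`, `char K = p`, `n ≥ 4`, is simple.
Final glue (even and odd case).  helper91. -/

namespace Cfsg.Agent.Lib.Helper91.SuSimple

open Matrix Cfsg.Agent.Lib.Helper91.SuO Cfsg.Agent.Lib.Helper91.SimpleGen
  Cfsg.Agent.Lib.Helper91.SuFin Cfsg.Agent.Lib.Helper91.SuOdd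

theorem psu_odd {K : Type*} [Field K] [Fintype K] (p q : ℕ) [Fact p.Prime] [CharP K p]
    (hK : Fintype.card K = q ^ 2) (l : ℕ) (hl : 2 ≤ l) (S : Sylow p (Cfsg.PSU (2 * l + 1) K q)) :
    (Cfsg.groupFusionSystem (S : Subgroup (Cfsg.PSU (2 * l + 1) K q))).IsSimple p := by
  classical
  obtain ⟨σ, hσq, hσ, ⟨θ, hθ⟩, ⟨ε, hε0, hε⟩, htr, hN⟩ :=
    Cfsg.Agent.Lib.Helper23.SuFF.ff_sigma q hK
  obtain ⟨c, c', h1, h2, hc⟩ := witt_odd q hK σ hσq l
  obtain ⟨e⟩ := Cfsg.Agent.Lib.Helper17.SuISOB.su_iso_of_basis q σ hσq (2 * l + 1) (JJo l K) c c'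
    h1 h2 hc (GUo l K σ) (fun g => Iff.rfl)
  haveI : Finite ↥(Cfsg.Agent.Lib.Helper91.SuU.GU l K σ) := inferInstance
  haveI : Finite ↥(GUo l K σ) := inferInstance
  obtain ⟨U, hUp, hS, hg⟩ := suo_good l K σ hσ hl p ε hε0 hε θ hθ htr hN
  exact psu_simple_of_good p q hK (2 * l + 1) e U hUp hS hg S

theorem psu_simple {K : Type*} [Field K] [Fintype K] (p q : ℕ) [Fact p.Prime] [CharP K p]
    (hK : Fintype.card K = q ^ 2) (n : ℕ) (hn : 4 ≤ n) (S : Sylow p (Cfsg.PSU n K q)) :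
    (Cfsg.groupFusionSystem (S : Subgroup (Cfsg.PSU n K q))).IsSimple p := by
  rcases Nat.even_or_odd' n with ⟨l, rfl | rfl⟩
  · exact psu_even p q hK l (by omega) S
  · exact psu_odd p q hK l (by omega) S

end Cfsg.Agent.Lib.Helper91.SuSimple
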