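import Cfsg.Agent.Lib.Helper22.W2Defs

/-! Project W2 (S4707, helper22): PIECE FCSYM. -/

set_option autoImplicit false

namespace Cfsg.Agent.Lib.Helper91.W2

open Cfsg Cfsg.Agent.Lib.Helper22.W2
open scoped ComplexConjugate

universe u

variable {G : Type u} [Group G] [Fintype G]

/-- PIECE FCSYM -/
theorem fc_sym (p : ℕ) [Fact p.Prime] (w : ℂ) (hw : IsPrimitiveRoot w p) (z : G)
    (hz : orderOf z = p) (hinv : ∃ n : G, n * z * n⁻¹ = z⁻¹) (χ : G → ℂ)
    (hχ : ∀ g x : G, χ (x * g * x⁻¹) = χ g) (u : ZMod p) :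
    fc p w z χ (-u) = fc p w z χ u := by
  obtain ⟨n, hn⟩ := hinv
  have hzp : z ^ p = 1 := by rw [← hz]; exact pow_orderOf_eq_one z
  have key : ∀ t : ZMod p, χ (z ^ (-t).val) = χ (z ^ t.val) := by
    intro t
    have h1 : z ^ (-t).val * z ^ t.val = 1 := by
      rw [← pow_add]
      have h2 : (((-t).val + t.val : ℕ) : ZMod p) = 0 := by
        push_cast
        rw [ZMod.natCast_zmod_val, ZMod.natCast_zmod_val]
        ring
      obtain ⟨k, hk⟩ := (ZMod.natCast_eq_zero_iff _ p).1 h2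
      rw [hk, pow_mul, hzp, one_pow]
    have h3 : z ^ (-t).val = n * z ^ t.val * n⁻¹ := by
      have h4 : z ^ (-t).val = (z ^ t.val)⁻¹ := eq_inv_of_mul_eq_one_left h1
      rw [h4, ← inv_pow, ← hn, conj_pow]
    rw [h3, hχ]
  unfold fc
  congr 1
  rw [← Equiv.sum_comp (Equiv.neg (ZMod p))]
  apply Finset.sum_congr rfl
  intro t _
  simp only [Equiv.neg_apply]
  rw [key t, neg_mul_neg]

end Cfsg.Agent.Lib.Helper91.W2
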